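import Cfsg.Agent.G2Two.Local

/-!
# The Sylow 3-subgroup is extraspecial and a TI-subgroup
-/

set_option autoImplicit false
set_option linter.style.haveILetI false
set_option linter.unusedSectionVars false

noncomputable section

open Finset Subgroup Cfsg.Agent.SmallGroups

namespace Cfsg.Agent.G2Two

universe u

variable {G : Type u} [Group G] [Fintype G] [IsSimpleGroup G] (hG : Hyp G) {χ : G → ℂ} (hχ : Six χ)
include hG hχ

theorem even_minus (H : Subgroup G) [Fintype H] [DecidablePred fun x : H => χ x = -3] :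
    Even (Finset.univ.filter fun x : H => χ x = -3).card := by
  classical
  haveI := Fact.mk Nat.prime_two
  have h : ∑ x : H, (if χ x = -3 then (1 : ZMod 2) else 0) = 0 := by
    refine Finset.sum_involution (fun x _ => x⁻¹) (fun x _ => ?_) (fun x _ hx => ?_)
      (fun x _ => Finset.mem_univ _) (fun x _ => inv_inv x)
    · have e : χ ((x⁻¹ : H) : G) = χ x := by rw [InvMemClass.coe_inv, value_inv hG hχ]
      by_cases h3 : χ x = -3
      · rw [if_pos h3, if_pos (e.trans h3)]; rfl
      · rw [if_neg h3, if_neg fun h => h3 (e.symm.trans h)]; rfl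
    · intro e
      have hx3 : χ x = -3 := by by_contra h; exact hx (if_neg h)
      have hne : (x : G) ≠ 1 := fun h1 => by rw [h1, hχ.one] at hx3; norm_num at hx3
      have h2 : (x : G) ^ 2 = 1 := by
        rw [pow_two]
        nth_rewrite 1 [← e]
        simp
      obtain ⟨v, hv, hd, -, -⟩ := involution_value (not_comm hG.card) hχ.irr (d := 6)
        (by exact_mod_cast hχ.one) (by norm_num) (orderOf_eq_prime h2 hne)
      have : v = -3 := by exact_mod_cast hv.symm.trans hx3
      omega
  rw [Finset.sum_boole] at h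
  exact even_iff_two_dvd.2 ((ZMod.natCast_eq_zero_iff _ _).1 h)

section sylow

variable (P : Sylow 3 G)

theorem ord_mem {g : G} (hg : g ∈ (P : Subgroup G)) (hg1 : g ≠ 1) : orderOf g = 3 :=
  orderOf_eq_three hG (dvd_of_eq (card_sylow_three hG P)) hg hg1

/-- The values on a Sylow 3-subgroup. -/
theorem exists_center : ∃ c : G, c ∈ (P : Subgroup G) ∧ orderOf c = 3 ∧ χ c = -3 ∧
    (∀ g ∈ (P : Subgroup G), g ∉ zpowers c → χ g = 0) ∧ (∀ g ∈ (P : Subgroup G), Commute c g) := by
  classical
  haveI := Fact.mk Nat.prime_two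
  haveI := Fact.mk Nat.prime_three
  letI : Fintype ↥(P : Subgroup G) := Fintype.ofFinite _
  have hval : ∀ x : ↥(P : Subgroup G), x ≠ 1 → χ x = -3 ∨ χ x = 0 ∨ χ x = 3 := fun x hx => by
    rcases values hG hχ (ord_mem hG hχ P x.2 fun h => hx (Subtype.ext h)) with h | h | h
    · exact Or.inl h.1
    · exact Or.inr (Or.inl h)
    · exact Or.inr (Or.inr h)
  set A := Finset.univ.filter fun x : ↥(P : Subgroup G) => χ x = 3 with hA
  set B := Finset.univ.filter fun x : ↥(P : Subgroup G) => χ x = -3 with hB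
  set Z := Finset.univ.filter fun x : ↥(P : Subgroup G) => χ x = 0 with hZ
  have hpt : ∀ x : ↥(P : Subgroup G), χ x = 6 * (if x = 1 then 1 else 0) + 3 * (if χ x = 3 then 1 else 0) +
        (-3) * (if χ x = -3 then 1 else 0) ∧
      χ x * χ x = 36 * (if x = 1 then 1 else 0) + 9 * (if χ x = 3 then 1 else 0) +
        9 * (if χ x = -3 then 1 else 0) ∧
      (1 : ℂ) = (if x = 1 then 1 else 0) + (if χ x = 3 then 1 else 0) + (if χ x = -3 then 1 else 0) +
        (if χ x = 0 then 1 else 0) := by
    intro x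
    by_cases hx : x = 1
    · subst hx
      simp only [OneMemClass.coe_one, hχ.one, if_true]
      norm_num
    · rcases hval x hx with h | h | h <;> simp only [h, if_neg hx] <;> norm_num
  have hcard : Fintype.card ↥(P : Subgroup G) = 27 := by
    rw [← Nat.card_eq_fintype_card]; exact card_sylow_three hG P
  have hsum1 : ∑ x : ↥(P : Subgroup G), χ x = 6 + 3 * (A.card : ℂ) - 3 * (B.card : ℂ) := by
    rw [Finset.sum_congr rfl fun x _ => (hpt x).1, Finset.sum_add_distrib, Finset.sum_add_distrib,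
      ← Finset.mul_sum, ← Finset.mul_sum, ← Finset.mul_sum, Finset.sum_boole, Finset.sum_boole,
      Finset.sum_boole, Finset.filter_eq', if_pos (Finset.mem_univ _), Finset.card_singleton]
    simp only [A, B]
    ring
  have hsum2 : ∑ x : ↥(P : Subgroup G), χ x * χ x = 36 + 9 * (A.card : ℂ) + 9 * (B.card : ℂ) := by
    rw [Finset.sum_congr rfl fun x _ => (hpt x).2.1, Finset.sum_add_distrib, Finset.sum_add_distrib,
      ← Finset.mul_sum, ← Finset.mul_sum, ← Finset.mul_sum, Finset.sum_boole, Finset.sum_boole,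
      Finset.sum_boole, Finset.filter_eq', if_pos (Finset.mem_univ _), Finset.card_singleton]
    simp only [A, B]
    ring
  have h27 : 26 = A.card + B.card + Z.card := by
    have h : ∑ _x : ↥(P : Subgroup G), (1 : ℂ) = 1 + (A.card : ℂ) + B.card + Z.card := by
      rw [Finset.sum_congr rfl fun x _ => (hpt x).2.2, Finset.sum_add_distrib, Finset.sum_add_distrib,
        Finset.sum_add_distrib, Finset.sum_boole, Finset.sum_boole, Finset.sum_boole, Finset.sum_boole,
        Finset.filter_eq', if_pos (Finset.mem_univ _), Finset.card_singleton]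
      simp only [A, B, Z]
      norm_num
    rw [Finset.sum_const, Finset.card_univ, hcard, nsmul_eq_mul, mul_one] at h
    have h' : 27 = 1 + A.card + B.card + Z.card := by exact_mod_cast h
    omega
  obtain ⟨m, hm⟩ := sum_nat hG hχ (P : Subgroup G)
  rw [hsum1, Nat.card_eq_fintype_card, hcard] at hm
  have hm' : (6 : ℤ) + 3 * A.card - 3 * B.card = 27 * m := by exact_mod_cast hm
  obtain ⟨N, hN⟩ := sum_sq_nat hG hχ (P : Subgroup G)
  rw [hsum2, Nat.card_eq_fintype_card, hcard] at hN
  have hN' : (36 : ℤ) + 9 * A.card + 9 * B.card = 27 * N := by exact_mod_cast hN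
  -- the zeros fall into regular orbits of a group of order 8
  have h8 : 8 ∣ Z.card := by
    set N₀ := normalizer ((P : Subgroup G) : Set G) with hN₀
    obtain ⟨K, hK⟩ := Sylow.exists_subgroup_card_pow_prime 2 (n := 3) (G := ↥N₀)
      (by rw [hN₀, card_normalizer hG hχ P]; norm_num)
    let X := {x : ↥(P : Subgroup G) // χ x = 0}
    letI : MulAction ↥K X :=
      { smul := fun k x => ⟨⟨((k : ↥N₀) : G) * (x.1 : G) * ((k : ↥N₀) : G)⁻¹,
            (Subgroup.mem_normalizer_iff.1 (k : ↥N₀).2 _).1 x.1.2⟩, by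
          show χ (((k : ↥N₀) : G) * (x.1 : G) * ((k : ↥N₀) : G)⁻¹) = 0
          rw [Char.irr_isClassFunction hχ.irr]; exact x.2⟩
        one_smul := fun x => Subtype.ext (Subtype.ext (by
          show (((1 : ↥K) : ↥N₀) : G) * (x.1 : G) * (((1 : ↥K) : ↥N₀) : G)⁻¹ = (x.1 : G)
          simp))
        mul_smul := fun k k' x => Subtype.ext (Subtype.ext (by
          show (((k * k' : ↥K) : ↥N₀) : G) * (x.1 : G) * (((k * k' : ↥K) : ↥N₀) : G)⁻¹ =
            ((k : ↥N₀) : G) * (((k' : ↥N₀) : G) * (x.1 : G) * ((k' : ↥N₀) : G)⁻¹) * ((k : ↥N₀) : G)⁻¹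
          simp [mul_assoc])) }
    have hfree : ∀ (k : ↥K) (x : X), k • x = x → k = 1 := by
      intro k x hx
      by_contra hk
      have hxg : ((k : ↥N₀) : G) * (x.1 : G) * ((k : ↥N₀) : G)⁻¹ = (x.1 : G) :=
        congrArg (fun y : X => (y.1 : G)) hx
      have hc : Commute ((k : ↥N₀) : G) (x.1 : G) := by
        show _ = _
        calc ((k : ↥N₀) : G) * (x.1 : G) =
            ((k : ↥N₀) : G) * (x.1 : G) * ((k : ↥N₀) : G)⁻¹ * ((k : ↥N₀) : G) := by group
          _ = _ := by rw [hxg]
      have hko : orderOf k ∣ 2 ^ 3 := hK ▸ orderOf_dvd_natCard k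
      obtain ⟨j, hj, hj'⟩ := (Nat.dvd_prime_pow Nat.prime_two).1 hko
      have hj0 : j ≠ 0 := fun e => hk (orderOf_eq_one_iff.1 (by simpa [e] using hj'))
      have ht : orderOf (((k ^ 2 ^ (j - 1) : ↥K) : ↥N₀) : G) = 2 := by
        rw [Subgroup.orderOf_coe, Subgroup.orderOf_coe, orderOf_pow' k (by positivity), hj',
          Nat.gcd_eq_right (pow_dvd_pow 2 (Nat.sub_le j 1)), Nat.pow_div (Nat.sub_le j 1) (by norm_num),
          show j - (j - 1) = 1 by omega, pow_one]
      have hx1 : (x.1 : G) ≠ 1 := fun e => by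
        have := x.2
        rw [e, hχ.one] at this
        norm_num at this
      refine hχ.zero (x.1 : G) _ (ord_mem hG hχ P x.1.2 hx1) x.2 ht ?_
      rw [SubmonoidClass.coe_pow, SubmonoidClass.coe_pow]
      exact hc.pow_left _
    have h := OWagner.card_dvd_of_free hfree
    rw [hK] at h
    rwa [Nat.card_eq_fintype_card, Fintype.card_subtype] at h
  -- there are exactly two negative values
  have hB2 : A.card = 0 ∧ B.card = 2 := by
    by_cases hB0 : B.card = 0
    · obtain ⟨q, hq⟩ := h8; omega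
    obtain ⟨g, hg⟩ := Finset.card_pos.1 (Nat.pos_of_ne_zero hB0)
    have hg' : χ g = -3 := (Finset.mem_filter.1 hg).2
    have hg1 : (g : G) ≠ 1 := fun e => by rw [e, hχ.one] at hg'; norm_num at hg'
    have h0 := sum_eq_zero_of_minus hG hχ (P : Subgroup G) g.2 (ord_mem hG hχ P g.2 hg1) hg'
    rw [hsum1] at h0
    have h0' : (6 : ℤ) + 3 * A.card - 3 * B.card = 0 := by exact_mod_cast h0
    obtain ⟨q, hq⟩ := h8
    have hq' : Z.card = 24 ∨ Z.card = 0 := by omega
    rcases hq' with hq' | hq'
    · omega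
    exfalso
    -- no value zero: look at a subgroup of order nine
    obtain ⟨H, hH⟩ := Sylow.exists_subgroup_card_pow_prime 3 (n := 2) (G := ↥(P : Subgroup G))
      (by rw [Nat.card_eq_fintype_card, hcard]; norm_num)
    set H' := H.map (P : Subgroup G).subtype with hH'
    have hH'c : Nat.card H' = 9 := by
      rw [hH', Subgroup.card_map_of_injective (Subgroup.subtype_injective _), hH]; norm_num
    letI : Fintype ↥H' := Fintype.ofFinite _
    have hHP : H' ≤ (P : Subgroup G) := Subgroup.map_subtype_le H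
    have hne0 : ∀ x ∈ H', x ≠ 1 → χ x = -3 ∨ χ x = 3 := fun x hx hx1 => by
      rcases hval ⟨x, hHP hx⟩ (fun e => hx1 (congrArg Subtype.val e)) with h | h | h
      · exact Or.inl h
      · exfalso
        have : (⟨x, hHP hx⟩ : ↥(P : Subgroup G)) ∈ Z := Finset.mem_filter.2 ⟨Finset.mem_univ _, h⟩
        rw [Finset.card_eq_zero.1 hq'] at this
        exact Finset.notMem_empty _ this
      · exact Or.inr h
    have hev := even_minus hG hχ H'
    set b := (Finset.univ.filter fun x : ↥H' => χ x = -3).card with hb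
    have hsH : ∑ x : ↥H', χ x = 6 + 3 * 8 - 6 * (b : ℂ) := by
      have hpt' : ∀ x : ↥H', χ x = 3 + 3 * (if x = 1 then 1 else 0) + (-6) * (if χ x = -3 then 1 else 0) := by
        intro x
        by_cases hx : x = 1
        · subst hx
          simp only [OneMemClass.coe_one, hχ.one, if_true]
          norm_num
        · rcases hne0 x x.2 (fun e => hx (Subtype.ext e)) with h | h <;> simp only [h, if_neg hx] <;> norm_num
      rw [Finset.sum_congr rfl fun x _ => hpt' x, Finset.sum_add_distrib, Finset.sum_add_distrib,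
        ← Finset.mul_sum, ← Finset.mul_sum, Finset.sum_boole, Finset.sum_boole, Finset.filter_eq',
        if_pos (Finset.mem_univ _), Finset.card_singleton, Finset.sum_const, Finset.card_univ,
        ← Nat.card_eq_fintype_card, hH'c, ← hb]
      simp only [nsmul_eq_mul]
      push_cast
      ring
    obtain ⟨m', hm2⟩ := sum_nat hG hχ H'
    by_cases hb0 : b = 0
    · rw [hsH, hb0, hH'c] at hm2
      have : (30 : ℕ) = 9 * m' := by
        have : ((30 : ℕ) : ℂ) = ((9 * m' : ℕ) : ℂ) := by push_cast; linear_combination hm2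
        exact_mod_cast this
      omega
    · obtain ⟨x, hx⟩ := Finset.card_pos.1 (Nat.pos_of_ne_zero hb0)
      have hx' : χ x = -3 := (Finset.mem_filter.1 hx).2
      have hx1 : (x : G) ≠ 1 := fun e => by rw [e, hχ.one] at hx'; norm_num at hx'
      have h0 := sum_eq_zero_of_minus hG hχ H' x.2 (ord_mem hG hχ P (hHP x.2) hx1) hx'
      rw [hsH] at h0
      have : ((30 : ℕ) : ℂ) = ((6 * b : ℕ) : ℂ) := by push_cast; linear_combination h0
      have h5 : 30 = 6 * b := by exact_mod_cast this
      rcases hev with ⟨r, hr⟩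
      omega
  obtain ⟨c, hc⟩ := Finset.card_pos.1 (show 0 < B.card by omega)
  have hc' : χ c = -3 := (Finset.mem_filter.1 hc).2
  have hc1 : (c : G) ≠ 1 := fun e => by rw [e, hχ.one] at hc'; norm_num at hc'
  have hc3 : orderOf (c : G) = 3 := ord_mem hG hχ P c.2 hc1
  have hcne : c⁻¹ ≠ c := fun e => by
    have h2 : (c : G) ^ 2 = 1 := by
      rw [pow_two]
      nth_rewrite 1 [← e]
      simp
    have := orderOf_dvd_of_pow_eq_one h2
    rw [hc3] at this
    norm_num at this
  have hBeq : B = {c, c⁻¹} := (Finset.eq_of_subset_of_card_le (fun x hx => by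
    rcases Finset.mem_insert.1 hx with rfl | hx
    · exact hc
    · rw [Finset.mem_singleton.1 hx]
      exact Finset.mem_filter.2 ⟨Finset.mem_univ _, by rw [InvMemClass.coe_inv, value_inv hG hχ, hc']⟩)
    (by rw [hB2.2, Finset.card_pair hcne.symm])).symm
  have hminus : ∀ g ∈ (P : Subgroup G), χ g = -3 → g = c ∨ g = (c : G)⁻¹ := fun g hg h => by
    have : (⟨g, hg⟩ : ↥(P : Subgroup G)) ∈ B := Finset.mem_filter.2 ⟨Finset.mem_univ _, h⟩
    rw [hBeq] at this
    rcases Finset.mem_insert.1 this with e | e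
    · exact Or.inl (congrArg Subtype.val e)
    · exact Or.inr (congrArg Subtype.val (Finset.mem_singleton.1 e))
  refine ⟨c, c.2, hc3, hc', fun g hg hgc => ?_, fun g hg => ?_⟩
  · have hg1 : (⟨g, hg⟩ : ↥(P : Subgroup G)) ≠ 1 := fun e => hgc (by
      have : g = 1 := congrArg Subtype.val e
      rw [this]; exact one_mem _)
    rcases hval ⟨g, hg⟩ hg1 with h | h | h
    · exfalso
      rcases hminus g hg h with rfl | rfl
      · exact hgc (mem_zpowers _)
      · exact hgc (inv_mem (mem_zpowers _))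
    · exact h
    · exfalso
      have : (⟨g, hg⟩ : ↥(P : Subgroup G)) ∈ A := Finset.mem_filter.2 ⟨Finset.mem_univ _, h⟩
      rw [Finset.card_eq_zero.1 hB2.1] at this
      exact Finset.notMem_empty _ this
  · have hv : χ (g * c * g⁻¹) = -3 := by rw [Char.irr_isClassFunction hχ.irr]; exact hc'
    rcases hminus _ (mul_mem (mul_mem hg c.2) (inv_mem hg)) hv with e | e
    · show (c : G) * g = g * c
      calc (c : G) * g = g * c * g⁻¹ * g := by rw [e]
        _ = g * c := by group
    · have h2 : g * (g * c * g⁻¹) * g⁻¹ = c := by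
        rw [e]
        calc g * (c : G)⁻¹ * g⁻¹ = (g * c * g⁻¹)⁻¹ := by group
          _ = c := by rw [e, inv_inv]
      rcases eq_or_ne g 1 with rfl | hg1
      · exact Commute.one_right _
      have hg3 : g ^ 3 = 1 := by rw [← ord_mem hG hχ P hg hg1]; exact pow_orderOf_eq_one g
      show (c : G) * g = g * c
      calc (c : G) * g = g ^ 3 * c * (g ^ 3)⁻¹ * g := by rw [hg3]; group
        _ = g * (g * (g * c * g⁻¹) * g⁻¹) := by simp [pow_succ, mul_assoc]
        _ = g * c := by rw [h2]

/-- Commuting elements generate a subgroup containing the centre. -/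
theorem mem_pow_of_commute {c : G} (hc3 : orderOf c = 3)
    (hz : ∀ g ∈ (P : Subgroup G), g ∉ zpowers c → χ g = 0) {g h : G} (hg : g ∈ (P : Subgroup G))
    (hh : h ∈ (P : Subgroup G)) (hgc : g ∉ zpowers c) (hgh : Commute g h) :
    h ∈ zpowers c ⊔ zpowers g := by
  classical
  by_contra hcon
  have hg1 : g ≠ 1 := fun e => hgc (e ▸ one_mem _)
  have hhg : h ∉ zpowers g := fun e => hcon (Subgroup.mem_sup_right e)
  have hh1 : h ≠ 1 := fun e => hhg (e ▸ one_mem _)
  have hgo := ord_mem hG hχ P hg hg1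
  have hho := ord_mem hG hχ P hh hh1
  have hdisj : Disjoint (zpowers g) (zpowers h) := by
    rw [disjoint_iff_inf_le]
    intro x hx
    by_contra hx1
    rw [Subgroup.mem_bot] at hx1
    refine hhg ?_
    have hxo : orderOf x = 3 := ord_mem hG hχ P (zpowers_le.2 hg hx.1) hx1
    have he : zpowers x = zpowers h := Subgroup.eq_of_le_of_card_ge (zpowers_le.2 hx.2)
      (by rw [Nat.card_zpowers, Nat.card_zpowers, hxo, hho])
    exact zpowers_le.2 hx.1 (he ▸ mem_zpowers h)
  let φ : ↥(zpowers g) × ↥(zpowers h) →* G :=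
    MonoidHom.noncommCoprod (zpowers g).subtype (zpowers h).subtype (by
      rintro ⟨_, i, rfl⟩ ⟨_, j, rfl⟩
      exact (hgh.zpow_left i).zpow_right j)
  have hφ : Function.Injective φ := by
    refine (injective_iff_map_eq_one φ).2 ?_
    rintro ⟨a, b⟩ hab
    have hab' : (a : G) * (b : G) = 1 := hab
    have ha : (a : G) ∈ zpowers h := by
      rw [eq_inv_of_mul_eq_one_left hab']; exact inv_mem b.2
    have ha1 : (a : G) = 1 := Subgroup.mem_bot.1 (hdisj.le_bot ⟨a.2, ha⟩)
    exact Prod.ext (Subtype.ext ha1) (Subtype.ext (by rw [ha1, one_mul] at hab'; exact hab'))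
  have hcard : Nat.card φ.range = 9 := by
    rw [← Nat.card_congr (MonoidHom.ofInjective hφ).toEquiv, Nat.card_prod, Nat.card_zpowers,
      Nat.card_zpowers, hgo, hho]
  letI : Fintype ↥φ.range := Fintype.ofFinite _
  have hle : φ.range ≤ (P : Subgroup G) := by
    rintro _ ⟨⟨a, b⟩, rfl⟩
    exact mul_mem (zpowers_le.2 hg a.2) (zpowers_le.2 hh b.2)
  by_cases hc : c ∈ φ.range
  · obtain ⟨⟨⟨a, i, rfl⟩, ⟨b, j, rfl⟩⟩, hcab⟩ := hc
    have hcab' : g ^ i * h ^ j = c := hcab
    by_cases hj : h ^ j = 1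
    · rw [hj, mul_one] at hcab'
      refine hgc ?_
      have he : zpowers c = zpowers g := Subgroup.eq_of_le_of_card_ge (zpowers_le.2 ⟨i, hcab'⟩)
        (by rw [Nat.card_zpowers, Nat.card_zpowers, hc3, hgo])
      exact he ▸ mem_zpowers g
    · refine hcon ?_
      have hmem : h ^ j ∈ zpowers c ⊔ zpowers g := by
        rw [show h ^ j = (g ^ i)⁻¹ * c by rw [← hcab']; group]
        exact mul_mem (inv_mem (Subgroup.mem_sup_right ⟨i, rfl⟩)) (Subgroup.mem_sup_left (mem_zpowers c))
      have he : zpowers (h ^ j) = zpowers h := Subgroup.eq_of_le_of_card_ge (zpowers_le.2 ⟨j, rfl⟩)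
        (by rw [Nat.card_zpowers, Nat.card_zpowers,
          ord_mem hG hχ P (Subgroup.zpow_mem _ hh j) hj, hho])
      exact zpowers_le.2 hmem (he ▸ mem_zpowers h)
  · obtain ⟨m, hm⟩ := sum_nat hG hχ φ.range
    rw [Finset.sum_eq_single (1 : ↥φ.range) (fun x _ hx => hz x (hle x.2) fun hxc => hc ?_)
      (fun h => absurd (Finset.mem_univ _) h), OneMemClass.coe_one, hχ.one, hcard] at hm
    · have : (6 : ℕ) = 9 * m := by exact_mod_cast hm
      omega
    · have hx1 : (x : G) ≠ 1 := fun e => hx (Subtype.ext e)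
      have he : zpowers (x : G) = zpowers c := Subgroup.eq_of_le_of_card_ge (zpowers_le.2 hxc)
        (by rw [Nat.card_zpowers, Nat.card_zpowers, ord_mem hG hχ P (hle x.2) hx1, hc3])
      exact zpowers_le.2 x.2 (he ▸ mem_zpowers c)

end sylow

/-- Distinct Sylow 3-subgroups meet trivially. -/
theorem inter_eq_bot (P Q : Sylow 3 G) (hPQ : Q ≠ P) : (P : Subgroup G) ⊓ (Q : Subgroup G) = ⊥ := by
  classical
  haveI := Fact.mk Nat.prime_three
  refine (Subgroup.eq_bot_iff_forall _).2 fun g hg => ?_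
  by_contra hg1
  have hgo := ord_mem hG hχ P hg.1 hg1
  obtain ⟨cP, hcP, hcP3, hcPv, hzP, hcPc⟩ := exists_center hG hχ P
  obtain ⟨cQ, hcQ, hcQ3, hcQv, hzQ, hcQc⟩ := exists_center hG hχ Q
  have hsmall : ∀ R : Sylow 3 G, (∀ E : Subgroup G, E ≤ (P : Subgroup G) → E ≤ (R : Subgroup G) →
      9 ≤ Nat.card E → R = P) ∧ ∀ E : Subgroup G, E ≤ (Q : Subgroup G) → E ≤ (R : Subgroup G) →
      9 ≤ Nat.card E → R = Q := by
    refine fun R => ⟨fun E h1 h2 h3 => ?_, fun E h1 h2 h3 => ?_⟩
    all_goals
      by_contra hne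
      have hdvd := Subgroup.card_dvd_of_le (le_inf h1 h2)
      have hle := Subgroup.card_le_of_le (le_inf h1 h2)
    · have h27 : Nat.card ↥((P : Subgroup G) ⊓ (R : Subgroup G)) ∣ 3 ^ 3 :=
        (Subgroup.card_dvd_of_le inf_le_left).trans (dvd_of_eq (card_sylow_three hG P))
      obtain ⟨k, hk, hk'⟩ := (Nat.dvd_prime_pow Nat.prime_three).1 h27
      rw [hk'] at hle
      interval_cases k
      · exact absurd (h3.trans hle) (by norm_num)
      · exact absurd (h3.trans hle) (by norm_num)
      · exact inter_ne_nine hG hχ P R hne (by rw [hk']; norm_num)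
      · refine hne (Sylow.ext ?_)
        have h' := Subgroup.eq_of_le_of_card_ge (inf_le_left : (P : Subgroup G) ⊓ R ≤ P)
          (by rw [hk', card_sylow_three hG P]; norm_num)
        exact (Subgroup.eq_of_le_of_card_ge (fun x hx => (h'.ge hx).2)
          (by rw [card_sylow_three hG P, card_sylow_three hG R])).symm
    · have h27 : Nat.card ↥((Q : Subgroup G) ⊓ (R : Subgroup G)) ∣ 3 ^ 3 :=
        (Subgroup.card_dvd_of_le inf_le_left).trans (dvd_of_eq (card_sylow_three hG Q))
      obtain ⟨k, hk, hk'⟩ := (Nat.dvd_prime_pow Nat.prime_three).1 h27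
      rw [hk'] at hle
      interval_cases k
      · exact absurd (h3.trans hle) (by norm_num)
      · exact absurd (h3.trans hle) (by norm_num)
      · exact inter_ne_nine hG hχ Q R hne (by rw [hk']; norm_num)
      · refine hne (Sylow.ext ?_)
        have h' := Subgroup.eq_of_le_of_card_ge (inf_le_left : (Q : Subgroup G) ⊓ R ≤ Q)
          (by rw [hk', card_sylow_three hG Q]; norm_num)
        exact (Subgroup.eq_of_le_of_card_ge (fun x hx => (h'.ge hx).2)
          (by rw [card_sylow_three hG Q, card_sylow_three hG R])).symm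
  set C := centralizer ({g} : Set G) with hC
  by_cases h0 : χ g = 0
  · -- the centralizer is a 3-group
    have hC27 : Nat.card C ∣ 27 := dvd_twentySeven hG
      (fun t htC ht => hχ.zero g t hgo h0 ht (Subgroup.mem_centralizer_singleton_iff.1 htC))
      (fun t htC ht => no_seven hG hgo ht (Subgroup.mem_centralizer_singleton_iff.1 htC).symm)
    obtain ⟨k, -, hk⟩ := (Nat.dvd_prime_pow Nat.prime_three).1 (show Nat.card C ∣ 3 ^ 3 from hC27)
    obtain ⟨R, hR⟩ := (IsPGroup.of_card hk : IsPGroup 3 C).exists_le_sylow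
    have pair : ∀ (S : Sylow 3 G) (c : G), c ∈ (S : Subgroup G) → orderOf c = 3 →
        (∀ h ∈ (S : Subgroup G), Commute c h) → g ∈ (S : Subgroup G) → g ∉ zpowers c →
        zpowers c ⊔ zpowers g ≤ (S : Subgroup G) ⊓ C ∧ 9 ≤ Nat.card ↥(zpowers c ⊔ zpowers g) := by
      intro S c hc hc3 hcc hgS hgc
      refine ⟨sup_le (zpowers_le.2 ⟨hc, Subgroup.mem_centralizer_singleton_iff.2 (hcc g hgS).eq⟩)
        (zpowers_le.2 ⟨hgS, Subgroup.mem_centralizer_singleton_iff.2 rfl⟩), ?_⟩
      have hd1 : 3 ∣ Nat.card ↥(zpowers c ⊔ zpowers g) := by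
        have := Subgroup.card_dvd_of_le (le_sup_left : zpowers c ≤ zpowers c ⊔ zpowers g)
        rwa [Nat.card_zpowers, hc3] at this
      have hd2 : Nat.card ↥(zpowers c ⊔ zpowers g) ∣ 3 ^ 3 :=
        (Subgroup.card_dvd_of_le (sup_le (zpowers_le.2 hc) (zpowers_le.2 hgS))).trans
          (dvd_of_eq (card_sylow_three hG S))
      obtain ⟨i, hi, hi'⟩ := (Nat.dvd_prime_pow Nat.prime_three).1 hd2
      have hne3 : i ≠ 1 := fun e => hgc (by
        have := Subgroup.eq_of_le_of_card_ge (le_sup_left : zpowers c ≤ zpowers c ⊔ zpowers g)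
          (by rw [hi', e, Nat.card_zpowers, hc3]; norm_num)
        rw [this]; exact Subgroup.mem_sup_right (mem_zpowers g))
      rw [hi'] at hd1 ⊢
      interval_cases i <;> first | exact absurd rfl hne3 | (norm_num at hd1; done) | norm_num
    have hnot : ∀ c : G, orderOf c = 3 → χ c = -3 → g ∉ zpowers c := fun c hc3 hcv h => by
      obtain ⟨k, hk⟩ := mem_zpowers_iff.1 h
      rw [← zpow_mod_orderOf, hc3] at hk
      obtain h | h | h : k % ((3 : ℕ) : ℤ) = 0 ∨ k % ((3 : ℕ) : ℤ) = 1 ∨ k % ((3 : ℕ) : ℤ) = 2 := by omega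
      all_goals rw [h] at hk
      · rw [zpow_zero] at hk; exact hg1 hk.symm
      · rw [zpow_one] at hk; rw [← hk, hcv] at h0; norm_num at h0
      · have hg2 : g = c⁻¹ := by
          rw [← hk]
          refine eq_inv_of_mul_eq_one_left ?_
          rw [← zpow_add_one]
          show c ^ ((3 : ℕ) : ℤ) = 1
          rw [zpow_natCast, ← hc3, pow_orderOf_eq_one]
        rw [hg2, value_inv hG hχ, hcv] at h0
        norm_num at h0
    have hgP : g ∉ zpowers cP := hnot cP hcP3 hcPv
    have hgQ : g ∉ zpowers cQ := hnot cQ hcQ3 hcQv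
    obtain ⟨hP1, hP2⟩ := pair P cP hcP hcP3 hcPc hg.1 hgP
    obtain ⟨hQ1, hQ2⟩ := pair Q cQ hcQ hcQ3 hcQc hg.2 hgQ
    exact hPQ (((hsmall R).2 _ (hQ1.trans inf_le_left) ((hQ1.trans inf_le_right).trans hR) hQ2).symm.trans
      ((hsmall R).1 _ (hP1.trans inf_le_left) ((hP1.trans inf_le_right).trans hR) hP2))
  · -- the centralizer has one Sylow subgroup
    have hgP : g ∈ zpowers cP := by_contra fun h => h0 (hzP g hg.1 h)
    have hgQ : g ∈ zpowers cQ := by_contra fun h => h0 (hzQ g hg.2 h)
    have central : ∀ (S : Sylow 3 G) (c : G), (∀ h ∈ (S : Subgroup G), Commute c h) → g ∈ zpowers c →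
        (S : Subgroup G) ≤ C := by
      intro S c hcc hgc h hh
      obtain ⟨i, rfl⟩ := mem_zpowers_iff.1 hgc
      exact Subgroup.mem_centralizer_singleton_iff.2 ((hcc h hh).zpow_left i).eq.symm
    have hPC := central P cP hcPc hgP
    have hQC := central Q cQ hcQc hgQ
    have h7 : ¬ 7 ∣ Nat.card C := fun h7 => by
      haveI := Fact.mk (by norm_num : Nat.Prime 7)
      obtain ⟨x, hx⟩ := exists_prime_orderOf_dvd_card' (G := C) 7 h7
      exact no_seven hG hgo (by rw [Subgroup.orderOf_coe, hx] : orderOf (x : G) = 7)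
        (Subgroup.mem_centralizer_singleton_iff.1 x.2).symm
    obtain ⟨m, hm⟩ : 27 ∣ Nat.card C := card_sylow_three hG P ▸ Subgroup.card_dvd_of_le hPC
    have hm32 : m ∣ 32 := by
      have h1 : 27 * m ∣ 27 * 224 := by
        have := Subgroup.card_subgroup_dvd_card C
        rwa [hG.card, hm] at this
      have h2 : m ∣ 32 * 7 := Nat.dvd_of_mul_dvd_mul_left (by norm_num) h1
      exact (((Nat.Prime.coprime_iff_not_dvd (by norm_num)).2 fun h => h7 (hm ▸ h.mul_left 27)).symm).dvd_of_dvd_mul_right h2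
    have h3m : ¬ 3 ∣ m := fun h => by
      have := h.trans hm32
      norm_num at this
    have hm' : Nat.card C = 3 ^ (2 + 1) * m := by rw [hm]; norm_num
    have hcS : ∀ R : Sylow 3 ↥C, Nat.card ↥(R : Subgroup ↥C) = 27 := fun R => by
      have := card_sylow_subgroup hm' h3m R
      simpa using this
    let PC : Sylow 3 ↥C := P.subtype hPC
    let QC : Sylow 3 ↥C := Q.subtype hQC
    have h9 : Nat.card (Sylow 3 ↥C) % 9 = 1 := by
      refine card_sylow_three_mod_nine PC hcS fun R hR hcon => ?_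
      obtain ⟨R', hR'⟩ := (IsPGroup.of_card (n := 3) (by
          rw [Subgroup.card_map_of_injective (Subgroup.subtype_injective _), hcS]; norm_num) :
        IsPGroup 3 ((R : Subgroup ↥C).map C.subtype)).exists_le_sylow
      have hR'' : (R : Subgroup ↥C).map C.subtype = (R' : Subgroup G) := Subgroup.eq_of_le_of_card_ge hR'
        (by rw [card_sylow_three hG, Subgroup.card_map_of_injective (Subgroup.subtype_injective _), hcS])
      have hPC' : (PC : Subgroup ↥C).map C.subtype = (P : Subgroup G) := by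
        show ((P : Subgroup G).subgroupOf C).map C.subtype = _
        rw [Subgroup.subgroupOf_map_subtype, inf_eq_left.2 hPC]
      refine inter_ne_nine hG hχ P R' (fun e => hR (Sylow.ext
        (Subgroup.map_injective (Subgroup.subtype_injective _) (by rw [hR'', hPC', e])))) ?_
      rw [← hR'', ← hPC', ← Subgroup.map_inf _ _ _ (Subgroup.subtype_injective _),
        Subgroup.card_map_of_injective (Subgroup.subtype_injective _), hcon]
    have hdvd : Nat.card (Sylow 3 ↥C) ∣ 32 := (card_sylow_dvd hm').trans hm32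
    have hone : Nat.card (Sylow 3 ↥C) = 1 := by
      have : ∀ n ∈ (32 : ℕ).divisors, n % 9 = 1 → n = 1 := by decide +kernel
      exact this _ (Nat.mem_divisors.2 ⟨hdvd, by norm_num⟩) h9
    have hsame : QC = PC := by
      haveI := (Nat.card_eq_one_iff_unique.1 hone).1
      exact Subsingleton.elim _ _
    refine hPQ (Sylow.ext ?_)
    have h := congrArg (fun R : Sylow 3 ↥C => (R : Subgroup ↥C).map C.subtype) hsame
    simpa [QC, PC, Subgroup.subgroupOf_map_subtype, inf_eq_left.2 hPC, inf_eq_left.2 hQC] using h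

end Cfsg.Agent.G2Two
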