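import Cfsg.Agent.Char.Basic
import Cfsg.Agent.Char.Integrality
import Cfsg.Agent.Char.Linear
import Cfsg.Agent.Char.DefectZero
import Cfsg.Agent.Char.Virtual
import Cfsg.Agent.SmallGroups.Involution

/-!
# Small facts on character values in a simple group
-/

set_option autoImplicit false
set_option linter.style.haveILetI false

noncomputable section

open scoped ComplexConjugate
open Finset

namespace Cfsg.Agent.G2Two

universe u

variable {G : Type u} [Group G] [Finite G]

/-- A sum of a function invariant under an action which is free on its support. -/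
theorem sum_eq_card_mul {H X : Type*} [Group H] [Finite H] [MulAction H X] [Fintype X] (f : X → ℂ)
    (hinv : ∀ (h : H) (x : X), f (h • x) = f x) (hfree : ∀ (h : H) (x : X), f x ≠ 0 → h • x = x → h = 1)
    (hint : ∀ x, IsIntegral ℤ (f x)) : ∃ z : ℂ, IsIntegral ℤ z ∧ ∑ x, f x = (Nat.card H : ℂ) * z := by
  classical
  letI : Fintype (MulAction.orbitRel.Quotient H X) := Fintype.ofFinite _
  refine ⟨∑ ω : MulAction.orbitRel.Quotient H X, f (Quotient.out ω),
    IsIntegral.sum _ fun ω _ => hint _, ?_⟩
  rw [← (MulAction.selfEquivSigmaOrbits H X).symm.sum_comp f, Fintype.sum_sigma, Finset.mul_sum]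
  refine Finset.sum_congr rfl fun ω _ => ?_
  have hc : ∀ y : MulAction.orbit H (Quotient.out ω),
      f ((MulAction.selfEquivSigmaOrbits H X).symm ⟨ω, y⟩) = f (Quotient.out ω) := by
    rintro ⟨y, h, rfl⟩
    exact hinv h _
  rw [Finset.sum_congr rfl fun y _ => hc y, Finset.sum_const, Finset.card_univ, nsmul_eq_mul]
  by_cases h0 : f (Quotient.out ω) = 0
  · rw [h0, mul_zero, mul_zero]
  have hst : MulAction.stabilizer H (Quotient.out ω) = ⊥ :=
    (Subgroup.eq_bot_iff_forall _).2 fun h hh => hfree h _ h0 hh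
  have := (MulAction.stabilizer H (Quotient.out ω)).index_mul_card
  rw [hst, Subgroup.card_bot, mul_one, ← hst, MulAction.index_stabilizer, ← Nat.card_coe_set_eq] at this
  rw [← this, Nat.card_eq_fintype_card]

/-- The eigenvalues of an irreducible character of a simple group. -/
theorem exists_eigen [IsSimpleGroup G] (hG : ¬ IsMulCommutative G) {χ : G → ℂ}
    (hχ : Cfsg.IsIrrCharacter G χ) {d : ℕ} (hd : χ 1 = d) (hd1 : 1 < d) (g : G) :
    ∃ ε : Fin d → ℂ, (∀ i, ε i ^ orderOf g = 1) ∧ χ g = ∑ i, ε i ∧ ∏ i, ε i = 1 ∧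
      ((∀ i j, ε i = ε j) → g = 1) ∧
      ((∀ i, 1 + ε i + ε i ^ 2 = 0) → ∀ h, χ h + χ (h * g) + χ (h * (g * g)) = 0) := by
  classical
  letI := Fintype.ofFinite G
  obtain ⟨n, ρ, hρ, rfl⟩ := hχ
  haveI := hρ
  obtain rfl : Module.finrank ℂ (Fin n → ℂ) = d := by
    have := ρ.char_one.symm.trans hd
    exact_mod_cast this
  obtain ⟨b, ε, hb, hε⟩ := Char.exists_eigenbasis ρ g
  refine ⟨ε, hε, ?_, ?_, ?_, ?_⟩
  · have h1 := Char.character_pow_eq_sum ρ hb 1
    simpa using h1
  · have hdiag : LinearMap.toMatrix b b (ρ g) = Matrix.diagonal ε := by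
      ext i j
      rw [LinearMap.toMatrix_apply, hb, map_smul, Matrix.diagonal_apply]
      by_cases hij : i = j
      · subst hij; simp
      · rw [if_neg hij]; simp [Finsupp.single_apply, Ne.symm hij]
    let D : G →* ℂˣ := (Units.map (LinearMap.det : _ →* ℂ)).comp ρ.toHomUnits
    have htriv : ∀ x, D x = 1 := by
      rcases SmallGroups.injective_or_trivial D with hi | ht
      · exact absurd ⟨⟨fun x y => hi (by rw [map_mul, map_mul, mul_comm])⟩⟩ hG
      · exact ht
    have hD := congrArg Units.val (htriv g)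
    rw [← Matrix.det_diagonal, ← hdiag, LinearMap.det_toMatrix]
    simpa [D] using hD
  · intro hall
    have hscal : ∀ v, ρ g v = ε ⟨0, by omega⟩ • v := fun v => by
      have he : ρ g = ε ⟨0, by omega⟩ • LinearMap.id := b.ext fun i => by
        rw [hb, hall i ⟨0, by omega⟩]; simp
      rw [he]; simp
    rcases SmallGroups.injective_or_trivial ρ.toHomUnits with hi | htriv
    · have hc : g ∈ Subgroup.center G := Subgroup.mem_center_iff.2 fun x => hi (Units.ext (by
        refine LinearMap.ext fun v => ?_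
        simp [map_mul, Module.End.mul_apply, hscal]))
      rwa [SmallGroups.center_eq_bot hG, Subgroup.mem_bot] at hc
    · exfalso
      have hconst : ρ.character = fun _ : G => ((Module.finrank ℂ (Fin n → ℂ) : ℕ) : ℂ) := by
        funext x
        have hx : ρ x = 1 := by
          have := congrArg Units.val (htriv x)
          simpa using this
        rw [Representation.character, hx, LinearMap.trace_one]
      have h1 := CharInd.classInner_irr_self (Char.isIrrCharacter_character ρ)
      rw [hconst, Cfsg.classInner] at h1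
      simp only [map_natCast, Finset.sum_const, Finset.card_univ, nsmul_eq_mul,
        ← Nat.card_eq_fintype_card] at h1
      rw [inv_mul_cancel_left₀ Char.card_ne_zero_complex] at h1
      have h2 : Module.finrank ℂ (Fin n → ℂ) * Module.finrank ℂ (Fin n → ℂ) = 1 := by exact_mod_cast h1
      nlinarith
  · intro hall h
    have h0 : 1 + ρ g + ρ (g * g) = 0 := b.ext fun i => by
      rw [map_mul]
      simp only [LinearMap.add_apply, Module.End.one_apply, Module.End.mul_apply, hb, map_smul,
        smul_smul, LinearMap.zero_apply]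
      calc b i + ε i • b i + (ε i * ε i) • b i = (1 + ε i + ε i ^ 2) • b i := by
            rw [pow_two, add_smul, add_smul, one_smul]
        _ = 0 := by rw [hall i, zero_smul]
    simp only [Representation.character]
    rw [map_mul ρ h g, map_mul ρ h (g * g), ← map_add, ← map_add,
      show ρ h + ρ h * ρ g + ρ h * ρ (g * g) = ρ h * (1 + ρ g + ρ (g * g)) by noncomm_ring, h0,
      mul_zero, map_zero]

/-- The value at an involution: congruent to the degree modulo four and not of its absolute value. -/
theorem involution_value [IsSimpleGroup G] (hG : ¬ IsMulCommutative G) {χ : G → ℂ}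
    (hχ : Cfsg.IsIrrCharacter G χ) {d : ℕ} (hd : χ 1 = d) (hd1 : 1 < d) {g : G} (hg : orderOf g = 2) :
    ∃ v : ℤ, χ g = v ∧ (4 : ℤ) ∣ (d : ℤ) - v ∧ -(d : ℤ) < v ∧ v < d := by
  classical
  obtain ⟨ε, hε, hsum, hprod, hscal, -⟩ := exists_eigen hG hχ hd hd1 g
  have hpm : ∀ i, ε i = 1 ∨ ε i = -1 := fun i => sq_eq_one_iff.mp (hg ▸ hε i)
  set m := (Finset.univ.filter fun i => ε i = -1).card with hm
  have hε' : ∀ i, ε i = if ε i = -1 then -1 else 1 := fun i => by
    rcases hpm i with h | h <;> norm_num [h]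
  have hsum' : χ g = (d : ℂ) - 2 * m := by
    rw [hsum, show (d : ℂ) - 2 * (m : ℂ) = ∑ i, (1 - 2 * (if ε i = -1 then (1 : ℂ) else 0)) by
      rw [Finset.sum_sub_distrib, ← Finset.mul_sum, Finset.sum_boole]; simp [m]]
    exact Finset.sum_congr rfl fun i _ => by rcases hpm i with h | h <;> norm_num [h]
  have hev : Even m := by
    rw [Finset.prod_congr rfl fun i _ => hε' i, Finset.prod_ite, Finset.prod_const, Finset.prod_const,
      one_pow, mul_one, ← hm] at hprod
    exact neg_one_pow_eq_one_iff_even (by norm_num) |>.1 hprod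
  have hm0 : m ≠ 0 := fun h => by
    have h1 : ∀ i, ε i = 1 := fun i => (hpm i).resolve_right fun e => by
      have : i ∈ Finset.univ.filter fun i => ε i = -1 := Finset.mem_filter.2 ⟨Finset.mem_univ _, e⟩
      rw [Finset.card_eq_zero.1 h] at this
      exact Finset.notMem_empty _ this
    have := hscal fun i j => by rw [h1, h1]
    rw [this, orderOf_one] at hg
    omega
  have hmd : m < d := by
    refine lt_of_le_of_ne ((Finset.card_le_univ _).trans (by simp)) fun h => ?_
    have h1 : ∀ i, ε i = -1 := fun i => by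
      have e := (Finset.card_eq_iff_eq_univ _).1 (h.trans (Fintype.card_fin d).symm)
      have hi := Finset.mem_univ i
      rw [← e] at hi
      exact (Finset.mem_filter.1 hi).2
    have := hscal fun i j => by rw [h1, h1]
    rw [this, orderOf_one] at hg
    omega
  refine ⟨(d : ℤ) - 2 * m, by rw [hsum']; push_cast; ring, ?_, by omega, by omega⟩
  obtain ⟨r, hr⟩ := hev
  exact ⟨r, by omega⟩

/-- The real values of a character of degree six at an element of order three. -/
theorem degree_six_value [IsSimpleGroup G] (hG : ¬ IsMulCommutative G) {χ : G → ℂ}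
    (hχ : Cfsg.IsIrrCharacter G χ) (hd : χ 1 = 6) {g : G} (hg : orderOf g = 3)
    (hreal : conj (χ g) = χ g) :
    χ g = -3 ∧ (∀ h, χ h + χ (h * g) + χ (h * (g * g)) = 0) ∨ χ g = 0 ∨ χ g = 3 := by
  classical
  obtain ⟨ε, hε, hsum, -, hscal, hzero⟩ := exists_eigen hG hχ (d := 6) (by exact_mod_cast hd) (by norm_num) g
  have hε3 : ∀ i, ε i ^ 3 = 1 := fun i => hg ▸ hε i
  have hquad : ∀ i, ε i ≠ 1 → 1 + ε i + ε i ^ 2 = 0 := by
    intro i hi
    have : (ε i - 1) * (1 + ε i + ε i ^ 2) = 0 := by linear_combination hε3 i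
    exact (mul_eq_zero.1 this).resolve_left (sub_ne_zero.2 hi)
  have hre : ∀ i, (ε i).re = (3 * (if ε i = 1 then (1 : ℝ) else 0) - 1) / 2 := by
    intro i
    by_cases hi : ε i = 1
    · rw [if_pos hi, hi]; norm_num
    · rw [if_neg hi]
      have h1 := congrArg Complex.re (hquad i hi)
      have h2 := congrArg Complex.im (hquad i hi)
      simp [pow_two, Complex.mul_re, Complex.mul_im] at h1 h2
      rcases mul_eq_zero.1 (show (ε i).im * (2 * (ε i).re + 1) = 0 by linarith) with h | h
      · rw [h] at h1; nlinarith [sq_nonneg ((ε i).re + 1 / 2)]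
      · linarith
  set m := (Finset.univ.filter fun i => ε i = 1).card with hm
  have hval : χ g = ((((3 * (m : ℚ)) - 6) / 2 : ℚ) : ℂ) := by
    have h1 : (χ g).re = (3 * (m : ℝ) - 6) / 2 := by
      rw [hsum, Complex.re_sum, Finset.sum_congr rfl fun i _ => hre i, ← Finset.sum_div,
        Finset.sum_sub_distrib, ← Finset.mul_sum, Finset.sum_boole, ← hm]
      simp
    rw [← Complex.conj_eq_iff_re.1 hreal, h1]
    push_cast
    ring
  have hint : IsIntegral ℤ (χ g) := by
    rw [hsum]
    exact IsIntegral.sum _ fun i _ => IsIntegral.of_pow (n := 3) (by norm_num) (by rw [hε3 i]; exact isIntegral_one)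
  obtain ⟨z, hz⟩ := Char.exists_int_of_isIntegral_rat (hval ▸ hint)
  have hz' : 2 * z = 3 * (m : ℤ) - 6 := by
    have : (2 : ℚ) * z = 3 * m - 6 := by rw [← hz]; ring
    exact_mod_cast this
  have hm6 : m ≤ 6 := (Finset.card_le_univ _).trans (by simp)
  have hne : m ≠ 6 := fun h => by
    have h1 : ∀ i, ε i = 1 := fun i => by
      have e := (Finset.card_eq_iff_eq_univ _).1 (h.trans (Fintype.card_fin 6).symm)
      have hi := Finset.mem_univ i
      rw [← e] at hi
      exact (Finset.mem_filter.1 hi).2
    have := hscal fun i j => by rw [h1, h1]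
    rw [this, orderOf_one] at hg
    omega
  rw [hval]
  obtain h | h | h : m = 0 ∨ m = 2 ∨ m = 4 := by omega
  · refine Or.inl ⟨by rw [h]; norm_num, hzero fun i => hquad i fun hi => ?_⟩
    have : i ∈ Finset.univ.filter fun i => ε i = 1 := Finset.mem_filter.2 ⟨Finset.mem_univ _, hi⟩
    rw [Finset.card_eq_zero.1 h] at this
    exact Finset.notMem_empty _ this
  · exact Or.inr (Or.inl (by rw [h]; norm_num))
  · exact Or.inr (Or.inr (by rw [h]; norm_num))

/-- A character of degree three vanishes at elements of order three. -/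
theorem degree_three_value [IsSimpleGroup G] (hG : ¬ IsMulCommutative G) {χ : G → ℂ}
    (hχ : Cfsg.IsIrrCharacter G χ) (hd : χ 1 = 3) {g : G} (hg : orderOf g = 3) : χ g = 0 := by
  classical
  obtain ⟨ε, hε, hsum, hprod, hscal, -⟩ := exists_eigen hG hχ (d := 3) (by exact_mod_cast hd) (by norm_num) g
  have hε3 : ∀ i, ε i ^ 3 = 1 := fun i => hg ▸ hε i
  have hne : ¬ ∀ i j, ε i = ε j := fun h => by
    rw [hscal h, orderOf_one] at hg
    omega
  rw [hsum, Fin.sum_univ_three]
  simp only [Fin.prod_univ_three] at hprod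
  have hquad : ∀ a b : ℂ, a ^ 3 = 1 → b ^ 3 = 1 → a ≠ b → a ^ 2 + a * b + b ^ 2 = 0 := fun a b ha hb h =>
    (mul_eq_zero.1 (show (a - b) * (a ^ 2 + a * b + b ^ 2) = 0 by linear_combination ha - hb)).resolve_left
      (sub_ne_zero.2 h)
  -- if two agree, the third does
  have h01 : ε 0 ≠ ε 1 := fun h => hne (by
    have : ε 2 = ε 1 := by
      rw [h] at hprod
      linear_combination ε 1 * hprod - ε 2 * hε3 1
    intro i j; fin_cases i <;> fin_cases j <;> simp [h, this])
  have h02 : ε 0 ≠ ε 2 := fun h => hne (by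
    have : ε 1 = ε 2 := by
      rw [h] at hprod
      linear_combination ε 2 * hprod - ε 1 * hε3 2
    intro i j; fin_cases i <;> fin_cases j <;> simp [h, this])
  have h12 : ε 1 ≠ ε 2 := fun h => hne (by
    have : ε 0 = ε 2 := by
      rw [h] at hprod
      linear_combination ε 2 * hprod - ε 0 * hε3 2
    intro i j; fin_cases i <;> fin_cases j <;> simp [h, this])
  have e1 := hquad _ _ (hε3 0) (hε3 1) h01
  have e2 := hquad _ _ (hε3 0) (hε3 2) h02
  have : (ε 1 - ε 2) * (ε 0 + ε 1 + ε 2) = 0 := by linear_combination e1 - e2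
  exact (mul_eq_zero.1 this).resolve_left (sub_ne_zero.2 h12)

end Cfsg.Agent.G2Two
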