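import Cfsg.Agent.G2Two.Table

/-!
# Words in the extraspecial group of order 27 and exponent 3
-/

set_option autoImplicit false

namespace Cfsg.Agent.G2Two

universe u

/-- A power in the table. -/
def powN (x : ℕ) : ℕ → ℕ
  | 0 => 0
  | n + 1 => mulN (powN x n) x

/-- The commutator in the table. -/
def commN (x y : ℕ) : ℕ := mulN (mulN (mulN x y) (invN x)) (invN y)

/-- The endomorphism with prescribed images of `1` and `3`. -/
def endo (x y p : ℕ) : ℕ :=
  mulN (mulN (powN x (p % 3)) (powN y (p / 3 % 3))) (powN (commN x y) (p / 9))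

theorem mulN_eq : ∀ x < 27, ∀ y < 27, mulN x y = (x % 3 + y % 3) % 3 +
    3 * ((x / 3 % 3 + y / 3 % 3) % 3) + 9 * ((x / 9 + y / 9 + 2 * (x / 3 % 3) * (y % 3)) % 3) := by
  decide +kernel

theorem mulN_lt {x y : ℕ} (hx : x < 27) (hy : y < 27) : mulN x y < 27 := by
  rw [mulN_eq x hx y hy]; omega

theorem powN_lt {x : ℕ} (hx : x < 27) : ∀ n, powN x n < 27
  | 0 => by norm_num [powN]
  | n + 1 => mulN_lt (powN_lt hx n) hx

theorem invN_lt {x : ℕ} (hx : x < 27) : invN x < 27 := mulN_lt hx hx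

theorem commN_lt {x y : ℕ} (hx : x < 27) (hy : y < 27) : commN x y < 27 :=
  mulN_lt (mulN_lt (mulN_lt hx hy) (invN_lt hx)) (invN_lt hy)

theorem endo_lt {x y : ℕ} (hx : x < 27) (hy : y < 27) (p : ℕ) : endo x y p < 27 :=
  mulN_lt (mulN_lt (powN_lt hx _) (powN_lt hy _)) (powN_lt (commN_lt hx hy) _)

theorem powN_three : ∀ x < 27, mulN (invN x) x = 0 := by decide +kernel

variable {G : Type u} [Group G] (a b : G)

/-- The word attached to a number. -/
def word (p : ℕ) : G := a ^ (p % 3) * b ^ (p / 3 % 3) * (a * b * a⁻¹ * b⁻¹) ^ (p / 9)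

/-- Generators of a group of exponent 3 and class 2. -/
structure Heis : Prop where
  a3 : a ^ 3 = 1
  b3 : b ^ 3 = 1
  c3 : (a * b * a⁻¹ * b⁻¹) ^ 3 = 1
  ca : Commute (a * b * a⁻¹ * b⁻¹) a
  cb : Commute (a * b * a⁻¹ * b⁻¹) b

theorem word_zero : word a b 0 = 1 := by simp [word]
theorem word_one : word a b 1 = a := by simp [word]
theorem word_three : word a b 3 = b := by simp [word]
theorem word_nine : word a b 9 = a * b * a⁻¹ * b⁻¹ := by simp [word]

variable {a b} (h : Heis a b)
include h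

theorem swap (n m : ℕ) : b ^ m * a ^ n =
    a ^ n * b ^ m * (a * b * a⁻¹ * b⁻¹) ^ (2 * (m * n)) := by
  have hab : a * b * a⁻¹ * b⁻¹ * (b * a) = a * b := by group
  have hca := h.ca
  have hcb := h.cb
  have hc3 := h.c3
  generalize a * b * a⁻¹ * b⁻¹ = C at hab hca hcb hc3 ⊢
  have hba : b * a = a * b * C ^ 2 := by
    have h2 : C ^ 2 * (b * a) = b * a * C ^ 2 := ((hcb.mul_right hca).pow_left 2).eq
    calc b * a = C ^ 3 * (b * a) := by rw [hc3, one_mul]
      _ = C * (C ^ 2 * (b * a)) := by rw [pow_succ', mul_assoc]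
      _ = C * (b * a) * C ^ 2 := by rw [h2, mul_assoc C]
      _ = a * b * C ^ 2 := by rw [hab]
  have h1 : ∀ n : ℕ, b * a ^ n = a ^ n * b * C ^ (2 * n) := by
    intro n
    induction n with
    | zero => simp
    | succ n ih =>
      calc b * a ^ (n + 1) = b * a ^ n * a := by rw [pow_succ, mul_assoc]
        _ = a ^ n * b * (C ^ (2 * n) * a) := by rw [ih, mul_assoc]
        _ = a ^ n * (b * a) * C ^ (2 * n) := by rw [(hca.pow_left _).eq]; simp only [mul_assoc]
        _ = a ^ (n + 1) * b * C ^ (2 * (n + 1)) := by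
          rw [hba, pow_succ a n, show 2 * (n + 1) = 2 + 2 * n by ring, pow_add]
          simp only [mul_assoc]
  induction m with
  | zero => simp
  | succ m ih =>
    calc b ^ (m + 1) * a ^ n = b ^ m * (b * a ^ n) := by rw [pow_succ, mul_assoc]
      _ = b ^ m * a ^ n * b * C ^ (2 * n) := by rw [h1]; simp only [mul_assoc]
      _ = a ^ n * b ^ m * (C ^ (2 * (m * n)) * b) * C ^ (2 * n) := by rw [ih]; simp only [mul_assoc]
      _ = a ^ n * b ^ (m + 1) * C ^ (2 * ((m + 1) * n)) := by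
        rw [(hcb.pow_left _).eq, show 2 * ((m + 1) * n) = 2 * (m * n) + 2 * n by ring, pow_add C, pow_succ b m]
        simp only [mul_assoc]

theorem word_mul {x y : ℕ} (hx : x < 27) (hy : y < 27) : word a b (mulN x y) = word a b x * word a b y := by
  unfold word
  rw [mulN_eq x hx y hy]
  set C := a * b * a⁻¹ * b⁻¹ with hC
  set i := x % 3
  set j := x / 3 % 3
  set l := x / 9
  set i' := y % 3
  set j' := y / 3 % 3
  set l' := y / 9
  rw [show ((i + i') % 3 + 3 * ((j + j') % 3) + 9 * ((l + l' + 2 * j * i') % 3)) % 3 = (i + i') % 3 by omega,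
    show ((i + i') % 3 + 3 * ((j + j') % 3) + 9 * ((l + l' + 2 * j * i') % 3)) / 3 % 3 = (j + j') % 3 by omega,
    show ((i + i') % 3 + 3 * ((j + j') % 3) + 9 * ((l + l' + 2 * j * i') % 3)) / 9 =
      (l + l' + 2 * j * i') % 3 by omega,
    ← pow_eq_pow_mod _ h.a3, ← pow_eq_pow_mod _ h.b3, ← pow_eq_pow_mod _ h.c3]
  have hCa : Commute (C ^ l) (a ^ i') := (h.ca.pow_left l).pow_right i'
  have hCb : ∀ n, Commute (C ^ n) (b ^ j') := fun n => (h.cb.pow_left n).pow_right j'
  symm
  calc a ^ i * b ^ j * C ^ l * (a ^ i' * b ^ j' * C ^ l')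
      = a ^ i * b ^ j * (C ^ l * a ^ i') * b ^ j' * C ^ l' := by simp only [mul_assoc]
    _ = a ^ i * (b ^ j * a ^ i') * C ^ l * b ^ j' * C ^ l' := by rw [hCa.eq]; simp only [mul_assoc]
    _ = a ^ i * a ^ i' * b ^ j * (C ^ (2 * (j * i')) * C ^ l * b ^ j') * C ^ l' := by
        rw [swap h]; simp only [mul_assoc, hC]
    _ = a ^ i * a ^ i' * b ^ j * (b ^ j' * C ^ (2 * (j * i') + l)) * C ^ l' := by
        rw [← pow_add C, (hCb _).eq]
    _ = a ^ i * a ^ i' * (b ^ j * b ^ j') * (C ^ (2 * (j * i') + l) * C ^ l') := by simp only [mul_assoc]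
    _ = a ^ (i + i') * b ^ (j + j') * C ^ (l + l' + 2 * j * i') := by
        rw [← pow_add, ← pow_add, ← pow_add]; congr 2; ring

theorem word_powN {x : ℕ} (hx : x < 27) : ∀ n, word a b (powN x n) = word a b x ^ n
  | 0 => by simp [powN, word_zero]
  | n + 1 => by rw [powN, word_mul h (powN_lt hx n) hx, word_powN hx n, pow_succ]

theorem word_invN {x : ℕ} (hx : x < 27) : word a b (invN x) = (word a b x)⁻¹ := by
  refine eq_inv_of_mul_eq_one_left ?_
  rw [← word_mul h (invN_lt hx) hx, powN_three x hx, word_zero]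

theorem word_commN {x y : ℕ} (hx : x < 27) (hy : y < 27) : word a b (commN x y) =
    word a b x * word a b y * (word a b x)⁻¹ * (word a b y)⁻¹ := by
  rw [commN, word_mul h (mulN_lt (mulN_lt hx hy) (invN_lt hx)) (invN_lt hy),
    word_mul h (mulN_lt hx hy) (invN_lt hx), word_mul h hx hy, word_invN h hx, word_invN h hy]

/-- Conjugation is determined by the images of the generators. -/
theorem word_conj {g : G} {x y : ℕ} (hx : x < 27) (hy : y < 27) (ha : g * a * g⁻¹ = word a b x)
    (hb : g * b * g⁻¹ = word a b y) (p : ℕ) : g * word a b p * g⁻¹ = word a b (endo x y p) := by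
  rw [endo, word_mul h (mulN_lt (powN_lt hx _) (powN_lt hy _)) (powN_lt (commN_lt hx hy) _),
    word_mul h (powN_lt hx _) (powN_lt hy _), word_powN h hx, word_powN h hy,
    word_powN h (commN_lt hx hy), word_commN h hx hy, ← ha, ← hb]
  show MulAut.conj g (word a b p) = _
  simp only [word, map_mul, map_pow, map_inv, MulAut.conj_apply]

end Cfsg.Agent.G2Two
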