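import Cfsg.Agent.G2Two.Borel
import Cfsg.Agent.G2Two.Words

/-!
# The point stabiliser in coordinates
-/

set_option autoImplicit false
set_option linter.style.haveILetI false
set_option linter.unusedSectionVars false

noncomputable section

open Subgroup Cfsg.Agent.SmallGroups
open scoped Pointwise

namespace Cfsg.Agent.G2Two

universe u

/-- A point stabiliser in coordinates, with an involution moving the point. -/
structure Frame (G : Type u) [Group G] (K : KTab) where
  φ : ℕ → G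
  κ : ℕ → G
  t : G
  N : Subgroup G
  φ_zero : φ 0 = 1
  φ_mul : ∀ x < 27, ∀ y < 27, φ (mulN x y) = φ x * φ y
  φ_mem : ∀ p < 27, φ p ∈ N
  κ_zero : κ 0 = 1
  κ_mul : ∀ x < 8, ∀ y < 8, κ (K.kmul x y) = κ x * κ y
  κ_inj : ∀ x < 8, ∀ y < 8, κ x = κ y → x = y
  κ_mem : ∀ x < 8, κ x ∈ N
  act : ∀ x < 8, ∀ p < 27, κ x * φ p * (κ x)⁻¹ = φ (K.act x p)
  cover : ∀ g ∈ N, ∃ p < 27, ∃ x < 8, g = φ p * κ x
  t_sq : t * t = 1
  t_notMem : t ∉ N
  t_norm : ∀ x < 8, ∃ y < 8, t * κ x * t = κ y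
  points : ∀ g ∉ N, ∃ p < 27, (φ p * t)⁻¹ * g ∈ N
  unique : ∀ p < 27, ∀ q < 27, (φ p * t)⁻¹ * (φ q * t) ∈ N → p = q

theorem endo_two_six : ∀ p < 27, tabZ.act 4 p = endo 2 6 p ∧ tabQ.act 2 p = endo 2 6 p := by
  decide +kernel

theorem candZ : ∀ q < 27, endo 2 6 q = invN q → endo 3 q (endo 3 q (endo 3 q (endo 3 q 1))) = 2 →
    q = 13 ∨ q = 25 := by
  decide +kernel

theorem candQ : ∀ q < 27, endo 2 6 q = invN q → endo q (endo 6 1 q) q = 2 →
    ∃ m < 4, tabQ.act m q = 13 := by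
  decide +kernel

theorem tabZ_act : ∀ p < 27, tabZ.act 0 p = p ∧
    ∀ x < 7, tabZ.act (x + 1) p = endo 3 13 (tabZ.act x p) := by
  decide +kernel

theorem tabZ_kmul : ∀ x < 8, ∀ y < 8, tabZ.kmul x y = (x + y) % 8 := by decide +kernel

theorem tabQ_act : ∀ p < 27, tabQ.act 0 p = p ∧ (∀ x < 3, tabQ.act (x + 1) p = endo 3 2 (tabQ.act x p)) ∧
    ∀ x < 4, tabQ.act (x + 4) p = tabQ.act x (endo 13 25 p) := by
  decide +kernel

theorem tabQ_kmul : ∀ x < 8, ∀ y < 8, tabQ.kmul x y =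
    ((x % 4 + if x < 4 then y % 4 else 3 * (y % 4)) + if x < 4 ∨ y < 4 then 0 else 2) % 4 +
      if (x < 4 ↔ y < 4) then 0 else 4 := by
  decide +kernel

theorem word_facts : endo 6 1 13 = 25 ∧ mulN (mulN 1 6) (commN 1 6) = 25 := by decide +kernel

variable {G : Type u} [Group G] [Fintype G] [IsSimpleGroup G] (hG : Hyp G)
include hG

/-- An involution moving a given point. -/
theorem exists_involution_notMem {N : Subgroup G} (hN : N ≠ ⊤) : ∃ t : G, orderOf t = 2 ∧ t ∉ N := by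
  classical
  by_contra h
  push Not at h
  haveI := Fact.mk Nat.prime_two
  obtain ⟨s, hs⟩ := exists_prime_orderOf_dvd_card' (G := G) 2 (by rw [hG.card]; norm_num)
  have hle : Subgroup.normalClosure ({s} : Set G) ≤ N := by
    refine (Subgroup.closure_le _).2 fun x hx => ?_
    obtain ⟨a, ha, hax⟩ := Group.mem_conjugatesOfSet_iff.1 hx
    rw [Set.mem_singleton_iff] at ha
    subst ha
    obtain ⟨g, rfl⟩ := isConj_iff.1 hax
    exact h _ (by rw [show g * a * g⁻¹ = MulAut.conj g a from rfl, (MulAut.conj g).orderOf_eq, hs])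
  rcases (IsSimpleGroup.eq_bot_or_eq_top_of_normal _ (Subgroup.normalClosure_normal (s := ({s} : Set G))))
    with h' | h'
  · have : s ∈ Subgroup.normalClosure ({s} : Set G) := Subgroup.subset_normalClosure rfl
    rw [h', Subgroup.mem_bot] at this
    rw [this, orderOf_one] at hs
    norm_num at hs
  · exact hN (top_le_iff.1 (h' ▸ hle))

/-- The point stabiliser in coordinates. -/
theorem exists_frame : Nonempty (Frame G tabZ) ∨ Nonempty (Frame G tabQ) := by
  classical
  haveI := Fact.mk Nat.prime_three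
  haveI := Fact.mk Nat.prime_two
  obtain ⟨χ, hχ⟩ := exists_six hG
  obtain ⟨P⟩ := (inferInstance : Nonempty (Sylow 3 G))
  obtain ⟨c, hc, hc3, hcv, hz, hcc⟩ := exists_center hG hχ P
  set N : Subgroup G := normalizer ((P : Subgroup G) : Set G) with hNdef
  set Z : Subgroup G := zpowers c with hZdef
  have hN216 : Nat.card N = 216 := card_normalizer hG hχ P
  have hPN : (P : Subgroup G) ≤ N := Subgroup.le_normalizer
  have hNtop : N ≠ ⊤ := fun h => by rw [h, Subgroup.card_top, hG.card] at hN216; omega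
  obtain ⟨t, ht, htN⟩ := exists_involution_notMem hG hNtop
  have htt : t * t = 1 := by rw [← pow_two, ← ht, pow_orderOf_eq_one]
  have hti : t⁻¹ = t := inv_eq_of_mul_eq_one_right htt
  -- three-elements of the normaliser lie in `P`
  have hmemP : ∀ x ∈ N, IsPGroup 3 (zpowers x) → x ∈ (P : Subgroup G) := by
    intro x hx hx3
    have h := P.is_maximal' (hx3.to_sup_of_normal_right' P.isPGroup' (zpowers_le.2 hx)) le_sup_right
    exact h ▸ Subgroup.mem_sup_left (mem_zpowers x)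
  have hreg : ∀ p ∈ (P : Subgroup G), t * p * t ∈ N → p = 1 := by
    intro p hp htp
    by_contra hp1
    have ho : orderOf (t * p * t) = 3 := by
      rw [show t * p * t = MulAut.conj t p by rw [MulAut.conj_apply, hti], (MulAut.conj t).orderOf_eq]
      exact ord_mem hG hχ P hp hp1
    have hq : t * p * t ∈ (P : Subgroup G) :=
      hmemP _ htp (IsPGroup.of_card (n := 1) (by rw [Nat.card_zpowers, ho, pow_one]))
    have hne : t • P ≠ P := fun e => htN (Sylow.smul_eq_iff_mem_normalizer.1 e)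
    have hmem : t * p * t ∈ ((t • P : Sylow 3 G) : Subgroup G) := by
      show t * p * t ∈ MulAut.conj t • (P : Subgroup G)
      rw [show t * p * t = MulAut.conj t • p by rw [MulAut.smul_def, MulAut.conj_apply, hti]]
      exact Subgroup.smul_mem_pointwise_smul p _ _ hp
    have := (Subgroup.eq_bot_iff_forall _).1 (inter_eq_bot hG hχ P (t • P) hne) _ ⟨hq, hmem⟩
    rw [this, orderOf_one] at ho
    norm_num at ho
  -- the points
  have huniq : ∀ p ∈ (P : Subgroup G), ∀ q ∈ (P : Subgroup G), (p * t)⁻¹ * (q * t) ∈ N → p = q := by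
    intro p hp q hq h
    rw [mul_inv_rev, hti, show t * p⁻¹ * (q * t) = t * (p⁻¹ * q) * t by group] at h
    exact inv_mul_eq_one.1 (hreg _ (mul_mem (inv_mem hp) hq) h)
  have hpoints : ∀ g ∉ N, ∃ p ∈ (P : Subgroup G), (p * t)⁻¹ * g ∈ N := by
    intro g hg
    let f : Option ↥(P : Subgroup G) → G ⧸ N := fun o =>
      o.elim ((1 : G) : G ⧸ N) fun p => ((p : G) * t : G)
    have hf : Function.Injective f := by
      rintro (_ | p) (_ | q) h
      · rfl
      · exfalso
        have h' : (1 : G)⁻¹ * ((q : G) * t) ∈ N := QuotientGroup.eq.1 h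
        rw [inv_one, one_mul] at h'
        exact htN ((mul_mem_cancel_left (hPN q.2)).1 h')
      · exfalso
        have h' : (1 : G)⁻¹ * ((p : G) * t) ∈ N := QuotientGroup.eq.1 h.symm
        rw [inv_one, one_mul] at h'
        exact htN ((mul_mem_cancel_left (hPN p.2)).1 h')
      · exact congrArg some (Subtype.ext (huniq p p.2 q q.2 (QuotientGroup.eq.1 h)))
    have hcard : Nat.card (Option ↥(P : Subgroup G)) = Nat.card (G ⧸ N) := by
      have h1 := N.card_mul_index
      rw [hN216, hG.card] at h1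
      have h2 : Nat.card (G ⧸ N) = 28 := by rw [← Subgroup.index_eq_card]; omega
      rw [h2, Finite.card_option, card_sylow_three hG P]
    obtain ⟨o, ho⟩ := ((Nat.bijective_iff_injective_and_card f).2 ⟨hf, hcard⟩).2 (g : G ⧸ N)
    rcases o with _ | p
    · exfalso
      have h' : (1 : G)⁻¹ * g ∈ N := QuotientGroup.eq.1 ho
      rw [inv_one, one_mul] at h'
      exact hg h'
    · exact ⟨p, p.2, QuotientGroup.eq.1 ho⟩
  -- the complement
  let K : Subgroup G := N ⊓ N.comap (MulAut.conj t).toMonoidHom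
  have hKiff : ∀ g, g ∈ K ↔ g ∈ N ∧ t * g * t ∈ N := fun g => by
    show g ∈ N ∧ t * g * t⁻¹ ∈ N ↔ _
    rw [hti]
  have hKN : K ≤ N := inf_le_left
  have hKt : ∀ g ∈ K, t * g * t ∈ K := fun g hg => by
    obtain ⟨h1, h2⟩ := (hKiff g).1 hg
    refine (hKiff _).2 ⟨h2, ?_⟩
    rw [show t * (t * g * t) * t = t * t * g * (t * t) by group, htt, one_mul, mul_one]
    exact h1
  have hsplit : ∀ g ∈ N, ∃ p ∈ (P : Subgroup G), ∃ k ∈ K, g = p * k := by
    intro g hg
    obtain ⟨p, hp, h⟩ := hpoints (g * t) fun h => htN ((mul_mem_cancel_left hg).1 h)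
    refine ⟨p, hp, p⁻¹ * g, (hKiff _).2 ⟨mul_mem (inv_mem (hPN hp)) hg, ?_⟩, by group⟩
    rw [mul_inv_rev, hti] at h
    rw [show t * (p⁻¹ * g) * t = t * p⁻¹ * (g * t) by group]
    exact h
  have hKP : ∀ p ∈ (P : Subgroup G), p ∈ K → p = 1 := fun p hp h => hreg p hp ((hKiff p).1 h).2
  have hK8 : Nat.card K = 8 := by
    have hb : Function.Bijective (fun x : ↥(P : Subgroup G) × ↥K =>
        (⟨(x.1 : G) * x.2, mul_mem (hPN x.1.2) (hKN x.2.2)⟩ : ↥N)) := by
      refine ⟨fun x y h => ?_, fun g => ?_⟩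
      · have h' : (x.1 : G) * x.2 = (y.1 : G) * y.2 := congrArg Subtype.val h
        have h'' : (y.1 : G)⁻¹ * x.1 = (y.2 : G) * (x.2 : G)⁻¹ := by
          rw [eq_mul_inv_iff_mul_eq, mul_assoc, h', inv_mul_cancel_left]
        have h1 := hKP _ (mul_mem (inv_mem y.1.2) x.1.2) (h'' ▸ mul_mem y.2.2 (inv_mem x.2.2))
        have e1 : x.1 = y.1 := Subtype.ext (inv_mul_eq_one.1 h1).symm
        rw [e1] at h'
        exact Prod.ext e1 (Subtype.ext (mul_left_cancel h'))
      · obtain ⟨p, hp, k, hk, e⟩ := hsplit g g.2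
        exact ⟨(⟨p, hp⟩, ⟨k, hk⟩), Subtype.ext e.symm⟩
    have h := Nat.card_congr (Equiv.ofBijective _ hb)
    rw [Nat.card_prod, card_sylow_three hG P, hN216] at h
    omega
  have hKord : ∀ k ∈ K, k ^ 8 = 1 := fun k hk =>
    orderOf_dvd_iff_pow_eq_one.1 (hK8 ▸ Subgroup.orderOf_dvd_natCard K hk)
  have hKinv : ∀ k ∈ K, k ≠ 1 → ∃ m : ℕ, orderOf (k ^ m) = 2 := by
    intro k hk hk1
    obtain ⟨j, hj, hj'⟩ := (Nat.dvd_prime_pow Nat.prime_two).1
      (show orderOf k ∣ 2 ^ 3 from orderOf_dvd_of_pow_eq_one (hKord k hk))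
    have hj0 : j ≠ 0 := fun e => hk1 (orderOf_eq_one_iff.1 (by simpa [e] using hj'))
    refine ⟨2 ^ (j - 1), ?_⟩
    rw [orderOf_pow' k (by positivity), hj', Nat.gcd_eq_right (pow_dvd_pow 2 (Nat.sub_le j 1)),
      Nat.pow_div (Nat.sub_le j 1) (by norm_num), show j - (j - 1) = 1 by omega, pow_one]
  -- the centre
  have hZP : Z ≤ (P : Subgroup G) := zpowers_le.2 hc
  have hZc : ∀ w ∈ Z, ∀ g ∈ (P : Subgroup G), Commute w g := by
    rintro _ ⟨i, rfl⟩ g hg
    exact (hcc g hg).zpow_left i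
  have hZcard : Nat.card Z = 3 := by rw [Nat.card_zpowers, hc3]
  have hZ3 : ∀ w ∈ Z, w ^ 3 = 1 := fun w hw =>
    orderOf_dvd_iff_pow_eq_one.1 (hZcard ▸ Subgroup.orderOf_dvd_natCard Z hw)
  have hcomm : ∀ x ∈ (P : Subgroup G), ∀ y ∈ (P : Subgroup G), x * y * x⁻¹ * y⁻¹ ∈ Z := by
    intro x hx y hy
    haveI : (Z.subgroupOf (P : Subgroup G)).Normal := ⟨fun w hw g => by
      rw [Subgroup.mem_subgroupOf] at hw ⊢
      push_cast
      rw [← (hZc _ hw _ g.2).eq, mul_inv_cancel_right]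
      exact hw⟩
    have hQ : Nat.card (↥(P : Subgroup G) ⧸ Z.subgroupOf (P : Subgroup G)) = 3 ^ 2 := by
      have h := Subgroup.card_eq_card_quotient_mul_card_subgroup (Z.subgroupOf (P : Subgroup G))
      rw [card_sylow_three hG P, Nat.card_congr (Subgroup.subgroupOfEquivOfLe hZP).toEquiv, hZcard] at h
      omega
    have h := IsPGroup.commutative_of_card_eq_prime_sq hQ
      (QuotientGroup.mk (⟨x, hx⟩ : ↥(P : Subgroup G))) (QuotientGroup.mk (⟨y, hy⟩ : ↥(P : Subgroup G)))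
    rw [← QuotientGroup.mk_mul, ← QuotientGroup.mk_mul, QuotientGroup.eq, Subgroup.mem_subgroupOf] at h
    push_cast at h
    have h' := inv_mem h
    have e : ((x * y)⁻¹ * (y * x))⁻¹ = (y * x)⁻¹ * (x * y * x⁻¹ * y⁻¹) * (y * x) := by group
    rw [e] at h'
    have hk : x * y * x⁻¹ * y⁻¹ = (y * x) * ((y * x)⁻¹ * (x * y * x⁻¹ * y⁻¹) * (y * x)) * (y * x)⁻¹ := by
      group
    rw [hk, ← (hZc _ h' _ (mul_mem hy hx)).eq, mul_inv_cancel_right]
    exact h'
  have hconjP : ∀ g ∈ N, ∀ x ∈ (P : Subgroup G), g * x * g⁻¹ ∈ (P : Subgroup G) := fun g hg x hx =>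
    (Subgroup.mem_normalizer_iff.1 hg x).1 hx
  have hconjZ : ∀ g ∈ N, ∀ w ∈ Z, g * w * g⁻¹ ∈ Z := by
    intro g hg w hw
    have hgc : g * c * g⁻¹ ∈ Z := by
      by_contra hcon
      have h := hz _ (hconjP g hg c hc) hcon
      rw [Char.irr_isClassFunction hχ.irr, hcv] at h
      norm_num at h
    obtain ⟨i, rfl⟩ := mem_zpowers_iff.1 hw
    rw [← conj_zpow]
    exact zpow_mem hgc i
  -- semiregularity
  have hfix : ∀ k ∈ K, k ≠ 1 → ∀ x ∈ (P : Subgroup G), k * x * k⁻¹ * x⁻¹ ∈ Z → x ∈ Z := by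
    intro k hk hk1 x hx hkx
    by_contra hxZ
    obtain ⟨m, hs⟩ := hKinv k hk hk1
    have hpw : ∀ n : ℕ, k ^ n * x * (k ^ n)⁻¹ * x⁻¹ ∈ Z := by
      intro n
      induction n with
      | zero => simp
      | succ n ih =>
        rw [show k ^ (n + 1) * x * (k ^ (n + 1))⁻¹ * x⁻¹ =
          k * (k ^ n * x * (k ^ n)⁻¹ * x⁻¹) * k⁻¹ * (k * x * k⁻¹ * x⁻¹) by rw [pow_succ']; group]
        exact mul_mem (hconjZ k (hKN hk) _ ih) hkx
    obtain ⟨s, hsdef⟩ : ∃ s, s = k ^ m := ⟨_, rfl⟩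
    rw [← hsdef] at hs
    have hss : s * s = 1 := by rw [← pow_two, ← hs, pow_orderOf_eq_one]
    have hsi : s⁻¹ = s := inv_eq_of_mul_eq_one_right hss
    obtain ⟨w, hw, hwdef⟩ : ∃ w ∈ Z, s * x * s * x⁻¹ = w := by
      refine ⟨_, ?_, rfl⟩
      have := hpw m
      rw [← hsdef, hsi] at this
      exact this
    have h1 : s * x * s = w * x := by rw [← hwdef, inv_mul_cancel_right]
    have h2 : s * w * s = w⁻¹ := by
      have tt : ∀ y, s * (s * y) = y := fun y => by rw [← mul_assoc, hss, one_mul]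
      have h : x = s * w * s * (w * x) := by
        calc x = s * (s * x * s) * s := by simp only [mul_assoc, tt, hss, mul_one]
          _ = s * (w * x) * s := by rw [h1]
          _ = s * w * s * (s * x * s) := by simp only [mul_assoc, tt]
          _ = _ := by rw [h1]
      rw [← mul_assoc] at h
      exact eq_inv_of_mul_eq_one_left (mul_eq_right.1 h.symm)
    have h3 : s * (w ^ 2 * x) * s = w ^ 2 * x := by
      calc s * (w ^ 2 * x) * s = (s * w * s) * (s * w * s) * (s * x * s) := by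
            rw [show s * w * s * (s * w * s) * (s * x * s) = s * w * (s * s) * w * (s * s) * x * s by group,
              hss, mul_one, mul_one, pow_two]
            group
        _ = w⁻¹ * w⁻¹ * (w * x) := by rw [h1, h2]
        _ = w⁻¹ * x := by group
        _ = w ^ 2 * x := by
          rw [inv_eq_of_mul_eq_one_left (a := w ^ 2) (by rw [← pow_succ]; exact hZ3 w hw)]
    have hyP : w ^ 2 * x ∈ (P : Subgroup G) := mul_mem (pow_mem (hZP hw) 2) hx
    have hyZ : w ^ 2 * x ∉ Z := fun h => hxZ ((mul_mem_cancel_left (pow_mem hw 2)).1 h)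
    have hcm : Commute s (w ^ 2 * x) := by
      show _ = _
      calc s * (w ^ 2 * x) = s * (w ^ 2 * x) * (s * s) := by rw [hss, mul_one]
        _ = s * (w ^ 2 * x) * s * s := by rw [← mul_assoc]
        _ = _ := by rw [h3]
    exact hχ.zero _ s (ord_mem hG hχ P hyP fun e => hyZ (e ▸ one_mem _)) (hz _ hyP hyZ) hs hcm
  -- involutions invert modulo the centre
  have hinvZ : ∀ s ∈ K, orderOf s = 2 → ∀ x ∈ (P : Subgroup G), x * (s * x * s) ∈ Z := by
    intro s hs ho x hx
    have hss : s * s = 1 := by rw [← pow_two, ← ho, pow_orderOf_eq_one]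
    have hsi : s⁻¹ = s := inv_eq_of_mul_eq_one_right hss
    have hx' : s * x * s ∈ (P : Subgroup G) := by
      have := hconjP s (hKN hs) x hx
      rwa [hsi] at this
    refine hfix s hs (fun e => by rw [e, orderOf_one] at ho; norm_num at ho) _ (mul_mem hx hx') ?_
    rw [hsi, show s * (x * (s * x * s)) * s = s * x * s * x * (s * s) by group, hss, mul_one, mul_inv_rev,
      ← mul_assoc]
    exact hcomm _ hx' _ hx
  have hnon : ∀ x ∈ (P : Subgroup G), x ∉ Z → ∃ y ∈ (P : Subgroup G), x * y * x⁻¹ * y⁻¹ ≠ 1 := by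
    intro x hx hxZ
    by_contra h
    push Not at h
    have hle : (P : Subgroup G) ≤ Z ⊔ zpowers x := fun y hy => by
      refine mem_pow_of_commute hG hχ P hc3 hz hx hy hxZ ?_
      have h' := h y hy
      show x * y = y * x
      calc x * y = x * y * x⁻¹ * y⁻¹ * (y * x) := by group
        _ = y * x := by rw [h', one_mul]
    let φ : ↥Z × ↥(zpowers x) →* G :=
      MonoidHom.noncommCoprod Z.subtype (zpowers x).subtype fun a b =>
        hZc a a.2 b (zpowers_le.2 hx b.2)
    have hle' : (P : Subgroup G) ≤ φ.range := hle.trans (sup_le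
      (fun w hw => ⟨(⟨w, hw⟩, 1), mul_one w⟩) fun w hw => ⟨(1, ⟨w, hw⟩), one_mul w⟩)
    have h27 := (Subgroup.card_le_of_le hle').trans
      (Nat.card_le_card_of_surjective φ.rangeRestrict φ.rangeRestrict_surjective)
    rw [card_sylow_three hG P, Nat.card_prod, hZcard, Nat.card_zpowers,
      ord_mem hG hχ P hx fun e => hxZ (e ▸ one_mem _)] at h27
    omega
  obtain ⟨x₀, hx₀, hx₀Z⟩ : ∃ x ∈ (P : Subgroup G), x ∉ Z := by
    by_contra h
    push Not at h
    have := Subgroup.card_le_of_le (show (P : Subgroup G) ≤ Z from h)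
    rw [card_sylow_three hG P, hZcard] at this
    omega
  have hsZ : ∀ s ∈ K, orderOf s = 2 → ∀ w ∈ Z, s * w * s = w := by
    intro s hs ho w hw
    have hss : s * s = 1 := by rw [← pow_two, ← ho, pow_orderOf_eq_one]
    obtain ⟨y, hy, hne⟩ := hnon x₀ hx₀ hx₀Z
    set C := x₀ * y * x₀⁻¹ * y⁻¹ with hC
    have hCZ : C ∈ Z := hcomm _ hx₀ _ hy
    obtain ⟨w₁, hw₁, e₁⟩ : ∃ w ∈ Z, s * x₀ * s = x₀⁻¹ * w :=
      ⟨_, hinvZ s hs ho x₀ hx₀, by rw [inv_mul_cancel_left]⟩
    obtain ⟨w₂, hw₂, e₂⟩ : ∃ w ∈ Z, s * y * s = y⁻¹ * w :=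
      ⟨_, hinvZ s hs ho y hy, by rw [inv_mul_cancel_left]⟩
    have hsC : s * C * s = C := by
      have hsi : s⁻¹ = s := inv_eq_of_mul_eq_one_right hss
      calc s * C * s = (s * x₀ * s) * (s * y * s) * (s * x₀ * s)⁻¹ * (s * y * s)⁻¹ := by
            rw [hC, show s * (x₀ * y * x₀⁻¹ * y⁻¹) * s = MulAut.conj s (x₀ * y * x₀⁻¹ * y⁻¹) by
              rw [MulAut.conj_apply, hsi]]
            simp only [map_mul, map_inv, MulAut.conj_apply, hsi]
        _ = x₀⁻¹ * (w₁ * y⁻¹) * (w₂ * w₁⁻¹) * x₀ * (w₂⁻¹ * y) := by rw [e₁, e₂]; group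
        _ = x₀⁻¹ * y⁻¹ * (w₁ * (w₂ * w₁⁻¹) * x₀) * (w₂⁻¹ * y) := by
            rw [(hZc w₁ hw₁ _ (inv_mem hy)).eq]; simp only [mul_assoc]
        _ = x₀⁻¹ * y⁻¹ * (x₀ * w₂) * (w₂⁻¹ * y) := by
            rw [← mul_assoc w₁, (hZc w₁ hw₁ _ (hZP hw₂)).eq, mul_inv_cancel_right, (hZc w₂ hw₂ _ hx₀).eq]
        _ = x₀⁻¹ * y⁻¹ * (C * (y * x₀) * y⁻¹) * y := by
            rw [hC]; group
        _ = x₀⁻¹ * y⁻¹ * (y * x₀ * C) := by
            rw [(hZc C hCZ _ (mul_mem hy hx₀)).eq]; group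
        _ = C := by group
    obtain ⟨i, hi⟩ := mem_zpowers_iff.1 hw
    have hzc : zpowers C = Z := Subgroup.eq_of_le_of_card_ge (zpowers_le.2 hCZ) (by
      rw [hZcard, Nat.card_zpowers, ord_mem hG hχ P (hZP hCZ) hne])
    obtain ⟨l, rfl⟩ := mem_zpowers_iff.1 (hzc.symm ▸ hw : w ∈ zpowers C)
    have hsi : s⁻¹ = s := inv_eq_of_mul_eq_one_right hss
    calc s * C ^ l * s = s * C ^ l * s⁻¹ := by rw [hsi]
      _ = (s * C * s⁻¹) ^ l := by rw [conj_zpow]
      _ = C ^ l := by rw [hsi, hsC]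
  -- the involution is unique
  have huz : ∀ s ∈ K, orderOf s = 2 → ∀ s' ∈ K, orderOf s' = 2 → s = s' := by
    intro s hs ho s' hs' ho'
    have hss : s * s = 1 := by rw [← pow_two, ← ho, pow_orderOf_eq_one]
    have hs's' : s' * s' = 1 := by rw [← pow_two, ← ho', pow_orderOf_eq_one]
    have hsi : s⁻¹ = s := inv_eq_of_mul_eq_one_right hss
    have hs'i : s'⁻¹ = s' := inv_eq_of_mul_eq_one_right hs's'
    by_contra hne
    refine hx₀Z (hfix (s * s') (mul_mem hs hs') (fun e => hne (by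
      rw [mul_eq_one_iff_eq_inv.1 e, hs'i])) x₀ hx₀ ?_)
    obtain ⟨w₁, hw₁, e₁⟩ : ∃ w ∈ Z, s' * x₀ * s' = x₀⁻¹ * w :=
      ⟨_, hinvZ s' hs' ho' x₀ hx₀, by rw [inv_mul_cancel_left]⟩
    obtain ⟨w₂, hw₂, e₂⟩ : ∃ w ∈ Z, s * x₀ * s = x₀⁻¹ * w :=
      ⟨_, hinvZ s hs ho x₀ hx₀, by rw [inv_mul_cancel_left]⟩
    have e₃ : s * x₀⁻¹ * s = w₂⁻¹ * x₀ := by
      calc s * x₀⁻¹ * s = (s * x₀ * s)⁻¹ := by rw [mul_inv_rev, mul_inv_rev, hsi, mul_assoc]
        _ = _ := by rw [e₂, mul_inv_rev, inv_inv]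
    have : s * s' * x₀ * (s * s')⁻¹ * x₀⁻¹ = w₂⁻¹ * w₁ := by
      calc s * s' * x₀ * (s * s')⁻¹ * x₀⁻¹ = s * (s' * x₀ * s') * s * x₀⁻¹ := by
            rw [mul_inv_rev, hsi, hs'i]; group
        _ = (s * x₀⁻¹ * s) * (s * w₁ * s) * x₀⁻¹ := by
            rw [e₁, show s * x₀⁻¹ * s * (s * w₁ * s) = s * x₀⁻¹ * (s * s) * w₁ * s by group, hss, mul_one]
            group
        _ = w₂⁻¹ * (x₀ * w₁ * x₀⁻¹) := by rw [e₃, hsZ s hs ho w₁ hw₁]; group
        _ = _ := by rw [← (hZc w₁ hw₁ x₀ hx₀).eq, mul_inv_cancel_right]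
    rw [this]
    exact mul_mem (inv_mem hw₂) hw₁
  obtain ⟨z, hzo⟩ := exists_prime_orderOf_dvd_card' (G := ↥K) 2 (by rw [hK8]; norm_num)
  obtain ⟨zG, hzK, hz2⟩ : ∃ z ∈ K, orderOf z = 2 := ⟨z, z.2, by rw [Subgroup.orderOf_coe, hzo]⟩
  have hzz : zG * zG = 1 := by rw [← pow_two, ← hz2, pow_orderOf_eq_one]
  have hzi : zG⁻¹ = zG := inv_eq_of_mul_eq_one_right hzz
  have hzk : ∀ k ∈ K, k * zG = zG * k := by
    intro k hk
    have h := huz _ (mul_mem (mul_mem hk hzK) (inv_mem hk))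
      (by rw [show k * zG * k⁻¹ = MulAut.conj k zG from rfl, (MulAut.conj k).orderOf_eq, hz2]) _ hzK hz2
    calc k * zG = k * zG * k⁻¹ * k := by group
      _ = zG * k := by rw [h]
  -- an element inverted by the involution
  obtain ⟨a, haP, haZ, haz⟩ : ∃ a ∈ (P : Subgroup G), a ∉ Z ∧ zG * a * zG = a⁻¹ := by
    have hx' : zG * x₀ * zG ∈ (P : Subgroup G) := by
      have := hconjP zG (hKN hzK) x₀ hx₀
      rwa [hzi] at this
    refine ⟨x₀ * (zG * x₀ * zG)⁻¹, mul_mem hx₀ (inv_mem hx'), fun h => hx₀Z ?_, ?_⟩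
    · have h' := mul_mem h (hinvZ zG hzK hz2 x₀ hx₀)
      rw [← (hZc _ (hinvZ zG hzK hz2 x₀ hx₀) _ (mul_mem hx₀ (inv_mem hx'))).eq,
        show x₀ * (zG * x₀ * zG) * (x₀ * (zG * x₀ * zG)⁻¹) =
          x₀ * ((zG * x₀ * zG) * x₀ * (zG * x₀ * zG)⁻¹) by group] at h'
      have h2 := mul_mem (inv_mem (hcomm _ hx' _ hx₀)) h'
      have h3 : x₀ ^ 2 ∈ Z := by
        have hcm := hZc _ (hcomm _ hx' _ hx₀) x₀ hx₀
        have e : x₀ * ((zG * x₀ * zG) * x₀ * (zG * x₀ * zG)⁻¹) =
            (zG * x₀ * zG * x₀ * (zG * x₀ * zG)⁻¹ * x₀⁻¹) * x₀ ^ 2 := by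
          rw [pow_two, ← mul_assoc _ x₀ x₀, hcm.eq]; group
        rw [e] at h2
        simpa [← mul_assoc] using h2
      have e : x₀ = (x₀ ^ 2)⁻¹ * x₀ ^ 3 := by group
      rw [e, show x₀ ^ 3 = 1 by
        rw [← ord_mem hG hχ P hx₀ fun e => hx₀Z (e ▸ one_mem _)]; exact pow_orderOf_eq_one x₀, mul_one]
      exact inv_mem h3
    · calc zG * (x₀ * (zG * x₀ * zG)⁻¹) * zG = zG * x₀ * (zG * x₀⁻¹ * zG) * zG := by
            rw [mul_inv_rev, mul_inv_rev, hzi, mul_assoc zG x₀⁻¹]
            group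
        _ = zG * x₀ * zG * x₀⁻¹ * (zG * zG) := by group
        _ = _ := by rw [hzz, mul_one, mul_inv_rev, inv_inv]
  -- coordinates from an element acting fixed-point-freely
  have base : ∀ g ∈ K, g ≠ 1 → g * g ≠ 1 →
      Heis a (g * a * g⁻¹) ∧ zG * (g * a * g⁻¹) * zG = (g * a * g⁻¹)⁻¹ ∧
      (∀ p < 27, ∀ q < 27, word a (g * a * g⁻¹) p = word a (g * a * g⁻¹) q → p = q) ∧
      (∀ p, word a (g * a * g⁻¹) p ∈ (P : Subgroup G)) ∧
      (∀ y ∈ (P : Subgroup G), ∃ p < 27, word a (g * a * g⁻¹) p = y) ∧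
      (∀ p, zG * word a (g * a * g⁻¹) p * zG⁻¹ = word a (g * a * g⁻¹) (endo 2 6 p)) := by
    intro g hg hg1 hg2
    set b := g * a * g⁻¹ with hbdef
    have hbP : b ∈ (P : Subgroup G) := hconjP g (hKN hg) a haP
    have ha1 : a ≠ 1 := fun e => haZ (e ▸ one_mem _)
    have ha3 : a ^ 3 = 1 := by rw [← ord_mem hG hχ P haP ha1]; exact pow_orderOf_eq_one a
    have hb3 : b ^ 3 = 1 := by rw [hbdef, conj_pow, ha3, mul_one, mul_inv_cancel]
    have hbsup : b ∉ Z ⊔ zpowers a := by
      intro hb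
      let φ : ↥Z × ↥(zpowers a) →* G :=
        MonoidHom.noncommCoprod Z.subtype (zpowers a).subtype fun x y =>
          hZc x x.2 y (zpowers_le.2 haP y.2)
      have hb' : b ∈ φ.range := (sup_le (fun w hw => ⟨(⟨w, hw⟩, 1), mul_one w⟩)
        (fun w hw => ⟨(1, ⟨w, hw⟩), one_mul w⟩) : Z ⊔ zpowers a ≤ φ.range) hb
      obtain ⟨⟨⟨w, hw⟩, ⟨_, n, rfl⟩⟩, e⟩ := hb'
      have e' : w * a ^ n = b := e
      rw [← zpow_mod_orderOf, ord_mem hG hχ P haP ha1] at e'
      obtain h | h | h : n % ((3 : ℕ) : ℤ) = 0 ∨ n % ((3 : ℕ) : ℤ) = 1 ∨ n % ((3 : ℕ) : ℤ) = 2 := by omega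
      all_goals rw [h] at e'
      · rw [zpow_zero, mul_one] at e'
        refine haZ ?_
        have := hconjZ g⁻¹ (inv_mem (hKN hg)) w hw
        rw [show a = g⁻¹ * b * g⁻¹⁻¹ by rw [hbdef]; group, ← e']
        exact this
      · rw [zpow_one] at e'
        refine haZ (hfix g hg hg1 a haP ?_)
        rw [← hbdef, ← e', mul_inv_cancel_right]
        exact hw
      · refine haZ (hfix (g * g) (mul_mem hg hg) hg2 a haP ?_)
        have e2 : w * (a * a) = b := by rw [← pow_two, ← zpow_natCast]; exact e'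
        have hgb : g * b * g⁻¹ = (g * w * g⁻¹) * (w * w) * a := by
          have hc1 := (hZc w hw (a * a) (mul_mem haP haP)).eq
          calc g * b * g⁻¹ = g * (w * (a * a)) * g⁻¹ := by rw [e2]
            _ = g * w * g⁻¹ * (b * b) := by rw [hbdef]; group
            _ = g * w * g⁻¹ * (w * ((a * a) * w) * (a * a)) := by rw [← e2]; simp only [mul_assoc]
            _ = g * w * g⁻¹ * (w * w) * (a ^ 3 * a) := by rw [← hc1, pow_succ, pow_two]; simp only [mul_assoc]
            _ = _ := by rw [ha3, one_mul]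
        rw [show g * g * a * (g * g)⁻¹ * a⁻¹ = g * b * g⁻¹ * a⁻¹ by rw [hbdef]; group, hgb,
          mul_inv_cancel_right]
        exact mul_mem (hconjZ g (hKN hg) w hw) (mul_mem hw hw)
    have hCne : a * b * a⁻¹ * b⁻¹ ≠ 1 := by
      intro h
      refine hbsup (mem_pow_of_commute hG hχ P hc3 hz haP hbP haZ ?_)
      show a * b = b * a
      calc a * b = a * b * a⁻¹ * b⁻¹ * (b * a) := by group
        _ = b * a := by rw [h, one_mul]
    have hCZ : a * b * a⁻¹ * b⁻¹ ∈ Z := hcomm _ haP _ hbP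
    have hH : Heis a b := ⟨ha3, hb3, hZ3 _ hCZ, hZc _ hCZ a haP, hZc _ hCZ b hbP⟩
    have hzb : zG * b * zG = b⁻¹ := by
      calc zG * (g * a * g⁻¹) * zG = (zG * g) * a * (zG⁻¹ * g)⁻¹ := by group
        _ = g * (zG * a * zG) * g⁻¹ := by rw [hzi, ← hzk g hg, mul_inv_rev, hzi]; group
        _ = _ := by rw [haz, hbdef]; simp only [mul_inv_rev, inv_inv, mul_assoc]
    have hmem : ∀ p, word a b p ∈ (P : Subgroup G) := fun p =>
      mul_mem (mul_mem (pow_mem haP _) (pow_mem hbP _)) (pow_mem (hZP hCZ) _)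
    have hker : ∀ p < 27, word a b p = 1 → p = 0 := by
      intro p hp h
      have hj : p / 3 % 3 = 0 := by
        by_contra hj
        refine hbsup ?_
        have hbj : b ^ (p / 3 % 3) ∈ Z ⊔ zpowers a := by
          rw [word, mul_eq_one_iff_eq_inv, ← eq_inv_mul_iff_mul_eq] at h
          rw [h]
          exact mul_mem (inv_mem (Subgroup.mem_sup_right (pow_mem (mem_zpowers a) _)))
            (Subgroup.mem_sup_left (inv_mem (pow_mem hCZ _)))
        have : p / 3 % 3 = 1 ∨ p / 3 % 3 = 2 := by omega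
        rcases this with e | e
        · rwa [e, pow_one] at hbj
        · rw [e] at hbj
          have := mul_mem hbj hbj
          rwa [← pow_add, pow_succ, hb3, one_mul] at this
      rw [word, hj, pow_zero, mul_one] at h
      have hi : p % 3 = 0 := by
        by_contra hi
        refine haZ ?_
        have hai : a ^ (p % 3) ∈ Z := by
          rw [mul_eq_one_iff_eq_inv.1 h]
          exact inv_mem (pow_mem hCZ _)
        have : p % 3 = 1 ∨ p % 3 = 2 := by omega
        rcases this with e | e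
        · rwa [e, pow_one] at hai
        · rw [e] at hai
          have := mul_mem hai hai
          rwa [← pow_add, pow_succ, ha3, one_mul] at this
      rw [hi, pow_zero, one_mul, ← orderOf_dvd_iff_pow_eq_one, ord_mem hG hχ P (hZP hCZ) hCne] at h
      omega
    have hinj : ∀ p < 27, ∀ q < 27, word a b p = word a b q → p = q := by
      intro p hp q hq h
      have h1 := hker _ (mulN_lt hp (invN_lt hq)) (by
        rw [word_mul hH hp (invN_lt hq), word_invN hH hq, h, mul_inv_cancel])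
      have : ∀ p < 27, ∀ q < 27, mulN p (invN q) = 0 → p = q := by decide +kernel
      exact this p hp q hq h1
    refine ⟨hH, hzb, hinj, hmem, fun y hy => ?_, fun p => ?_⟩
    · have hb : Function.Bijective (fun p : Fin 27 => (⟨word a b p, hmem p⟩ : ↥(P : Subgroup G))) := by
        refine (Nat.bijective_iff_injective_and_card _).2
          ⟨fun p q h => Fin.ext (hinj p p.2 q q.2 (congrArg Subtype.val h)), ?_⟩
        rw [Nat.card_fin, card_sylow_three hG P]
      obtain ⟨p, hp⟩ := hb.2 ⟨y, hy⟩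
      exact ⟨p, p.2, congrArg Subtype.val hp⟩
    · refine word_conj hH (by norm_num) (by norm_num) ?_ ?_ p
      · rw [hzi, haz, show (2 : ℕ) = mulN 1 1 by decide +kernel,
          word_mul hH (by norm_num) (by norm_num), word_one]
        exact inv_eq_of_mul_eq_one_left (by rw [← pow_two, ← pow_succ, ha3])
      · rw [hzi, hzb, show (6 : ℕ) = mulN 3 3 by decide +kernel,
          word_mul hH (by norm_num) (by norm_num), word_three]
        exact inv_eq_of_mul_eq_one_left (by rw [← pow_two, ← pow_succ, hb3])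
  -- the frame from coordinates
  have build : ∀ (T : KTab) (b : G) (κ : ℕ → G), Heis a b →
      (∀ p < 27, ∀ q < 27, word a b p = word a b q → p = q) →
      (∀ p, word a b p ∈ (P : Subgroup G)) → (∀ y ∈ (P : Subgroup G), ∃ p < 27, word a b p = y) →
      κ 0 = 1 → (∀ x < 8, ∀ y < 8, κ (T.kmul x y) = κ x * κ y) →
      (∀ x < 8, ∀ y < 8, κ x = κ y → x = y) → (∀ x < 8, κ x ∈ K) →
      (∀ x < 8, ∀ p < 27, κ x * word a b p * (κ x)⁻¹ = word a b (T.act x p)) → Nonempty (Frame G T) := by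
    intro T b κ hH hinj hmem hsurj hκ0 hκmul hκinj hκK hact
    have hb : Function.Bijective (fun x : Fin 8 => (⟨κ x, hκK x x.2⟩ : ↥K)) := by
      refine (Nat.bijective_iff_injective_and_card _).2
        ⟨fun x y h => Fin.ext (hκinj x x.2 y y.2 (congrArg Subtype.val h)), ?_⟩
      rw [Nat.card_fin, hK8]
    have hcov : ∀ k ∈ K, ∃ x < 8, κ x = k := fun k hk => by
      obtain ⟨x, hx⟩ := hb.2 ⟨k, hk⟩
      exact ⟨x, x.2, congrArg Subtype.val hx⟩
    exact ⟨{
      φ := word a b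
      κ := κ
      t := t
      N := N
      φ_zero := word_zero a b
      φ_mul := fun x hx y hy => word_mul hH hx hy
      φ_mem := fun p _ => hPN (hmem p)
      κ_zero := hκ0
      κ_mul := hκmul
      κ_inj := hκinj
      κ_mem := fun x hx => hKN (hκK x hx)
      act := hact
      cover := fun g hg => by
        obtain ⟨y, hy, k, hk, rfl⟩ := hsplit g hg
        obtain ⟨p, hp, rfl⟩ := hsurj y hy
        obtain ⟨x, hx, rfl⟩ := hcov k hk
        exact ⟨p, hp, x, hx, rfl⟩
      t_sq := htt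
      t_notMem := htN
      t_norm := fun x hx => by
        obtain ⟨y, hy, e⟩ := hcov _ (hKt _ (hκK x hx))
        exact ⟨y, hy, e.symm⟩
      points := fun g hg => by
        obtain ⟨y, hy, h⟩ := hpoints g hg
        obtain ⟨p, hp, rfl⟩ := hsurj y hy
        exact ⟨p, hp, h⟩
      unique := fun p hp q hq h => hinj p hp q hq (huniq _ (hmem p) _ (hmem q) h) }⟩
  by_cases hcyc : ∃ k ∈ K, orderOf k = 8
  · -- the cyclic group
    left
    obtain ⟨k₀, hk₀, hk₀8⟩ := hcyc
    have facts : ∀ k ∈ K, orderOf k = 8 → k ^ 4 = zG ∧ k ≠ 1 ∧ k * k ≠ 1 := fun k hk hk8 => by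
      refine ⟨huz _ (pow_mem hk 4) (by rw [orderOf_pow' k (by norm_num), hk8]; norm_num) _ hzK hz2,
        fun e => ?_, fun e => ?_⟩
      · rw [e, orderOf_one] at hk8; norm_num at hk8
      · rw [← pow_two] at e
        have := orderOf_dvd_of_pow_eq_one e
        rw [hk8] at this
        norm_num at this
    have image : ∀ k ∈ K, orderOf k = 8 → ∃ q, (q = 13 ∨ q = 25) ∧
        k * (k * a * k⁻¹) * k⁻¹ = word a (k * a * k⁻¹) q := by
      intro k hk hk8
      obtain ⟨hk4, hk1, hk2⟩ := facts k hk hk8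
      obtain ⟨hH, hzb, hinj, hmem, hsurj, hzw⟩ := base k hk hk1 hk2
      obtain ⟨q, hq, hqe⟩ := hsurj _ (hconjP k (hKN hk) _ (hconjP k (hKN hk) a haP))
      refine ⟨q, candZ q hq ?_ ?_, hqe.symm⟩
      · refine hinj _ (endo_lt (by norm_num) (by norm_num) q) _ (invN_lt hq) ?_
        rw [← hzw, word_invN hH hq, hqe, hzi]
        calc zG * (k * (k * a * k⁻¹) * k⁻¹) * zG = (zG * k) * (k * a * k⁻¹) * (zG⁻¹ * k)⁻¹ := by group
          _ = k * (zG * (k * a * k⁻¹) * zG) * k⁻¹ := by rw [hzi, ← hzk k hk, mul_inv_rev, hzi]; group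
          _ = _ := by rw [hzb]; simp only [mul_inv_rev, inv_inv, mul_assoc]
      · have hF : ∀ p, k * word a (k * a * k⁻¹) p * k⁻¹ = word a (k * a * k⁻¹) (endo 3 q p) :=
          word_conj hH (by norm_num) hq (by rw [word_three]) hqe.symm
        have e := endo_lt (x := 3) (y := q) (by norm_num) hq
        refine hinj _ (e _) 2 (by norm_num) ?_
        rw [← hF, ← hF, ← hF, ← hF, show (2 : ℕ) = endo 2 6 1 by decide +kernel, ← hzw, word_one, ← hk4,
          pow_succ, pow_succ, pow_two]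
        group
    obtain ⟨k, hk, hk8, hq⟩ : ∃ k ∈ K, orderOf k = 8 ∧
        k * (k * a * k⁻¹) * k⁻¹ = word a (k * a * k⁻¹) 13 := by
      obtain ⟨q, hq, hqe⟩ := image k₀ hk₀ hk₀8
      rcases hq with rfl | rfl
      · exact ⟨k₀, hk₀, hk₀8, hqe⟩
      obtain ⟨hk4, hk1, hk2⟩ := facts k₀ hk₀ hk₀8
      obtain ⟨hH, hzb, hinj, -, -, -⟩ := base k₀ hk₀ hk1 hk2
      set b₀ := k₀ * a * k₀⁻¹ with hb₀
      refine ⟨k₀ ^ 5, pow_mem hk₀ 5, by rw [orderOf_pow' k₀ (by norm_num), hk₀8]; norm_num, ?_⟩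
      have hb5 : k₀ ^ 5 * a * (k₀ ^ 5)⁻¹ = b₀⁻¹ := by
        calc k₀ ^ 5 * a * (k₀ ^ 5)⁻¹ = k₀ * (k₀ ^ 4 * a * (k₀ ^ 4)⁻¹) * k₀⁻¹ := by group
          _ = _ := by rw [hk4, hzi, haz, hb₀]; group
      rw [hb5]
      have hl : k₀ ^ 5 * b₀⁻¹ * (k₀ ^ 5)⁻¹ = word a b₀ 25 := by
        calc k₀ ^ 5 * b₀⁻¹ * (k₀ ^ 5)⁻¹ = k₀ * (k₀ ^ 4 * b₀ * (k₀ ^ 4)⁻¹)⁻¹ * k₀⁻¹ := by group
          _ = _ := by rw [hk4, hzi, hzb, inv_inv, hqe]
      rw [hl]
      have h6 : word a b₀ 6 = b₀⁻¹ := by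
        rw [show (6 : ℕ) = mulN 3 3 by decide +kernel, word_mul hH (by norm_num) (by norm_num), word_three]
        exact (inv_eq_of_mul_eq_one_left (by rw [← pow_two, ← pow_succ, hH.b3])).symm
      have h25 := word_facts.2
      rw [← h25, word_mul hH (mulN_lt (by norm_num) (by norm_num)) (commN_lt (by norm_num) (by norm_num)),
        word_mul hH (by norm_num) (by norm_num), word_commN hH (by norm_num) (by norm_num), word_one, h6]
      simp [word]
    obtain ⟨hk4, hk1, hk2⟩ := facts k hk hk8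
    obtain ⟨hH, hzb, hinj, hmem, hsurj, hzw⟩ := base k hk hk1 hk2
    have hF : ∀ p, k * word a (k * a * k⁻¹) p * k⁻¹ = word a (k * a * k⁻¹) (endo 3 13 p) :=
      word_conj hH (by norm_num) (by norm_num) (by rw [word_three]) hq
    refine build tabZ _ (fun n => k ^ n) hH hinj hmem hsurj (pow_zero k) ?_ ?_ (fun x _ => pow_mem hk x) ?_
    · intro x hx y hy
      show k ^ tabZ.kmul x y = k ^ x * k ^ y
      rw [tabZ_kmul x hx y hy, ← pow_add, ← hk8, pow_mod_orderOf]
    · intro x hx y hy h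
      exact pow_injOn_Iio_orderOf (by simp [hk8, hx]) (by simp [hk8, hy]) h
    · intro x hx p hp
      show k ^ x * _ * (k ^ x)⁻¹ = _
      induction x with
      | zero => rw [pow_zero, one_mul, inv_one, mul_one, (tabZ_act p hp).1]
      | succ x ih =>
        rw [(tabZ_act p hp).2 x (by omega), ← hF, ← ih (by omega), pow_succ']
        group
  · -- the quaternion group
    right
    push Not at hcyc
    have hsq : ∀ k ∈ K, k ≠ 1 → k ≠ zG → k * k = zG ∧ orderOf k = 4 := by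
      intro k hk hk1 hkz
      obtain ⟨j, hj, hj'⟩ := (Nat.dvd_prime_pow Nat.prime_two).1
        (show orderOf k ∣ 2 ^ 3 from orderOf_dvd_of_pow_eq_one (hKord k hk))
      have h4 : orderOf k = 4 := by
        interval_cases j
        · exact absurd (orderOf_eq_one_iff.1 hj') hk1
        · exact absurd (huz k hk hj' zG hzK hz2) hkz
        · exact hj'
        · exact absurd hj' (hcyc k hk)
      refine ⟨?_, h4⟩
      rw [← pow_two]
      exact huz _ (pow_mem hk 2) (by rw [orderOf_pow' k (by norm_num), h4]; norm_num) _ hzK hz2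
    have hz1 : zG ≠ 1 := fun e => by rw [e, orderOf_one] at hz2; norm_num at hz2
    obtain ⟨i, hi, hi1, hiz⟩ : ∃ i ∈ K, i ≠ 1 ∧ i ≠ zG := by
      by_contra h
      push Not at h
      have hle : K ≤ zpowers zG := fun k hk => by
        by_cases hk1 : k = 1
        · rw [hk1]; exact one_mem _
        · rw [h k hk hk1]; exact mem_zpowers _
      have := Subgroup.card_le_of_le hle
      rw [hK8, Nat.card_zpowers, hz2] at this
      omega
    obtain ⟨hii, hi4⟩ := hsq i hi hi1 hiz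
    obtain ⟨hH, hzb, hinj, hmem, hsurj, hzw⟩ := base i hi hi1 (hii ▸ hz1)
    set b := i * a * i⁻¹ with hb
    have hii' : i⁻¹ = zG * i := by
      refine inv_eq_of_mul_eq_one_left ?_
      rw [mul_assoc, hii, hzz]
    have hFi : ∀ p, i * word a b p * i⁻¹ = word a b (endo 3 2 p) := by
      refine word_conj hH (by norm_num) (by norm_num) (by rw [word_three]) ?_
      rw [hb, show i * (i * a * i⁻¹) * i⁻¹ = (i * i) * a * (i * i)⁻¹ by group, hii, hzi, haz,
        show (2 : ℕ) = mulN 1 1 by decide +kernel, word_mul hH (by norm_num) (by norm_num), word_one]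
      exact inv_eq_of_mul_eq_one_left (by rw [← pow_two, ← pow_succ, hH.a3])
    have hFii : ∀ p, i⁻¹ * word a b p * i⁻¹⁻¹ = word a b (endo 6 1 p) := by
      refine word_conj hH (by norm_num) (by norm_num) ?_ ?_
      · rw [inv_inv, show (6 : ℕ) = mulN 3 3 by decide +kernel, word_mul hH (by norm_num) (by norm_num),
          word_three]
        have h6 : b * b = b⁻¹ := (inv_eq_of_mul_eq_one_left (by rw [← pow_two, ← pow_succ, hH.b3])).symm
        rw [h6, ← hzb, hb, hii']
        calc zG * i * a * i = zG * i * a * (i⁻¹ * (i * i)) := by group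
          _ = _ := by rw [hii]; simp only [mul_assoc, hii']
      · rw [inv_inv, word_one, hb]
        group
    have hact4 : ∀ m < 4, ∀ p < 27, i ^ m * word a b p * (i ^ m)⁻¹ = word a b (tabQ.act m p) := by
      intro m hm p hp
      induction m with
      | zero => rw [pow_zero, one_mul, inv_one, mul_one, (tabQ_act p hp).1]
      | succ m ih =>
        rw [(tabQ_act p hp).2.1 m (by omega), ← hFi, ← ih (by omega), pow_succ']
        group
    have hpow : ∀ m : ℕ, i ^ m ∈ K := pow_mem hi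
    obtain ⟨j₀, hj₀, hj₀i⟩ : ∃ j ∈ K, j ∉ zpowers i := by
      by_contra h
      push Not at h
      have := Subgroup.card_le_of_le (show K ≤ zpowers i from h)
      rw [hK8, Nat.card_zpowers, hi4] at this
      omega
    have hzmem : zG ∈ zpowers i := hii ▸ mul_mem (mem_zpowers i) (mem_zpowers i)
    have hout : ∀ j ∈ K, j ∉ zpowers i → j * j = zG ∧ j * i = i⁻¹ * j := by
      intro j hj hji
      obtain ⟨hjj, -⟩ := hsq j hj (fun e => hji (e ▸ one_mem _)) (fun e => hji (e ▸ hzmem))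
      refine ⟨hjj, ?_⟩
      have hij : i * j ∉ zpowers i := fun h => hji ((mul_mem_cancel_left (mem_zpowers i)).1 h)
      obtain ⟨h2, -⟩ := hsq (i * j) (mul_mem hi hj) (fun e => hij (e ▸ one_mem _))
        (fun e => hij (e ▸ hzmem))
      calc j * i = i⁻¹ * ((i * j) * (i * j)) * j⁻¹ := by group
        _ = i⁻¹ * (zG * j⁻¹) := by rw [h2, mul_assoc]
        _ = _ := by rw [← hjj, mul_inv_cancel_right]
    obtain ⟨j, hj, hji, hqj⟩ : ∃ j ∈ K, j ∉ zpowers i ∧ j * a * j⁻¹ = word a b 13 := by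
      obtain ⟨hjj, hcomm'⟩ := hout j₀ hj₀ hj₀i
      obtain ⟨q, hq, hqe⟩ := hsurj _ (hconjP j₀ (hKN hj₀) a haP)
      have hjb : j₀ * b * j₀⁻¹ = word a b (endo 6 1 q) := by
        rw [← hFii, hqe, hb]
        calc j₀ * (i * a * i⁻¹) * j₀⁻¹ = (j₀ * i) * a * (j₀ * i)⁻¹ := by group
          _ = _ := by rw [hcomm']; group
      have e1 : endo 2 6 q = invN q := by
        refine hinj _ (endo_lt (by norm_num) (by norm_num) q) _ (invN_lt hq) ?_
        rw [← hzw, word_invN hH hq, hqe, hzi]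
        calc zG * (j₀ * a * j₀⁻¹) * zG = (zG * j₀) * a * (zG⁻¹ * j₀)⁻¹ := by group
          _ = j₀ * (zG * a * zG) * j₀⁻¹ := by rw [hzi, ← hzk j₀ hj₀, mul_inv_rev, hzi]; group
          _ = _ := by rw [haz]; group
      have he : endo 6 1 q < 27 := endo_lt (by norm_num) (by norm_num) q
      have e2 : endo q (endo 6 1 q) q = 2 := by
        refine hinj _ (endo_lt hq he q) 2 (by norm_num) ?_
        rw [← word_conj hH hq he hqe.symm hjb q, hqe, show (2 : ℕ) = endo 2 6 1 by decide +kernel, ← hzw,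
          word_one, ← hjj]
        group
      obtain ⟨m, hm, hmq⟩ := candQ q hq e1 e2
      refine ⟨i ^ m * j₀, mul_mem (hpow m) hj₀,
        fun h => hj₀i ((mul_mem_cancel_left (pow_mem (mem_zpowers i) m)).1 h), ?_⟩
      rw [← hmq, ← hact4 m hm q hq, hqe]
      group
    obtain ⟨hjj, hji'⟩ := hout j hj hji
    have hFj : ∀ p, j * word a b p * j⁻¹ = word a b (endo 13 25 p) := by
      refine word_conj hH (by norm_num) (by norm_num) hqj ?_
      rw [← word_facts.1, ← hFii, ← hqj, hb]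
      calc j * (i * a * i⁻¹) * j⁻¹ = (j * i) * a * (j * i)⁻¹ := by group
        _ = _ := by rw [hji']; group
    have hsw : ∀ m : ℕ, j * i ^ m = i ^ (3 * m) * j := by
      intro m
      induction m with
      | zero => simp
      | succ m ih =>
        have h3 : i ^ 3 = i⁻¹ := by
          refine eq_inv_of_mul_eq_one_left ?_
          rw [← pow_succ, show (3 : ℕ) + 1 = orderOf i by omega, pow_orderOf_eq_one]
        rw [pow_succ, ← mul_assoc, ih, mul_assoc, hji', ← h3, ← mul_assoc, ← pow_add, Nat.mul_succ]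
    let κ : ℕ → G := fun x => i ^ (x % 4) * if x < 4 then 1 else j
    refine build tabQ b κ hH hinj hmem hsurj (by simp [κ]) ?_ ?_ ?_ ?_
    · intro x hx y hy
      have key : ∀ (n : ℕ) (e : Bool), n < 4 → κ (n + if e then 0 else 4) = i ^ n * if e then 1 else j := by
        intro n e hn
        cases e
        · simp only [Bool.false_eq_true, if_false, κ]
          rw [show (n + 4) % 4 = n by omega, if_neg (by omega)]
        · simp only [if_true, κ, add_zero]
          rw [show n % 4 = n by omega, if_pos hn]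
      have hmod : ∀ m : ℕ, i ^ (m % 4) = i ^ m := fun m => by rw [← hi4, pow_mod_orderOf]
      rw [tabQ_kmul x hx y hy]
      by_cases hx4 : x < 4 <;> by_cases hy4 : y < 4
      · have := key ((x % 4 + y % 4) % 4) true (Nat.mod_lt _ (by norm_num))
        simp only [hx4, hy4, iff_self, if_true, true_or, add_zero] at this ⊢
        rw [this, hmod]
        simp [κ, hx4, hy4, pow_add]
      · have := key ((x % 4 + y % 4) % 4) false (Nat.mod_lt _ (by norm_num))
        simp only [hx4, hy4, iff_false, not_true, if_false, if_true, true_or, add_zero,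
          Bool.false_eq_true] at this ⊢
        rw [this, hmod]
        simp [κ, hx4, hy4, pow_add, mul_assoc]
      · have := key ((x % 4 + 3 * (y % 4)) % 4) false (Nat.mod_lt _ (by norm_num))
        simp only [hx4, hy4, iff_true, if_false, if_true, or_true, add_zero, Bool.false_eq_true] at this ⊢
        rw [this, hmod]
        simp [κ, hx4, hy4, pow_add, mul_assoc, hsw]
      · have := key ((x % 4 + 3 * (y % 4) + 2) % 4) true (Nat.mod_lt _ (by norm_num))
        simp only [hx4, hy4, iff_self, if_false, if_true, or_self, add_zero] at this ⊢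
        rw [this, hmod]
        have : i ^ 2 = j * j := by rw [pow_two, hii, hjj]
        simp only [κ, hx4, hy4, if_false, pow_add, this, mul_one]
        rw [show i ^ (x % 4) * j * (i ^ (y % 4) * j) = i ^ (x % 4) * (j * i ^ (y % 4)) * j by group, hsw]
        group
    · intro x hx y hy h
      have hpi : ∀ n m, n < 4 → m < 4 → i ^ n = i ^ m → n = m := fun n m hn hm h =>
        pow_injOn_Iio_orderOf (by simp [hi4, hn]) (by simp [hi4, hm]) h
      simp only [κ] at h
      by_cases hx4 : x < 4 <;> by_cases hy4 : y < 4 <;> simp only [hx4, hy4, if_true, if_false, mul_one] at h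
      · have := hpi _ _ (Nat.mod_lt _ (by norm_num)) (Nat.mod_lt _ (by norm_num)) h; omega
      · exact absurd ((mul_mem_cancel_left (pow_mem (mem_zpowers i) _)).1
          (h ▸ pow_mem (mem_zpowers i) _)) hji
      · exact absurd ((mul_mem_cancel_left (pow_mem (mem_zpowers i) _)).1
          (h.symm ▸ pow_mem (mem_zpowers i) _)) hji
      · have := hpi _ _ (Nat.mod_lt _ (by norm_num)) (Nat.mod_lt _ (by norm_num)) (mul_right_cancel h)
        omega
    · intro x _
      show i ^ (x % 4) * (if x < 4 then (1 : G) else j) ∈ K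
      split_ifs
      · simpa using hpow _
      · exact mul_mem (hpow _) hj
    · intro x hx p hp
      show i ^ (x % 4) * (if x < 4 then (1 : G) else j) * _ * (i ^ (x % 4) * (if x < 4 then (1 : G) else j))⁻¹ = _
      by_cases hx4 : x < 4
      · rw [if_pos hx4, mul_one, Nat.mod_eq_of_lt hx4]
        exact hact4 x hx4 p hp
      · rw [if_neg hx4, show i ^ (x % 4) * j * word a b p * (i ^ (x % 4) * j)⁻¹ =
            i ^ (x % 4) * (j * word a b p * j⁻¹) * (i ^ (x % 4))⁻¹ by group, hFj,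
          hact4 _ (Nat.mod_lt _ (by norm_num)) _ (endo_lt (by norm_num) (by norm_num) p)]
        have h := (tabQ_act p hp).2.2 (x % 4) (Nat.mod_lt _ (by norm_num))
        rw [show x % 4 + 4 = x by omega] at h
        rw [h]

end Cfsg.Agent.G2Two
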