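import Cfsg.Agent.G2Two.Series
import Cfsg.Agent.OWagner.Count

/-!
# The Sylow 3-subgroups of a simple group of order 6048 without elements of order 9
-/

set_option autoImplicit false
set_option linter.style.haveILetI false
set_option linter.unusedSectionVars false

noncomputable section

open scoped ComplexConjugate
open Finset Subgroup Cfsg.Agent.SmallGroups

namespace Cfsg.Agent.G2Two

universe u

/-- Sylow numbers are `1` modulo 9 when no two Sylow subgroups of order 27 meet in order 9. -/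
theorem card_sylow_three_mod_nine {H : Type u} [Group H] [Finite H] (P : Sylow 3 H)
    (hP : ∀ Q : Sylow 3 H, Nat.card ↥(Q : Subgroup H) = 27)
    (h9 : ∀ Q : Sylow 3 H, Q ≠ P → Nat.card ↥((P : Subgroup H) ⊓ (Q : Subgroup H)) ≠ 9) :
    Nat.card (Sylow 3 H) % 9 = 1 := by
  classical
  haveI := Fact.mk Nat.prime_three
  letI : Fintype (Sylow 3 H) := Fintype.ofFinite _
  letI : Fintype (MulAction.orbitRel.Quotient (P : Subgroup H) (Sylow 3 H)) := Fintype.ofFinite _
  let ω₀ : MulAction.orbitRel.Quotient (P : Subgroup H) (Sylow 3 H) := Quotient.mk'' P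
  have horb : ∀ Q : Sylow 3 H, Nat.card (MulAction.orbit (P : Subgroup H) Q) *
      Nat.card ↥((P : Subgroup H) ⊓ (Q : Subgroup H)) = 27 := by
    intro Q
    have e : MulAction.stabilizer (P : Subgroup H) Q =
        ((P : Subgroup H) ⊓ (Q : Subgroup H)).subgroupOf (P : Subgroup H) := by
      rw [Subgroup.inf_subgroupOf_left]
      ext x
      rw [MulAction.mem_stabilizer_iff, Subgroup.mem_subgroupOf]
      refine Sylow.smul_eq_iff_mem_normalizer.trans ⟨fun hx => ?_, fun hx => le_normalizer hx⟩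
      exact (le_of_eq (IsPGroup.inf_normalizer_sylow P.2 Q) ⟨x.2, hx⟩).2
    rw [← hP P, ← Subgroup.card_mul_index (MulAction.stabilizer (P : Subgroup H) Q), mul_comm,
      MulAction.index_stabilizer, Nat.card_coe_set_eq, e,
      Nat.card_congr (Subgroup.subgroupOfEquivOfLe inf_le_left).toEquiv]
  rw [← Nat.card_congr (MulAction.selfEquivSigmaOrbits (P : Subgroup H) (Sylow 3 H)).symm,
    Nat.card_sigma, ← Finset.add_sum_erase _ _ (Finset.mem_univ ω₀)]
  have h0 : Nat.card (MulAction.orbit (P : Subgroup H) (Quotient.out ω₀)) = 1 := by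
    have e : MulAction.orbit (P : Subgroup H) (Quotient.out ω₀) =
        MulAction.orbit (P : Subgroup H) P :=
      MulAction.orbit_eq_iff.2 (MulAction.orbitRel_apply.1 (Quotient.exact' (Quotient.out_eq' ω₀)))
    rw [e]
    have := horb P
    rw [inf_idem, hP P] at this
    omega
  have h' : ∀ ω ∈ Finset.univ.erase ω₀,
      9 ∣ Nat.card (MulAction.orbit (P : Subgroup H) (Quotient.out ω)) := by
    intro ω hω
    have hQP : Quotient.out ω ≠ P := fun h => (Finset.mem_erase.1 hω).1 (by
      rw [← Quotient.out_eq' ω, h])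
    obtain ⟨i, hi, hi'⟩ := (Nat.dvd_prime_pow Nat.prime_three).1 (show _ ∣ 3 ^ 3 from hP P ▸
      Subgroup.card_dvd_of_le (inf_le_left :
        (P : Subgroup H) ⊓ (Quotient.out ω : Sylow 3 H) ≤ P))
    have h := horb (Quotient.out ω)
    rw [hi'] at h
    interval_cases i
    · exact ⟨3, Nat.eq_of_mul_eq_mul_right (by norm_num : 0 < 3 ^ 0) (h.trans (by norm_num))⟩
    · exact ⟨1, Nat.eq_of_mul_eq_mul_right (by norm_num : 0 < 3 ^ 1) (h.trans (by norm_num))⟩
    · exact absurd (hi'.trans (by norm_num)) (h9 _ hQP)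
    · exfalso
      refine hQP (Sylow.ext (Subgroup.eq_of_le_of_card_ge (fun x hx => ?_) (by rw [hP, hP])).symm)
      have h'' := Subgroup.eq_of_le_of_card_ge (inf_le_left :
        (P : Subgroup H) ⊓ (Quotient.out ω : Sylow 3 H) ≤ P) (by rw [hP, hi']; norm_num)
      exact (h''.ge hx).2
  obtain ⟨t, ht⟩ := Finset.dvd_sum h'
  rw [h0, ht, Nat.add_mul_mod_self_left]

/-- The standing hypothesis. -/
structure Hyp (G : Type u) [Group G] where
  card : Nat.card G = 6048
  nine : ∀ g : G, orderOf g ≠ 9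

variable {G : Type u} [Group G] [Fintype G] [IsSimpleGroup G] (hG : Hyp G)
include hG

theorem dvd_twentySeven {H : Subgroup G} (h2 : ∀ t ∈ H, orderOf t ≠ 2) (h7 : ∀ t ∈ H, orderOf t ≠ 7) :
    Nat.card H ∣ 27 := by
  have hd : Nat.card H ∣ 224 * 27 := by
    have := Subgroup.card_subgroup_dvd_card H
    rwa [hG.card] at this
  refine Nat.Coprime.dvd_of_dvd_mul_left (Nat.coprime_of_dvd fun q hq hqH hq224 => ?_) hd
  haveI := Fact.mk hq
  obtain ⟨x, hx⟩ := exists_prime_orderOf_dvd_card' (G := H) q hqH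
  have hmem : q ∈ Nat.primeFactors 224 := Nat.mem_primeFactors.2 ⟨hq, hq224, by norm_num⟩
  have e : Nat.primeFactors 224 = {2, 7} := by decide +kernel
  rw [e] at hmem
  rcases Finset.mem_insert.1 hmem with rfl | h
  · exact h2 x x.2 (by rw [Subgroup.orderOf_coe, hx])
  · obtain rfl := Finset.mem_singleton.1 h
    exact h7 x x.2 (by rw [Subgroup.orderOf_coe, hx])

theorem no_seven {g x : G} (hg : orderOf g = 3) (hx : orderOf x = 7) : ¬ Commute g x := by
  intro hc
  haveI := Fact.mk (by norm_num : Nat.Prime 7)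
  obtain ⟨n, k, -, -, -, -, -, -, hP, hC, -⟩ := exists_threePrime_data (not_comm hG.card)
    Nat.prime_two Nat.prime_three (r := 7) (a := 5) (b := 3)
    (by norm_num) (by norm_num) (by norm_num) (by rw [hG.card]; norm_num)
  have hpg : IsPGroup 7 (Subgroup.zpowers x) :=
    IsPGroup.of_card (n := 1) (by rw [Nat.card_zpowers, hx, pow_one])
  obtain ⟨R, hR⟩ := hpg.exists_le_sylow
  have hRx : Subgroup.zpowers x = (R : Subgroup G) :=
    Subgroup.eq_of_le_of_card_ge hR (by rw [hP, Nat.card_zpowers, hx])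
  have hmem : g ∈ Subgroup.centralizer ((R : Subgroup G) : Set G) := by
    rw [← hRx]
    rintro _ ⟨i, rfl⟩
    exact ((hc.zpow_right i).symm).eq
  have := Subgroup.orderOf_dvd_natCard _ hmem
  rw [hC R, hg] at this
  norm_num at this

theorem orderOf_eq_three {P : Subgroup G} (hP : Nat.card P ∣ 27) {g : G} (hg : g ∈ P) (hg1 : g ≠ 1) :
    orderOf g = 3 := by
  have h : orderOf g ∣ 3 ^ 3 := (Subgroup.orderOf_dvd_natCard P hg).trans hP
  obtain ⟨k, hk, hk'⟩ := (Nat.dvd_prime_pow Nat.prime_three).1 h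
  interval_cases k
  · exact absurd (orderOf_eq_one_iff.1 (by simpa using hk')) hg1
  · simpa using hk'
  · exact absurd (by simpa using hk') (hG.nine g)
  · exfalso
    refine hG.nine (g ^ 3) ?_
    rw [orderOf_pow g, hk']
    norm_num

theorem card_sylow_three (P : Sylow 3 G) : Nat.card ↥(P : Subgroup G) = 27 := by
  haveI := Fact.mk Nat.prime_three
  have := card_sylow_subgroup (p := 3) (a := 3) (m := 224) (by rw [hG.card]; norm_num) (by norm_num) P
  simpa using this

/-- A character of degree six with the properties of the series. -/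
structure Six (χ : G → ℂ) : Prop where
  irr : Cfsg.IsIrrCharacter G χ
  one : χ 1 = 6
  real : ∀ g, conj (χ g) = χ g
  nine : ∀ (E : Subgroup G) (t : G), Nat.card E = 9 → orderOf t = 2 → ¬ ∀ e ∈ E, Commute t e
  zero : ∀ g t : G, orderOf g = 3 → χ g = 0 → orderOf t = 2 → ¬ Commute t g

theorem exists_six : ∃ χ : G → ℂ, Six χ := by
  obtain ⟨χ, h1, h2, h3, h4, h5⟩ := exists_chars hG.card hG.nine
  exact ⟨χ, h1, h2, h3, h4, h5⟩

section six

variable {χ : G → ℂ} (hχ : Six χ)
include hχ

theorem values {g : G} (hg : orderOf g = 3) :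
    χ g = -3 ∧ (∀ h, χ h + χ (h * g) + χ (h * (g * g)) = 0) ∨ χ g = 0 ∨ χ g = 3 :=
  degree_six_value (not_comm hG.card) hχ.irr hχ.one hg (hχ.real g)

theorem value_inv (g : G) : χ g⁻¹ = χ g := by
  rw [Char.irr_inv hχ.irr, hχ.real]

theorem sum_nat (H : Subgroup G) [Fintype H] : ∃ m : ℕ, ∑ x : H, χ x = (Nat.card H : ℂ) * m := by
  classical
  obtain ⟨m, hm⟩ := Char.isCharacter_classInner_nat
    (Char.isCharacter_restrict (Char.isCharacter_of_irr hχ.irr) H) (Char.trivialIrr H)
  refine ⟨m, ?_⟩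
  rw [Cfsg.classInner, inv_mul_eq_iff_eq_mul₀ Char.card_ne_zero_complex] at hm
  rw [← hm]
  exact Finset.sum_congr rfl fun x _ => by simp [Char.trivialIrr]

theorem sum_sq_nat (H : Subgroup G) [Fintype H] :
    ∃ m : ℤ, ∑ x : H, χ x * χ x = (Nat.card H : ℂ) * m := by
  classical
  obtain ⟨m, hm⟩ := Char.classInner_generalized_int
    (Char.isGeneralizedCharacter_of_isCharacter (Char.isCharacter_restrict (Char.isCharacter_of_irr hχ.irr) H))
    (Char.isGeneralizedCharacter_of_isCharacter (Char.isCharacter_restrict (Char.isCharacter_of_irr hχ.irr) H))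
  refine ⟨m, ?_⟩
  rw [Cfsg.classInner, inv_mul_eq_iff_eq_mul₀ Char.card_ne_zero_complex] at hm
  rw [← hm]
  exact Finset.sum_congr rfl fun x _ => by rw [hχ.real]

theorem sum_eq_zero_of_minus (H : Subgroup G) [Fintype H] {g : G} (hgH : g ∈ H) (hg : orderOf g = 3)
    (hv : χ g = -3) : ∑ x : H, χ x = 0 := by
  have hrel : ∀ h, χ h + χ (h * g) + χ (h * (g * g)) = 0 := by
    rcases values hG hχ hg with h | h | h
    · exact h.2
    all_goals (rw [hv] at h; norm_num at h)
  have hs : ∀ y : H, ∑ x : H, χ ((x : G) * y) = ∑ x : H, χ x := fun y =>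
    Fintype.sum_equiv (Equiv.mulRight y) _ _ fun x => rfl
  have h3 : ∑ x : H, (χ x + χ ((x : G) * g) + χ ((x : G) * (g * g))) = 3 * ∑ x : H, χ x := by
    rw [Finset.sum_add_distrib, Finset.sum_add_distrib, hs ⟨g, hgH⟩,
      hs ⟨g * g, H.mul_mem hgH hgH⟩]
    ring
  simp only [hrel, Finset.sum_const_zero] at h3
  exact (mul_eq_zero.1 h3.symm).resolve_left (by norm_num)

/-- No two Sylow 3-subgroups meet in a subgroup of order 9. -/
theorem inter_ne_nine (P Q : Sylow 3 G) (hPQ : Q ≠ P) :
    Nat.card ↥((P : Subgroup G) ⊓ (Q : Subgroup G)) ≠ 9 := by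
  classical
  intro hD
  haveI := Fact.mk Nat.prime_three
  set D := (P : Subgroup G) ⊓ (Q : Subgroup G) with hDdef
  haveI hcomm : IsMulCommutative ↥D :=
    IsPGroup.isMulCommutative_of_card_eq_prime_sq (p := 3) (by rw [hD]; norm_num)
  have hle : ∀ R : Sylow 3 G, D ≤ R → (R : Subgroup G) ≤ normalizer (D : Set G) := by
    intro R hR
    have hidx : (D.subgroupOf (R : Subgroup G)).index = 3 := by
      have := (D.subgroupOf (R : Subgroup G)).card_mul_index
      rw [Nat.card_congr (Subgroup.subgroupOfEquivOfLe hR).toEquiv, hD, card_sylow_three hG R] at this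
      omega
    haveI : (D.subgroupOf (R : Subgroup G)).Normal := by
      refine Subgroup.normal_of_index_eq_minFac_card ?_
      rw [hidx, card_sylow_three hG R, show (27 : ℕ) = 3 ^ 3 by norm_num, Nat.pow_minFac (by norm_num),
        Nat.prime_three.minFac_eq]
    exact le_normalizer_of_normal_subgroupOf hR
  -- the centralizer of `D` is `D`
  set C := centralizer (D : Set G) with hCdef
  have hC27 : Nat.card C ∣ 27 := by
    refine dvd_twentySeven hG (fun t htC ht => hχ.nine D t hD ht fun e he => (htC e he).symm)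
      (fun t htC ht => ?_)
    obtain ⟨e, he⟩ := exists_prime_orderOf_dvd_card' (G := ↥D) 3 (by rw [hD]; norm_num)
    exact no_seven hG (by rw [Subgroup.orderOf_coe, he] : orderOf (e : G) = 3) ht (htC e e.2)
  have hDC : D ≤ C := Subgroup.le_centralizer D
  have hCD : C = D := by
    by_contra hne
    have h27 : Nat.card C = 27 := by
      obtain ⟨k, hk, hk'⟩ := (Nat.dvd_prime_pow Nat.prime_three).1 (show Nat.card C ∣ 3 ^ 3 from hC27)
      have h9 : Nat.card C ≠ 9 := fun h => hne (Subgroup.eq_of_le_of_card_ge hDC (by rw [h, hD])).symm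
      have := Subgroup.card_le_of_le hDC
      interval_cases k <;> simp_all
    obtain ⟨R, hR⟩ := (IsPGroup.of_card (n := 3) (h27.trans (by norm_num)) : IsPGroup 3 C).exists_le_sylow
    have hRC : C = (R : Subgroup G) :=
      Subgroup.eq_of_le_of_card_ge hR (by rw [card_sylow_three hG, h27])
    have hall : ∀ R' : Sylow 3 G, D ≤ R' → R' = R := fun R' hR' => by
      refine Sylow.ext (Subgroup.eq_of_le_of_card_ge (fun x hx => ?_)
        (by rw [card_sylow_three hG, card_sylow_three hG]))
      have hN : x ∈ normalizer (D : Set G) := hle R' hR' hx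
      have hxR : x ∈ normalizer ((R : Subgroup G) : Set G) := by
        rw [← hRC, hCdef]
        have key : ∀ r ∈ normalizer (D : Set G), ∀ c ∈ centralizer (D : Set G),
            r * c * r⁻¹ ∈ centralizer (D : Set G) := fun r hr c hc e he => by
          have he' : r⁻¹ * e * r ∈ D := (Subgroup.mem_normalizer_iff''.1 hr e).1 he
          have h1 := hc _ he'
          calc e * (r * c * r⁻¹) = r * ((r⁻¹ * e * r) * c) * r⁻¹ := by group
            _ = r * c * r⁻¹ * e := by rw [h1]; group
        refine Subgroup.mem_normalizer_iff.2 fun c => ⟨key x hN c, fun h => ?_⟩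
        have := key x⁻¹ (inv_mem hN) _ h
        simpa [mul_assoc] using this
      exact (le_of_eq (IsPGroup.inf_normalizer_sylow R'.2 R) ⟨hx, hxR⟩).2
    exact hPQ ((hall Q inf_le_right).trans (hall P inf_le_left).symm)
  -- elements moving `D`
  have hout : ∀ R : Sylow 3 G, D ≤ R → ∃ x ∈ (R : Subgroup G), x ∉ D := by
    intro R hR
    by_contra hno
    push Not at hno
    have := Subgroup.card_le_of_le hno
    rw [card_sylow_three hG, hD] at this
    omega
  obtain ⟨x, hxP, hxD⟩ := hout P inf_le_left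
  obtain ⟨y, hyQ, hyD⟩ := hout Q inf_le_right
  letI : Fintype ↥D := Fintype.ofFinite _
  have ord3 : ∀ g ∈ D, g ≠ 1 → orderOf g = 3 := fun g hg =>
    orderOf_eq_three hG (by rw [hD]; norm_num) hg
  have conjmem : ∀ (R : Sylow 3 G), D ≤ R → ∀ r ∈ (R : Subgroup G), ∀ g ∈ D, r * g * r⁻¹ ∈ D :=
    fun R hR r hr g hg => (Subgroup.mem_normalizer_iff.1 (hle R hR hr) g).1 hg
  -- a fixed point of a moving element
  have hfix : ∀ r : G, r ∈ normalizer (D : Set G) → (∃ R : Sylow 3 G, r ∈ (R : Subgroup G)) →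
      ∃ z ∈ D, z ≠ 1 ∧ Commute r z := by
    rintro r hr ⟨R, hrR⟩
    by_contra hno
    push Not at hno
    rcases eq_or_ne r 1 with rfl | hr1
    · obtain ⟨e, he⟩ := exists_prime_orderOf_dvd_card' (G := ↥D) 3 (by rw [hD]; norm_num)
      refine hno e e.2 (fun h => ?_) (Commute.one_left _)
      rw [Subtype.ext (show (e : G) = ((1 : ↥D) : G) from h), orderOf_one] at he
      omega
    have hr3 : r ^ 3 = 1 := by
      rw [← orderOf_eq_three hG (dvd_of_eq (card_sylow_three hG R)) hrR hr1]; exact pow_orderOf_eq_one r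
    let σ : Equiv.Perm ↥D :=
      { toFun := fun e => ⟨r * e * r⁻¹, (Subgroup.mem_normalizer_iff.1 hr e).1 e.2⟩
        invFun := fun e => ⟨r⁻¹ * e * r, (Subgroup.mem_normalizer_iff''.1 hr e).1 e.2⟩
        left_inv := fun e => Subtype.ext (by simp [mul_assoc])
        right_inv := fun e => Subtype.ext (by simp [mul_assoc]) }
    have hσ : σ ^ 3 ^ 1 = 1 := Equiv.ext fun e => Subtype.ext (by
      show r * (r * (r * (e : G) * r⁻¹) * r⁻¹) * r⁻¹ = (e : G)
      calc r * (r * (r * (e : G) * r⁻¹) * r⁻¹) * r⁻¹ = r ^ 3 * e * (r ^ 3)⁻¹ := by simp [pow_succ, mul_assoc]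
        _ = e := by rw [hr3]; group)
    have hmod := Equiv.Perm.card_compl_support_modEq (p := 3) hσ
    have hsingle : σ.supportᶜ = {1} := by
      ext e
      simp only [Finset.mem_compl, Equiv.Perm.mem_support, not_not, Finset.mem_singleton]
      refine ⟨fun he => ?_, fun he => ?_⟩
      · by_contra he1
        refine hno e e.2 (fun h => he1 (Subtype.ext h)) ?_
        have h' : r * (e : G) * r⁻¹ = e := congrArg Subtype.val he
        show r * (e : G) = e * r
        calc r * (e : G) = r * e * r⁻¹ * r := by group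
          _ = e * r := by rw [h']
      · subst he; exact Subtype.ext (by simp [σ])
    rw [hsingle, Finset.card_singleton, ← Nat.card_eq_fintype_card, hD] at hmod
    norm_num [Nat.ModEq] at hmod
  -- the elements `z ^ i g ^ j`
  have hgen : ∀ z g : G, z ∈ D → z ≠ 1 → g ∈ D → g ∉ zpowers z →
      ∀ e ∈ D, ∃ i j : Fin 3, e = z ^ (i : ℕ) * g ^ (j : ℕ) := by
    intro z g hz hz1 hg hgz
    have hg1 : g ≠ 1 := fun e => hgz (e ▸ one_mem _)
    have hzo := ord3 z hz hz1
    have hgo := ord3 g hg hg1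
    let f : Fin 3 × Fin 3 → ↥D :=
      fun p => ⟨z ^ (p.1 : ℕ) * g ^ (p.2 : ℕ), D.mul_mem (D.pow_mem hz _) (D.pow_mem hg _)⟩
    have hinj : Function.Injective f := by
      rintro ⟨i, j⟩ ⟨i', j'⟩ h
      have h' : z ^ (i : ℕ) * g ^ (j : ℕ) = z ^ (i' : ℕ) * g ^ (j' : ℕ) := congrArg Subtype.val h
      have hk : g ^ ((j : ℕ) + 2 * (j' : ℕ)) ∈ zpowers z := by
        have : g ^ ((j : ℕ) + 2 * (j' : ℕ)) = (z ^ (i : ℕ))⁻¹ * z ^ (i' : ℕ) * g ^ (3 * (j' : ℕ)) := by
          calc g ^ ((j : ℕ) + 2 * (j' : ℕ)) = (z ^ (i : ℕ))⁻¹ * (z ^ (i : ℕ) * g ^ (j : ℕ)) * g ^ (2 * (j' : ℕ)) := by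
                rw [pow_add]; group
            _ = _ := by
                rw [h', show 3 * (j' : ℕ) = (j' : ℕ) + 2 * (j' : ℕ) by ring, pow_add]; group
        have hg3' : g ^ 3 = 1 := orderOf_dvd_iff_pow_eq_one.1 (by rw [hgo])
        rw [this, pow_mul g 3, hg3', one_pow, mul_one]
        exact mul_mem (inv_mem (pow_mem (mem_zpowers z) _)) (pow_mem (mem_zpowers z) _)
      have hjj : j = j' := by
        by_contra hne
        have hm : ((j : ℕ) + 2 * (j' : ℕ)) % 3 = 1 ∨ ((j : ℕ) + 2 * (j' : ℕ)) % 3 = 2 := by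
          have := Fin.val_ne_of_ne hne; omega
        rw [← pow_mod_orderOf, hgo] at hk
        rcases hm with e | e <;> rw [e] at hk
        · exact hgz (by simpa using hk)
        · refine hgz ?_
          have h3 : g = (g ^ 2) ^ 2 := by
            rw [← pow_mul, ← pow_mod_orderOf, hgo]; simp
          rw [h3]
          exact pow_mem hk 2
      subst hjj
      have h2 := mul_right_cancel h'
      have := (pow_inj_mod).1 h2
      rw [hzo] at this
      exact Prod.ext (Fin.ext (by
        show (i : ℕ) = (i' : ℕ)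
        have a1 := i.isLt; have a2 := i'.isLt; omega)) rfl
    have hbij := (Fintype.bijective_iff_injective_and_card f).2 ⟨hinj, by
      rw [← Nat.card_eq_fintype_card (α := ↥D), hD]; rfl⟩
    intro e he
    obtain ⟨⟨i, j⟩, hij⟩ := hbij.2 ⟨e, he⟩
    exact ⟨i, j, (congrArg Subtype.val hij).symm⟩
  -- a moving element translates every coset of its fixed points
  have htrans : ∀ (R : Sylow 3 G), D ≤ R → ∀ r ∈ (R : Subgroup G), r ∉ D → ∀ z ∈ D, z ≠ 1 →
      Commute r z → ∀ g ∈ D, g ∉ zpowers z → ∃ i : Fin 3, i ≠ 0 ∧ r * g * r⁻¹ = z ^ (i : ℕ) * g := by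
    intro R hR r hr hrD z hz hz1 hrz g hg hgz
    obtain ⟨i, j, hij⟩ := hgen z g hz hz1 hg hgz _ (conjmem R hR r hr g hg)
    have hr1 : r ≠ 1 := fun e => hrD (e ▸ D.one_mem)
    have hr3 : r ^ 3 = 1 := by
      rw [← orderOf_eq_three hG (dvd_of_eq (card_sylow_three hG R)) hr hr1]; exact pow_orderOf_eq_one r
    have hncomm : ¬ Commute r g := fun hc => hrD (hCD ▸ (fun e he => by
      obtain ⟨i, j, rfl⟩ := hgen z g hz hz1 hg hgz e he
      exact ((hrz.pow_right _).mul_right (hc.pow_right _)).eq.symm))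
    have hzg : Commute z g := congrArg Subtype.val (hcomm.is_comm.comm ⟨z, hz⟩ ⟨g, hg⟩)
    have hz3 : z ^ 3 = 1 := by rw [← ord3 z hz hz1]; exact pow_orderOf_eq_one z
    have hg1 : g ≠ 1 := fun e => hgz (e ▸ one_mem _)
    have hg3 : g ^ 3 = 1 := by rw [← ord3 g hg hg1]; exact pow_orderOf_eq_one g
    have hj : j = 1 := by
      fin_cases j
      · exfalso
        simp at hij
        apply hgz
        have : g = r⁻¹ * z ^ (i : ℕ) * r := by rw [← hij]; group
        rw [this, mul_assoc, ← (hrz.pow_right _).eq, ← mul_assoc, inv_mul_cancel, one_mul]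
        exact pow_mem (mem_zpowers z) _
      · rfl
      · exfalso
        simp at hij
        have h2 : r * (r * g * r⁻¹) * r⁻¹ = g := by
          rw [hij]
          calc r * (z ^ (i : ℕ) * g ^ 2) * r⁻¹ = (r * z ^ (i : ℕ) * r⁻¹) * ((r * g * r⁻¹) ^ 2) := by
                rw [conj_pow]; group
            _ = z ^ (i : ℕ) * (z ^ (i : ℕ) * g ^ 2) ^ 2 := by
                rw [hij, (hrz.pow_right _).eq]; group
            _ = (z ^ 3) ^ (i : ℕ) * (g ^ 3 * g) := by
                rw [((hzg.pow_pow _ _)).mul_pow, ← pow_mul, ← pow_mul, ← mul_assoc, ← pow_add, ← pow_mul, ← pow_succ,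
                  show (i : ℕ) + i * 2 = 3 * i by ring]
            _ = g := by rw [hz3, hg3, one_pow, one_mul, one_mul]
        apply hncomm
        show r * g = g * r
        calc r * g = r * (r * (r * g * r⁻¹) * r⁻¹) := by rw [h2]
          _ = r ^ 3 * g * (r ^ 3)⁻¹ * r := by simp [pow_succ, mul_assoc]
          _ = g * r := by rw [hr3]; group
    subst hj
    refine ⟨i, fun e => hncomm ?_, by simpa using hij⟩
    subst e
    simp at hij
    show r * g = g * r
    calc r * g = r * g * r⁻¹ * r := by group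
      _ = g * r := by rw [hij]
  have hnPQ : ∀ r, r ∈ (P : Subgroup G) ∨ r ∈ (Q : Subgroup G) → r ∈ normalizer (D : Set G) :=
    fun r hr => hr.elim (fun h => hle P inf_le_left h) (fun h => hle Q inf_le_right h)
  obtain ⟨zx, hzx, hzx1, hxz⟩ := hfix x (hnPQ x (Or.inl hxP)) ⟨P, hxP⟩
  obtain ⟨zy, hzy, hzy1, hyz⟩ := hfix y (hnPQ y (Or.inr hyQ)) ⟨Q, hyQ⟩
  by_cases hz : zy ∈ zpowers zx
  · -- the same fixed line: a product centralizes `D`
    have hyzx : Commute y zx := by
      have hmem : zx ∈ zpowers zy := by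
        have he : zpowers zy = zpowers zx := Subgroup.eq_of_le_of_card_ge (zpowers_le.2 hz)
          (by rw [Nat.card_zpowers, Nat.card_zpowers, ord3 _ hzx hzx1, ord3 _ hzy hzy1])
        rw [he]; exact mem_zpowers zx
      obtain ⟨k, rfl⟩ := mem_zpowers_iff.1 hmem
      exact hyz.zpow_right k
    obtain ⟨g, hg, hgz⟩ : ∃ g ∈ D, g ∉ zpowers zx := by
      by_contra hno
      push Not at hno
      have := Subgroup.card_le_of_le hno
      rw [hD, Nat.card_zpowers, ord3 _ hzx hzx1] at this
      omega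
    obtain ⟨i, hi, hxg⟩ := htrans P inf_le_left x hxP hxD zx hzx hzx1 hxz g hg hgz
    obtain ⟨k, hk, hyg⟩ := htrans Q inf_le_right y hyQ hyD zx hzx hzx1 hyzx g hg hgz
    have hz3 : zx ^ 3 = 1 := by rw [← ord3 _ hzx hzx1]; exact pow_orderOf_eq_one zx
    have key : ∀ r : G, Commute r zx → Commute r g → r ∈ D := fun r h1 h2 => hCD ▸ (fun e he => by
      obtain ⟨i, j, rfl⟩ := hgen zx g hzx hzx1 hg hgz e he
      exact ((h1.pow_right _).mul_right (h2.pow_right _)).eq.symm)
    have hyP : y ∈ (P : Subgroup G) := by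
      by_cases hik : i = k
      · subst hik
        have hd := key (x⁻¹ * y) (hxz.inv_left.mul_left hyzx) (by
          show x⁻¹ * y * g = g * (x⁻¹ * y)
          calc x⁻¹ * y * g = x⁻¹ * (y * g * y⁻¹) * x * (x⁻¹ * y) := by group
            _ = x⁻¹ * (x * g * x⁻¹) * x * (x⁻¹ * y) := by rw [hyg, hxg]
            _ = g * (x⁻¹ * y) := by group)
        have := mul_mem hxP (inf_le_left (a := (P : Subgroup G)) (b := (Q : Subgroup G)) hd)
        simpa using this
      · have hd := key (x * y) (hxz.mul_left hyzx) (by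
          show x * y * g = g * (x * y)
          have hik' : (k : ℕ) + i = 3 := by
            have := Fin.val_ne_of_ne hik; have := Fin.val_ne_of_ne hi; have := Fin.val_ne_of_ne hk
            simp at *
            omega
          calc x * y * g = x * (y * g * y⁻¹) * x⁻¹ * (x * y) := by group
            _ = x * (zx ^ (k : ℕ) * g) * x⁻¹ * (x * y) := by rw [hyg]
            _ = (x * zx ^ (k : ℕ) * x⁻¹) * (x * g * x⁻¹) * (x * y) := by group
            _ = zx ^ (k : ℕ) * (zx ^ (i : ℕ) * g) * (x * y) := by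
                rw [hxg, (hxz.pow_right _).eq]; group
            _ = g * (x * y) := by rw [← mul_assoc (zx ^ (k : ℕ)), ← pow_add, hik', hz3, one_mul])
        have := mul_mem (inv_mem hxP) (inf_le_left (a := (P : Subgroup G)) (b := (Q : Subgroup G)) hd)
        simpa using this
    exact hyD ⟨hyP, hyQ⟩
  · -- two lines: all nontrivial values agree
    have hzyx : zx ∉ zpowers zy := fun h => hz (by
      have he : zpowers zx = zpowers zy := Subgroup.eq_of_le_of_card_ge (zpowers_le.2 h)
        (by rw [Nat.card_zpowers, Nat.card_zpowers, ord3 _ hzx hzx1, ord3 _ hzy hzy1])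
      rw [he]; exact mem_zpowers zy)
    have hconst : ∀ (R : Sylow 3 G), D ≤ R → ∀ r ∈ (R : Subgroup G), r ∉ D → ∀ z ∈ D, z ≠ 1 → Commute r z →
        ∀ g ∈ D, g ∉ zpowers z → ∀ k : ℕ, χ (z ^ k * g) = χ g := by
      intro R hR r hr hrD z hz hz1 hrz g hg hgz
      obtain ⟨i, hi, hig⟩ := htrans R hR r hr hrD z hz hz1 hrz g hg hgz
      have hn : ∀ n : ℕ, r ^ n * g * (r ^ n)⁻¹ = z ^ (n * (i : ℕ)) * g := by
        intro n
        induction n with
        | zero => simp
        | succ n ih =>
          calc r ^ (n + 1) * g * (r ^ (n + 1))⁻¹ = r * (r ^ n * g * (r ^ n)⁻¹) * r⁻¹ := by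
                rw [pow_succ']; group
            _ = (r * z ^ (n * (i : ℕ)) * r⁻¹) * (r * g * r⁻¹) := by rw [ih]; group
            _ = z ^ (n * (i : ℕ)) * (z ^ (i : ℕ) * g) := by rw [hig, (hrz.pow_right _).eq]; group
            _ = _ := by rw [← mul_assoc, ← pow_add, Nat.succ_mul]
      intro k
      have h := Char.irr_isClassFunction hχ.irr g (r ^ (k * (i : ℕ)))
      rw [hn] at h
      rw [← h]
      congr 2
      rw [← pow_mod_orderOf z k, ← pow_mod_orderOf z (k * (i : ℕ) * (i : ℕ)), ord3 z hz hz1]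
      congr 1
      have hk := Nat.mod_lt k (show 0 < 3 by norm_num)
      fin_cases i <;> simp at hi ⊢ <;> omega
    have hcomm' : ∀ g ∈ D, ∀ h ∈ D, g * h = h * g := fun g hg h hh =>
      congrArg Subtype.val (hcomm.is_comm.comm ⟨g, hg⟩ ⟨h, hh⟩)
    have hx' := hconst P inf_le_left x hxP hxD zx hzx hzx1 hxz
    have hy' := hconst Q inf_le_right y hyQ hyD zy hzy hzy1 hyz
    have hall : ∀ e ∈ D, e ≠ 1 → χ e = χ zy := by
      intro e he he1
      obtain ⟨i, j, rfl⟩ := hgen zx zy hzx hzx1 hzy hz e he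
      have h1 : ∀ i : ℕ, χ (zx ^ i * zy) = χ zy := fun i => hx' zy hzy hz i
      have h2 : ∀ i : ℕ, χ (zx ^ i * zy ^ 2) = χ zy := fun i => by
        have hg2 : zy ^ 2 = zy⁻¹ := by
          refine eq_inv_of_mul_eq_one_left ?_
          rw [← pow_succ]
          show zy ^ 3 = 1
          rw [← ord3 _ hzy hzy1]; exact pow_orderOf_eq_one zy
        rw [hx' _ (D.pow_mem hzy 2) (fun h => hz (by
          rw [hg2] at h; simpa using inv_mem h)) i, hg2, value_inv hG hχ]
      have h3 : ∀ i : ℕ, i % 3 ≠ 0 → χ (zx ^ i) = χ zy := fun i hi => by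
        have hnot : zx ^ i ∉ zpowers zy := fun h => hzyx (by
          have h' : zx = (zx ^ i) ^ i := by
            rw [← pow_mul, ← pow_mod_orderOf, ord3 _ hzx hzx1, Nat.mul_mod]
            have : i % 3 = 1 ∨ i % 3 = 2 := by omega
            rcases this with e | e <;> simp [e]
          rw [h']; exact pow_mem h i)
        rw [← hy' (zx ^ i) (D.pow_mem hzx i) hnot 1, pow_one, hcomm' _ hzy _ (D.pow_mem hzx i)]
        exact h1 i
      fin_cases j
      · simp at he1 ⊢
        refine h3 _ ?_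
        fin_cases i <;> simp at he1 ⊢
      · simpa using h1 _
      · simpa using h2 _
    obtain ⟨m, hm⟩ := sum_nat hG hχ D
    rw [← Finset.add_sum_erase _ _ (Finset.mem_univ (1 : ↥D)),
      Finset.sum_congr rfl (g := fun _ => χ zy) (fun (e : ↥D) he => hall (e : G) e.2 fun h =>
        (Finset.mem_erase.1 he).1 (Subtype.ext h)), Finset.sum_const,
      Finset.card_erase_of_mem (Finset.mem_univ _), Finset.card_univ, ← Nat.card_eq_fintype_card, hD,
      OneMemClass.coe_one, hχ.one] at hm
    rcases values hG hχ (ord3 _ hzy hzy1) with ⟨h, -⟩ | h | h <;> rw [h] at hm <;> norm_num at hm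
    · have : ((-18 : ℤ) : ℂ) = ((9 * m : ℤ) : ℂ) := by push_cast; linear_combination hm
      have : (-18 : ℤ) = 9 * m := by exact_mod_cast this
      omega
    · have : (6 : ℕ) = 9 * m := by exact_mod_cast hm
      omega
    · have : (30 : ℕ) = 9 * m := by
        have : ((30 : ℕ) : ℂ) = ((9 * m : ℕ) : ℂ) := by push_cast; linear_combination hm
        exact_mod_cast this
      omega

theorem card_sylow : Nat.card (Sylow 3 G) = 28 := by
  haveI := Fact.mk Nat.prime_three
  obtain ⟨P⟩ := (inferInstance : Nonempty (Sylow 3 G))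
  have h9 := card_sylow_three_mod_nine P (card_sylow_three hG) fun Q hQ => inter_ne_nine hG hχ P Q hQ
  have hmem := card_sylow_mem (not_comm hG.card) (p := 3) (a := 2) (m := 224) (by rw [hG.card]; norm_num)
    (by norm_num)
  have : ∀ n ∈ (224 : ℕ).divisors.filter (fun n => n % 3 = 1 ∧ 1 < n), n % 9 = 1 → n = 28 := by
    decide +kernel
  exact this _ hmem h9

theorem card_normalizer (P : Sylow 3 G) : Nat.card ↥(normalizer ((P : Subgroup G) : Set G)) = 216 := by
  haveI := Fact.mk Nat.prime_three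
  have h := card_sylow_mul_card_normalizer P
  rw [card_sylow hG hχ, hG.card] at h
  omega

end six

end Cfsg.Agent.G2Two
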