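import Mathlib

/-!
# The principal series at the prime seven in order 12096: the arithmetic
-/

set_option autoImplicit false

namespace Cfsg.Agent.G2Two.NS

/-- The possible degrees with their coefficients. -/
def cands : List (ℕ × ℤ) :=
  [(2, 2), (9, 2), (12, -2), (16, 2), (54, -2), (72, 2), (96, -2), (6, -1), (8, 1), (27, -1), (36, 1),
    (48, -1), (64, 1)]

/-- The lists with bounded sum of squares of coefficients. -/
def gen : List (ℕ × ℤ) → ℕ → List (List (ℕ × ℤ))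
  | [], _ => [[]]
  | c :: cs, b => (List.range (b + 1)).flatMap fun k =>
      if k * c.2.natAbs ^ 2 ≤ b then (gen cs (b - k * c.2.natAbs ^ 2)).map (List.replicate k c ++ ·) else []

/-- The degree conditions. -/
def cond (L : List (ℕ × ℤ)) : Bool :=
  (L.map fun x => x.2 ^ 2).sum == 6 && (1 + (L.map fun x => x.2 * (x.1 : ℤ)).sum == 0 &&
    decide (1 + (L.map fun x => x.1 ^ 2).sum ≤ 12096))

/-- The possible values at an involution. -/
def vals (d : ℕ) : List ℤ :=
  ((List.range 49).map fun (i : ℕ) => (i : ℤ) - 24).filter fun w =>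
    decide ((4 : ℤ) ∣ (d : ℤ) - w) && (decide (-(d : ℤ) < w) && decide (w < d))

/-- Is a value vector excluded? -/
def leaf (z : Bool) (Cs : List ℕ) (q s : ℤ) : Bool :=
  Cs.all fun C => decide ((C : ℤ) < q) || !(s == (C : ℤ) * C || (z && s == 0))

/-- The search over the values. -/
def srch (z : Bool) (Cs : List ℕ) (B : ℤ) : List (ℕ × ℤ) → ℤ → ℤ → ℤ → Bool
  | [], l, q, s => !(l == 0) || leaf z Cs q s
  | [x], l, q, s => x.2 * x.2 == 1 && (let w := -(l * x.2)
      decide (B < q + w * w) || (!(decide ((4 : ℤ) ∣ (x.1 : ℤ) - w) && (decide (-(x.1 : ℤ) < w) && decide (w < x.1))) ||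
        leaf z Cs (q + w * w) (s + x.2 * ((1728 / x.1 : ℕ) : ℤ) * (w * w))))
  | x :: y :: rest, l, q, s => (vals x.1).all fun w => decide (B < q + w * w) ||
      srch z Cs B (y :: rest) (l + x.2 * w) (q + w * w) (s + x.2 * ((1728 / x.1 : ℕ) : ℤ) * (w * w))

/-- The centralizer orders for an involution normalizing a Sylow 7-subgroup. -/
def csN : List ℕ := [6, 12, 18, 24, 36, 48, 54, 72, 96, 108, 144, 192, 216, 288]

/-- The centralizer orders for a central involution. -/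
def csZ : List ℕ := [64, 192, 576]

/-- The exceptional degrees. -/
def four : List (ℕ × ℤ) := [(8, 1), (27, -1), (27, -1), (27, -1), (36, 1), (36, 1)]

set_option synthInstance.maxSize 2000 in
set_option synthInstance.maxHeartbeats 400000 in
theorem cands_spec : ∀ d : ℕ, d < 110 → 1 < d → d ∣ 12096 → ∀ a ∈ [(1 : ℤ), -1, 2, -2],
    ((d : ℤ) - a) % 7 = 0 → (d, a) ∈ cands := by
  decide +kernel

theorem cands_dvd : ∀ x ∈ cands, 0 < x.1 ∧ x.1 ∣ 1728 := by decide +kernel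

set_option maxHeartbeats 0 in
theorem table : ∀ L ∈ gen cands 6, cond L = true →
    ((L.map fun x => max x.2 0 * (x.1 : ℤ)).sum ≤ 80) ∧
      (srch false csN 288 L 1 1 1728 = true ∨ L = four) := by
  decide +kernel

set_option maxHeartbeats 0 in
theorem table_four : srch true csZ 576 four 1 1 1728 = true := by decide +kernel

theorem csN_spec : ∀ C < 375, C ∣ 1728 → 6 ∣ C → C ∈ csN := by decide +kernel

theorem csZ_spec : ∀ C < 1728, C ∣ 1728 → 64 ∣ C → C ∈ csZ := by decide +kernel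

theorem sum_sq_le_of_mem {L : List (ℕ × ℤ)} {x : ℕ × ℤ} (hx : x ∈ L) :
    x.2 ^ 2 ≤ (L.map fun x => x.2 ^ 2).sum :=
  List.single_le_sum (fun y hy => by
    obtain ⟨z, -, rfl⟩ := List.mem_map.1 hy
    exact sq_nonneg _) _ (List.mem_map.2 ⟨x, hx, rfl⟩)

theorem exists_gen : ∀ (cs : List (ℕ × ℤ)) (L : List (ℕ × ℤ)) (b : ℕ), (∀ x ∈ L, x ∈ cs) →
    (∀ x ∈ L, x.2 ≠ 0) → (L.map fun x => x.2 ^ 2).sum ≤ (b : ℤ) → ∃ M ∈ gen cs b, L.Perm M
  | [], L, b, h, _, _ => ⟨[], by simp [gen], by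
      cases L with
      | nil => exact List.Perm.refl _
      | cons x L => exact absurd (h x List.mem_cons_self) List.not_mem_nil⟩
  | c :: cs, L, b, h, h0, hb => by
    have hperm : L.Perm (List.replicate (L.count c) c ++ L.filter (fun x => !(x == c))) := by
      have h1 := (List.filter_append_perm (fun x => x == c) L).symm
      rwa [List.filter_beq] at h1
    have hsum := ((hperm.map fun x : ℕ × ℤ => x.2 ^ 2).sum_eq)
    rw [List.map_append, List.sum_append, List.map_replicate, List.sum_replicate] at hsum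
    have hnn : 0 ≤ ((L.filter fun x => !(x == c)).map fun x => x.2 ^ 2).sum := List.sum_nonneg fun y hy => by
      obtain ⟨z, -, rfl⟩ := List.mem_map.1 hy
      exact sq_nonneg _
    rw [hsum, nsmul_eq_mul] at hb
    have hk : L.count c * c.2.natAbs ^ 2 ≤ b := by
      zify
      rw [sq_abs]
      linarith
    obtain ⟨M, hM, hM'⟩ := exists_gen cs (L.filter fun x => !(x == c)) (b - L.count c * c.2.natAbs ^ 2)
      (fun x hx => by
        obtain ⟨h1, h2⟩ := List.mem_filter.1 hx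
        simp only [Bool.not_eq_true', beq_eq_false_iff_ne] at h2
        exact (List.mem_cons.1 (h x h1)).resolve_left h2)
      (fun x hx => h0 x (List.mem_filter.1 hx).1)
      (by
        rw [Nat.cast_sub hk]
        push_cast
        rw [sq_abs]
        linarith)
    refine ⟨List.replicate (L.count c) c ++ M, ?_, hperm.trans (hM'.append_left _)⟩
    rw [gen, List.mem_flatMap]
    refine ⟨L.count c, List.mem_range.2 ?_, by rw [if_pos hk]; exact List.mem_map.2 ⟨M, hM, rfl⟩⟩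
    by_cases hc : L.count c = 0
    · omega
    · have hc' : c ∈ L := List.count_pos_iff.1 (Nat.pos_of_ne_zero hc)
      have : 0 < c.2.natAbs ^ 2 := pow_pos (Int.natAbs_pos.2 (h0 c hc')) 2
      have := Nat.le_mul_of_pos_right (L.count c) this
      omega

theorem exists_map_eq {α β : Type*} [DecidableEq α] (f : α → β) :
    ∀ (c : List β) (V : List α), (V.map f).Perm c → ∃ W : List α, V.Perm W ∧ W.map f = c
  | [], V, h => ⟨[], by rw [List.perm_nil, List.map_eq_nil_iff] at h; rw [h], rfl⟩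
  | y :: c, V, h => by
    obtain ⟨x, hx, rfl⟩ := List.mem_map.1 (h.mem_iff.2 List.mem_cons_self)
    have hV := List.perm_cons_erase hx
    obtain ⟨W, hW, hWc⟩ := exists_map_eq f c (V.erase x) ((List.perm_cons (f x)).1 ((hV.map f).symm.trans h))
    exact ⟨x :: W, hV.trans (hW.cons x), by rw [List.map_cons, hWc]⟩

theorem scaled_sum (V : List (ℕ × ℤ × ℤ)) (h : ∀ x ∈ V, 0 < x.1 ∧ x.1 ∣ 1728) :
    (1728 : ℚ) * (V.map fun x => (x.2.1 : ℚ) * ((x.2.2 : ℚ) ^ 2 / x.1)).sum =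
      (((V.map fun x => x.2.1 * ((1728 / x.1 : ℕ) : ℤ) * (x.2.2 * x.2.2)).sum : ℤ) : ℚ) := by
  induction V with
  | nil => simp
  | cons x V ih =>
    obtain ⟨h0, hd⟩ := h x List.mem_cons_self
    have h0' : (x.1 : ℚ) ≠ 0 := by exact_mod_cast h0.ne'
    simp only [List.map_cons, List.sum_cons, Int.cast_add, mul_add,
      ih fun y hy => h y (List.mem_cons_of_mem _ hy)]
    congr 1
    obtain ⟨k, hk⟩ := hd
    have hk' : (1728 : ℚ) = x.1 * k := by exact_mod_cast hk
    rw [hk, Nat.mul_div_cancel_left k h0, hk']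
    push_cast
    field_simp

theorem mem_vals {d : ℕ} {w : ℤ} (h4 : (4 : ℤ) ∣ (d : ℤ) - w) (h1 : -(d : ℤ) < w) (h2 : w < d)
    (hw : w * w ≤ 624) : w ∈ vals d := by
  have hb : -24 ≤ w ∧ w ≤ 24 := ⟨by nlinarith, by nlinarith⟩
  simp only [vals, List.mem_filter, List.mem_map, List.mem_range, Bool.and_eq_true, decide_eq_true_eq]
  refine ⟨?_, h4, h1, h2⟩
  exact ⟨(w + 24).toNat, by omega⟩

/-- Soundness of the search. -/
theorem srch_sound (z : Bool) (Cs : List ℕ) (B : ℤ) (hB : B ≤ 624) {C : ℕ} (hC : C ∈ Cs) (hCB : (C : ℤ) ≤ B) :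
    ∀ (c : List (ℕ × ℤ)) (V : List (ℕ × ℤ × ℤ)) (l q s : ℤ), V.map (fun x => (x.1, x.2.1)) = c →
      (∀ x ∈ V, (4 : ℤ) ∣ (x.1 : ℤ) - x.2.2 ∧ -(x.1 : ℤ) < x.2.2 ∧ x.2.2 < x.1) → 0 ≤ q →
      l + (V.map fun x => x.2.1 * x.2.2).sum = 0 →
      q + (V.map fun x => x.2.2 ^ 2).sum ≤ C →
      (s + (V.map fun x => x.2.1 * ((1728 / x.1 : ℕ) : ℤ) * (x.2.2 * x.2.2)).sum = (C : ℤ) * C ∨
        z = true ∧ s + (V.map fun x => x.2.1 * ((1728 / x.1 : ℕ) : ℤ) * (x.2.2 * x.2.2)).sum = 0) →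
      srch z Cs B c l q s = false := by
  have hleaf : ∀ q s : ℤ, q ≤ (C : ℤ) → (s = (C : ℤ) * C ∨ z = true ∧ s = 0) → leaf z Cs q s = false := by
    intro q s hq hs
    simp only [leaf, List.all_eq_false]
    refine ⟨C, hC, ?_⟩
    simp only [Bool.or_eq_true, decide_eq_true_eq, Bool.not_eq_true', Bool.or_eq_false_iff,
      beq_eq_false_iff_ne, Bool.and_eq_false_iff, not_or]
    refine ⟨by omega, ?_⟩
    rintro ⟨h1, h2⟩
    rcases hs with hs | ⟨hz, hs⟩
    · exact h1 hs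
    · rcases h2 with h2 | h2
      · rw [hz] at h2; exact Bool.noConfusion h2
      · exact h2 hs
  intro c
  induction c with
  | nil =>
    intro V l q s hV _ _ hl hq hs
    rw [List.map_eq_nil_iff] at hV
    subst hV
    simp only [List.map_nil, List.sum_nil, add_zero] at hl hq hs
    simp [srch, hl, hleaf q s hq hs]
  | cons y c ih =>
    intro V l q s hV hprop hq0 hl hq hs
    obtain ⟨x, V', rfl⟩ : ∃ x V', V = x :: V' := List.exists_cons_of_ne_nil (fun e => by simp [e] at hV)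
    rw [List.map_cons, List.cons.injEq] at hV
    obtain ⟨hy, hc⟩ := hV
    subst hy
    simp only [List.map_cons, List.sum_cons] at hl hq hs
    obtain ⟨h4, h1, h2⟩ := hprop x List.mem_cons_self
    have hnn : 0 ≤ (V'.map fun x => x.2.2 ^ 2).sum := List.sum_nonneg fun u hu => by
      obtain ⟨v, -, rfl⟩ := List.mem_map.1 hu
      exact sq_nonneg _
    have hqw : q + x.2.2 * x.2.2 ≤ C := by rw [← pow_two]; linarith
    have hqnn : 0 ≤ q + x.2.2 * x.2.2 := add_nonneg hq0 (mul_self_nonneg _)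
    cases c with
    | nil =>
      rw [List.map_eq_nil_iff] at hc
      subst hc
      simp only [List.map_nil, List.sum_nil, add_zero] at hl hs
      simp only [srch, Bool.and_eq_false_iff]
      by_cases ha : x.2.1 * x.2.1 = 1
      · right
        have hw : -(l * x.2.1) = x.2.2 := by linear_combination (-x.2.1) * hl + x.2.2 * ha
        rw [hw]
        simp only [Bool.or_eq_false_iff, decide_eq_false_iff_not, Bool.not_eq_false', Bool.and_eq_true,
          decide_eq_true_eq]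
        exact ⟨by linarith, ⟨h4, h1, h2⟩, hleaf _ _ hqw hs⟩
      · left
        simpa using ha
    | cons z' c =>
      rw [srch, List.all_eq_false]
      refine ⟨x.2.2, mem_vals h4 h1 h2 (by linarith), ?_⟩
      simp only [Bool.or_eq_true, decide_eq_true_eq, not_or]
      refine ⟨by linarith, ?_⟩
      rw [ih V' _ _ _ hc (fun u hu => hprop u (List.mem_cons_of_mem _ hu)) hqnn (by linarith)
        (by rw [← pow_two]; linarith) (hs.imp (fun h => by linarith) (fun h => ⟨h.1, by linarith⟩))]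
      exact Bool.false_ne_true

/-- The list of values is impossible. -/
theorem false_of_srch (z : Bool) (Cs : List ℕ) (B : ℤ) (hB : B ≤ 624) {C : ℕ} (hC : C ∈ Cs)
    (hCB : (C : ℤ) ≤ B) {c : List (ℕ × ℤ)} (hc : srch z Cs B c 1 1 1728 = true)
    (hdvd : ∀ x ∈ c, 0 < x.1 ∧ x.1 ∣ 1728) {V : List (ℕ × ℤ × ℤ)}
    (hVc : (V.map fun x => (x.1, x.2.1)).Perm c)
    (hprop : ∀ x ∈ V, (4 : ℤ) ∣ (x.1 : ℤ) - x.2.2 ∧ -(x.1 : ℤ) < x.2.2 ∧ x.2.2 < x.1)
    (hl : 1 + (V.map fun x => x.2.1 * x.2.2).sum = 0)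
    (hq : (1 : ℤ) + (V.map fun x => x.2.2 ^ 2).sum ≤ C)
    (hs : (1728 : ℚ) * (1 + (V.map fun x => (x.2.1 : ℚ) * ((x.2.2 : ℚ) ^ 2 / x.1)).sum) = (C : ℚ) * C ∨
      z = true ∧ 1 + (V.map fun x => (x.2.1 : ℚ) * ((x.2.2 : ℚ) ^ 2 / x.1)).sum = 0) : False := by
  obtain ⟨W, hW, hWc⟩ := exists_map_eq (fun x : ℕ × ℤ × ℤ => (x.1, x.2.1)) c V hVc
  have hd : ∀ x ∈ W, 0 < x.1 ∧ x.1 ∣ 1728 := fun x hx => hdvd (x.1, x.2.1) (hWc ▸ List.mem_map.2 ⟨x, hx, rfl⟩)
  rw [(hW.map _).sum_eq] at hl hq hs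
  have e := scaled_sum W hd
  have hfalse := srch_sound z Cs B hB hC hCB c W 1 1 1728 hWc (fun x hx => hprop x (hW.mem_iff.2 hx))
    (by norm_num) hl hq (by
      rcases hs with hs | ⟨hz, hs⟩
      · left
        have : (((1728 + (W.map fun x => x.2.1 * ((1728 / x.1 : ℕ) : ℤ) * (x.2.2 * x.2.2)).sum : ℤ)) : ℚ) =
            (((C : ℤ) * C : ℤ) : ℚ) := by
          rw [Int.cast_add, ← e, Int.cast_mul, Int.cast_natCast, Int.cast_ofNat]
          linear_combination hs
        exact_mod_cast this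
      · refine Or.inr ⟨hz, ?_⟩
        have : (((1728 + (W.map fun x => x.2.1 * ((1728 / x.1 : ℕ) : ℤ) * (x.2.2 * x.2.2)).sum : ℤ)) : ℚ) =
            ((0 : ℤ) : ℚ) := by
          rw [Int.cast_add, ← e, Int.cast_zero, Int.cast_ofNat]
          linear_combination (1728 : ℚ) * hs
        exact_mod_cast this)
  rw [hc] at hfalse
  exact Bool.noConfusion hfalse

/-- A bound on the centralizer. -/
theorem le_of_eq {c : List (ℕ × ℤ)} (hb : (c.map fun x => max x.2 0 * (x.1 : ℤ)).sum ≤ 80)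
    (hd : ∀ x ∈ c, 0 < x.1) {V : List (ℕ × ℤ × ℤ)} (hVc : (V.map fun x => (x.1, x.2.1)).Perm c)
    (hprop : ∀ x ∈ V, -(x.1 : ℤ) < x.2.2 ∧ x.2.2 < x.1) {C : ℕ}
    (hs : (1728 : ℚ) * (1 + (V.map fun x => (x.2.1 : ℚ) * ((x.2.2 : ℚ) ^ 2 / x.1)).sum) = (C : ℚ) * C) :
    C < 375 := by
  have hle : (V.map fun x => (x.2.1 : ℚ) * ((x.2.2 : ℚ) ^ 2 / x.1)).sum ≤
      (((V.map fun x => max x.2.1 0 * (x.1 : ℤ)).sum : ℤ) : ℚ) := by
    rw [Int.cast_list_sum, List.map_map]
    refine List.sum_le_sum fun x hx => ?_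
    have h0 : (0 : ℚ) < x.1 := by exact_mod_cast hd (x.1, x.2.1) (hVc.mem_iff.1 (List.mem_map.2 ⟨x, hx, rfl⟩))
    obtain ⟨h1, h2⟩ := hprop x hx
    have hsq : (x.2.2 : ℚ) ^ 2 / x.1 ≤ x.1 := by
      rw [div_le_iff₀ h0]
      have : x.2.2 ^ 2 ≤ (x.1 : ℤ) * x.1 := by nlinarith
      exact_mod_cast this
    have hnn : 0 ≤ (x.2.2 : ℚ) ^ 2 / x.1 := div_nonneg (sq_nonneg _) h0.le
    simp only [Function.comp_apply, Int.cast_mul, Int.cast_natCast, Int.cast_max, Int.cast_zero]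
    rcases le_or_gt (x.2.1 : ℚ) 0 with h | h
    · rw [max_eq_right h, zero_mul]
      exact mul_nonpos_iff.2 (Or.inr ⟨h, hnn⟩)
    · rw [max_eq_left h.le]
      exact mul_le_mul_of_nonneg_left hsq h.le
  have he : (V.map fun x => max x.2.1 0 * (x.1 : ℤ)).sum = (c.map fun x => max x.2 0 * (x.1 : ℤ)).sum := by
    rw [← (hVc.map _).sum_eq, List.map_map]
    rfl
  rw [he] at hle
  have h80 : ((((c.map fun x => max x.2 0 * (x.1 : ℤ)).sum : ℤ)) : ℚ) ≤ 80 := by exact_mod_cast hb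
  by_contra hC
  have : (375 : ℚ) ≤ C := by exact_mod_cast (not_lt.1 hC)
  nlinarith

end Cfsg.Agent.G2Two.NS
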