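import Cfsg.Agent.G2Two.InvolutionData
import Cfsg.Agent.G2Two.NotSimpleData

/-!
# No simple group has order 12096
-/

set_option autoImplicit false
set_option linter.style.haveILetI false
set_option linter.unusedSectionVars false

noncomputable section

open Cfsg.Agent.SmallGroups Cfsg.Agent.SmallGroups.Exceptional

namespace Cfsg.Agent.G2Two

universe u

theorem not_simple {G : Type u} [Group G] [Finite G] [IsSimpleGroup G] : Nat.card G ≠ 12096 := by
  classical
  intro hc
  letI := Fintype.ofFinite G
  haveI := Fact.mk (by norm_num : Nat.Prime 7)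
  have h7p : Nat.Prime 7 := by norm_num
  have hG : ¬ IsMulCommutative G := SmallGroups.not_isMulCommutative (by rw [hc]; norm_num)
  obtain ⟨n, k, -, hn, hn1, hk, hk1, hnk, hP', hC', hN'⟩ := exists_threePrime_data
    hG Nat.prime_two Nat.prime_three (r := 7) (a := 6) (b := 3)
    (by norm_num) (by norm_num) (by norm_num) (by rw [hc]; norm_num)
  obtain rfl : k = 6 := by
    have hk6 : k ≤ 6 := Nat.le_of_dvd (by norm_num) hk
    interval_cases k <;> omega
  obtain ⟨S⟩ := (inferInstance : Nonempty (Sylow 7 G))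
  set P : Subgroup G := (S : Subgroup G) with hPdef
  have hP := hP' S
  have hC := hC' S
  have hN : Nat.card ↥(Subgroup.normalizer (P : Set G)) = 7 * 6 := hN' S
  obtain ⟨L, hL, hnm, hs, hsq, hinv⟩ :=
    exists_involution_data_det P (p := 7) (e := 6) h7p (by norm_num) hP hC hN hG (by norm_num)
  push_cast at hnm
  rw [hc] at hsq
  simp only [hc, Nat.cast_ofNat] at hL
  -- the possible lists of degrees
  have hmem : ∀ x ∈ L, x ∈ NS.cands := fun x hx => by
    obtain ⟨h1, h2, h3, h4⟩ := hL x hx
    have hle : x.1 ^ 2 ≤ 12096 := by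
      have := List.single_le_sum (fun y _ => Nat.zero_le y) _
        (List.mem_map.2 ⟨x, hx, rfl⟩ : x.1 ^ 2 ∈ L.map fun y => y.1 ^ 2)
      omega
    have hd : x.1 < 110 := by nlinarith
    have ha : x.2 ^ 2 ≤ 6 := (NS.sum_sq_le_of_mem hx).trans hnm.le
    have ha1 : x.2 ≤ 2 := by nlinarith
    have ha2 : -2 ≤ x.2 := by nlinarith
    exact NS.cands_spec x.1 hd h1 h2 x.2 (by
      simp only [List.mem_cons, List.not_mem_nil, or_false]; omega) (Int.emod_eq_zero_of_dvd h3)
  obtain ⟨c, hcgen, hperm⟩ := NS.exists_gen NS.cands L 6 hmem (fun x hx => (hL x hx).2.2.2) hnm.le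
  have hcond : NS.cond c = true := by
    simp only [NS.cond, Bool.and_eq_true, beq_iff_eq, decide_eq_true_eq]
    refine ⟨?_, ?_, ?_⟩
    · rw [← (hperm.map _).sum_eq]; exact hnm
    · rw [← (hperm.map _).sum_eq]; exact hs
    · rw [← (hperm.map _).sum_eq]; exact hsq
  obtain ⟨hbound, hsrch⟩ := NS.table c hcgen hcond
  have hcd : ∀ x ∈ c, 0 < x.1 ∧ x.1 ∣ 1728 := fun x hx => NS.cands_dvd x (hmem x (hperm.mem_iff.2 hx))
  have h7C : ∀ t : G, orderOf t = 2 → ¬ 7 ∣ Nat.card ↥(Subgroup.centralizer ({t} : Set G)) := by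
    intro t ht h7
    obtain ⟨x, hx⟩ := exists_prime_orderOf_dvd_card' (G := Subgroup.centralizer ({t} : Set G)) 7 h7
    have hxo : orderOf (x : G) = 7 := by rw [Subgroup.orderOf_coe, hx]
    obtain ⟨T, hT⟩ := (IsPGroup.of_card (n := 1) (by rw [Nat.card_zpowers, hxo, pow_one]) :
      IsPGroup 7 (Subgroup.zpowers (x : G))).exists_le_sylow
    have hTe : Subgroup.zpowers (x : G) = (T : Subgroup G) :=
      Subgroup.eq_of_le_of_card_ge hT (by rw [hP' T, Nat.card_zpowers, hxo])
    have htT : t ∈ Subgroup.centralizer ((T : Subgroup G) : Set G) := by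
      rw [← hTe]
      intro w hw
      obtain ⟨i, rfl⟩ := Subgroup.mem_zpowers_iff.1 hw
      exact ((show Commute (x : G) t from Subgroup.mem_centralizer_singleton_iff.1 x.2).zpow_left i).eq
    have := Subgroup.orderOf_dvd_natCard _ htT
    rw [hC' T, ht] at this
    norm_num at this
  have hCdvd : ∀ t : G, orderOf t = 2 → Nat.card ↥(Subgroup.centralizer ({t} : Set G)) ∣ 1728 := by
    intro t ht
    have h := Subgroup.card_subgroup_dvd_card (Subgroup.centralizer ({t} : Set G))
    rw [hc, show (12096 : ℕ) = 1728 * 7 by norm_num] at h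
    exact ((h7p.coprime_iff_not_dvd.2 (h7C t ht)).symm).dvd_of_dvd_mul_right h
  rcases hsrch with hsrch | rfl
  · -- an involution normalizing the Sylow subgroup
    set N := Subgroup.normalizer (P : Set G) with hNdef
    haveI := Fact.mk Nat.prime_two
    haveI := Fact.mk Nat.prime_three
    obtain ⟨t, ht⟩ := exists_prime_orderOf_dvd_card' (G := N) 2 (by rw [hN]; norm_num)
    obtain ⟨y, hy⟩ := exists_prime_orderOf_dvd_card' (G := N) 3 (by rw [hN]; norm_num)
    have hto : orderOf (t : G) = 2 := by rw [Subgroup.orderOf_coe, ht]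
    have hyo : orderOf (y : G) = 3 := by rw [Subgroup.orderOf_coe, hy]
    have htt : (t : G) * t = 1 := by rw [← pow_two, ← hto, pow_orderOf_eq_one]
    have hPC : Subgroup.centralizer (P : Set G) = P := by
      have := isMulCommutative_subgroup P h7p hP
      exact (Subgroup.eq_of_le_of_card_ge (Subgroup.le_centralizer P) (by rw [hC, hP])).symm
    have hinvt : ∀ x ∈ P, (t : G) * x * t = x⁻¹ := fun x hx => by
      have h := inverts_of_involution P h7p (by norm_num) hP hC hto t.2 hx
      rwa [inv_eq_of_mul_eq_one_right htt] at h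
    set q : G := (y : G) * t * (y : G)⁻¹ * t with hq
    have hqC : q ∈ P := by
      rw [← hPC]
      intro x hx
      have hx' : (y : G)⁻¹ * x * y ∈ P := (Subgroup.mem_normalizer_iff''.1 y.2 x).1 hx
      have e1 : (t : G) * ((y : G)⁻¹ * x * y) * t = ((y : G)⁻¹ * x * y)⁻¹ := hinvt _ hx'
      have e2 : (t : G) * x⁻¹ * t = x := by rw [hinvt _ (inv_mem hx), inv_inv]
      have e3 : q * x = x * q := by
        calc q * x = (y : G) * t * (y : G)⁻¹ * ((t : G) * x * t) * t := by
              rw [hq]; simp only [mul_assoc, htt, mul_one]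
          _ = ((y : G) * t * ((y : G)⁻¹ * x * y)⁻¹ * t) * ((t : G) * (y : G)⁻¹ * t) := by
              rw [hinvt x hx]
              rw [show (y : G) * t * ((y : G)⁻¹ * x * y)⁻¹ * t * ((t : G) * (y : G)⁻¹ * t) =
                (y : G) * t * ((y : G)⁻¹ * x * y)⁻¹ * ((t : G) * t) * (y : G)⁻¹ * t by group, htt, mul_one]
              group
          _ = (y : G) * ((t : G) * ((y : G)⁻¹ * x * y)⁻¹ * t) * ((t : G) * (y : G)⁻¹ * t) := by
              simp only [mul_assoc]
          _ = x * (y : G) * (((t : G) * (t : G)⁻¹) * t * (y : G)⁻¹ * t) := by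
              rw [hinvt _ (inv_mem hx'), inv_inv]; group
          _ = x * q := by rw [mul_inv_cancel, one_mul, hq]; group
      exact e3.symm
    obtain ⟨r, hr, hrq⟩ : ∃ r ∈ P, r * r = q := by
      have h7 : q ^ 7 = 1 := orderOf_dvd_iff_pow_eq_one.1 (hP ▸ Subgroup.orderOf_dvd_natCard P hqC)
      refine ⟨q ^ 4, pow_mem hqC 4, ?_⟩
      rw [← pow_add, show (4 + 4 : ℕ) = 7 + 1 by norm_num, pow_succ, h7, one_mul]
    set u : G := r⁻¹ * y with hu
    have hcomm : Commute u (t : G) := by
      have e : (t : G) * r⁻¹ = r * t := by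
        calc (t : G) * r⁻¹ = (t : G) * r⁻¹ * ((t : G) * t) := by rw [htt, mul_one]
          _ = ((t : G) * r⁻¹ * t) * t := by rw [← mul_assoc]
          _ = _ := by rw [hinvt _ (inv_mem hr), inv_inv]
      show u * t = t * u
      calc u * t = r⁻¹ * ((y : G) * t * (y : G)⁻¹ * ((t : G) * t)) * y := by rw [hu, htt]; group
        _ = r⁻¹ * (q * t) * y := by rw [hq]; group
        _ = r * t * y := by rw [← hrq]; group
        _ = _ := by rw [hu, ← e, mul_assoc]
    set C := Nat.card ↥(Subgroup.centralizer ({(t : G)} : Set G)) with hCdef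
    have h6 : 6 ∣ C := by
      have h2 : 2 ∣ C := hto ▸ Subgroup.orderOf_dvd_natCard _ (Subgroup.mem_centralizer_singleton_iff.2 rfl)
      have huC : orderOf u ∣ C := Subgroup.orderOf_dvd_natCard _ (Subgroup.mem_centralizer_singleton_iff.2 hcomm.eq)
      have huN : u ∈ N := mul_mem (inv_mem (Subgroup.le_normalizer hr)) y.2
      have hu42 : orderOf u ∣ 42 := (Subgroup.orderOf_dvd_natCard N huN).trans (dvd_of_eq (by rw [hN]))
      have h3u : 3 ∣ orderOf u := by
        by_contra h3
        have h14 : orderOf u ∣ 14 := by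
          refine ((Nat.prime_three.coprime_iff_not_dvd.2 h3).symm).dvd_of_dvd_mul_left (?_ : orderOf u ∣ 3 * 14)
          exact hu42
        have h2u : orderOf u ∣ 2 := by
          refine ((h7p.coprime_iff_not_dvd.2 fun h => h7C _ hto (h.trans huC)).symm).dvd_of_dvd_mul_left
            (?_ : orderOf u ∣ 7 * 2)
          exact h14
        have huu : u * u = 1 := by rw [← pow_two]; exact orderOf_dvd_iff_pow_eq_one.1 h2u
        have hy2 : (y : G) * y ∈ P := by
          have e : (y : G) * y = r * (((y : G) * r * (y : G)⁻¹)) * (u * u) := by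
            rw [huu, mul_one]
            have : (y : G) = r * u := by rw [hu, mul_inv_cancel_left]
            calc (y : G) * y = (y : G) * (r * u) := by rw [← this]
              _ = (y : G) * r * (y : G)⁻¹ * ((y : G) * u) := by group
              _ = (y : G) * r * (y : G)⁻¹ * (r * (u * u)) := by rw [this]; group
              _ = (y : G) * r * (y : G)⁻¹ * r := by rw [huu, mul_one]
              _ = _ := by
                have hh : (y : G) * r * (y : G)⁻¹ ∈ Subgroup.centralizer (P : Set G) := by
                  rw [hPC]; exact (Subgroup.mem_normalizer_iff.1 y.2 r).1 hr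
                exact (hh r hr).symm
          rw [e, huu, mul_one]
          exact mul_mem hr ((Subgroup.mem_normalizer_iff.1 y.2 r).1 hr)
        have := Subgroup.orderOf_dvd_natCard P hy2
        rw [hP, ← pow_two, orderOf_pow' _ (by norm_num), hyo] at this
        norm_num at this
      exact Nat.Coprime.mul_dvd_of_dvd_of_dvd (by norm_num : Nat.Coprime 2 3) h2 (h3u.trans huC)
    obtain ⟨V, hV, hVp, hVl, hVq, hVs⟩ := hinv _ hto
    have hVc : (V.map fun x => (x.1, x.2.1)).Perm c := hV ▸ hperm
    rcases hVs with ⟨-, hnot⟩ | hVs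
    · exact hnot t.2
    · rw [hc] at hVs
      push_cast at hVs
      have hS : (1728 : ℚ) * (1 + (V.map fun x => (x.2.1 : ℚ) * ((x.2.2 : ℚ) ^ 2 / x.1)).sum) =
          (C : ℚ) * C := by linear_combination (1 / 7 : ℚ) * hVs
      have hlt := NS.le_of_eq hbound (fun x hx => (hcd x hx).1) hVc (fun x hx => (hVp x hx).2) hS
      have hmemC := NS.csN_spec C hlt (hCdvd _ hto) h6
      have hC288 : C ≤ 288 := by
        have : ∀ C ∈ NS.csN, C ≤ 288 := by decide +kernel
        exact this C hmemC
      exact NS.false_of_srch false NS.csN 288 (by norm_num) hmemC (by exact_mod_cast hC288) hsrch hcd hVc hVp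
        hVl hVq (Or.inl hS)
  · -- a central involution
    obtain ⟨g, hg, hg64⟩ := exists_involution_dvd_centralizer (G := G) (a := 6) (by norm_num)
      (by rw [hc]; norm_num)
    set C := Nat.card ↥(Subgroup.centralizer ({g} : Set G)) with hCdef
    obtain ⟨V, hV, hVp, hVl, hVq, hVs⟩ := hinv _ hg
    have hlt : C < 1728 := by
      refine lt_of_le_of_ne (Nat.le_of_dvd (by norm_num) (hCdvd _ hg)) fun e => ?_
      have hidx : (Subgroup.centralizer ({g} : Set G)).index = 7 := by
        have := (Subgroup.centralizer ({g} : Set G)).card_mul_index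
        rw [← hCdef, e, hc] at this
        omega
      have htop := eq_top_of_not_dvd hG (H := Subgroup.centralizer ({g} : Set G))
        (by rw [hidx, hc]; norm_num [Nat.factorial])
      rw [htop, Subgroup.index_top] at hidx
      omega
    have hmemC := NS.csZ_spec C hlt (hCdvd _ hg) (by simpa using hg64)
    have hC576 : C ≤ 576 := by
      have : ∀ C ∈ NS.csZ, C ≤ 576 := by decide +kernel
      exact this C hmemC
    refine NS.false_of_srch true NS.csZ 576 (by norm_num) hmemC (by exact_mod_cast hC576) NS.table_four hcd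
      (hV ▸ hperm) hVp hVl hVq ?_
    rw [hc] at hVs
    push_cast at hVs
    rcases hVs with ⟨h, -⟩ | h
    · exact Or.inr ⟨rfl, by linear_combination (1 / 12096 : ℚ) * h⟩
    · exact Or.inl (by linear_combination (1 / 7 : ℚ) * h)

end Cfsg.Agent.G2Two
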