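import Cfsg.Agent.SmallGroups.ThreePrimes
import Cfsg.Agent.G2Two.CharTools
import Cfsg.Agent.BlocksChar.ClassProd
import Cfsg.Agent.Char.Kernel

/-!
# The principal series at seven of a simple group of order 6048

It contains characters of degrees 6 and 27; their values show that no involution centralizes a
subgroup of order 9 or an element of order 3 at which the character of degree 6 vanishes.
-/

set_option autoImplicit false
set_option linter.style.haveILetI false
set_option linter.unusedSectionVars false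

noncomputable section

open scoped ComplexConjugate
open scoped Pointwise
open Finset Cfsg.Agent.SmallGroups Cfsg.Agent.SmallGroups.Exceptional

namespace Cfsg.Agent.G2Two

universe u

/-- The possible degrees. -/
def degs : List ℕ := [2, 3, 4, 6, 7, 8, 9, 12, 14, 16, 18, 21, 24, 27, 28, 32, 36, 42, 48, 54, 56, 63, 72]

theorem mem_degs : ∀ d < 78, 1 < d → d ∣ 6048 → d ∈ degs := by decide +kernel

set_option synthInstance.maxSize 2000 in
set_option synthInstance.maxHeartbeats 400000 in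
theorem degree_cases : ∀ d ∈ degs, ∀ c ∈ [(1 : ℤ), -1], ((d : ℤ) + 3 * c) % 7 = 0 →
    ∀ f ∈ degs, ∀ a ∈ [(1 : ℤ), -1], ((f : ℤ) - a) % 7 = 0 →
    ∀ g ∈ degs, ∀ a' ∈ [(1 : ℤ), -1], ((g : ℤ) - a') % 7 = 0 →
      1 + c * d + (a * f + a' * g) = 0 → 1 + 2 * d ^ 2 + (f ^ 2 + g ^ 2) ≤ 6048 →
      (d, c, f, a, g, a') ∈ [(3, (-1 : ℤ), 6, (-1 : ℤ), 8, (1 : ℤ)), (3, -1, 8, 1, 6, -1),
        (32, 1, 6, -1, 27, -1), (32, 1, 27, -1, 6, -1), (18, 1, 8, 1, 27, -1), (18, 1, 27, -1, 8, 1)] := by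
  decide +kernel

set_option synthInstance.maxSize 2000 in
set_option synthInstance.maxHeartbeats 400000 in
theorem values_thirtyTwo : ∀ i : ℕ, i < 15 → ∀ v ∈ [(-2 : ℤ), 2],
    5184 + 162 * (4 * (i : ℤ) - 28) ^ 2 - 864 * v ^ 2 - 192 * (1 + (4 * (i : ℤ) - 28) - v) ^ 2 = 0 →
      -27 < 1 + (4 * (i : ℤ) - 28) - v → 1 + (4 * (i : ℤ) - 28) - v < 27 →
      (4 : ℤ) ∣ 27 - (1 + (4 * (i : ℤ) - 28) - v) →
      (4 * (i : ℤ) - 28 = 0 ∧ v = -2 ∧ 1 + (4 * (i : ℤ) - 28) - v = 3) ∨
        (4 * (i : ℤ) - 28 = 16 ∧ v = 2 ∧ 1 + (4 * (i : ℤ) - 28) - v = 15) := by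
  decide +kernel

set_option synthInstance.maxSize 2000 in
set_option synthInstance.maxHeartbeats 400000 in
theorem values_eighteen : ∀ i : ℕ, i < 9 → ∀ v ∈ [(-4 : ℤ), 0, 4],
    216 + 12 * (4 * (i : ℤ) - 14) ^ 2 + 27 * v ^ 2 - 8 * (1 + (4 * (i : ℤ) - 14) + v) ^ 2 ≠ 0 ∨
      1 + (4 * (i : ℤ) - 14) + v ≤ -27 ∨ 27 ≤ 1 + (4 * (i : ℤ) - 14) + v ∨
      ¬ (4 : ℤ) ∣ 27 - (1 + (4 * (i : ℤ) - 14) + v) := by
  decide +kernel

variable {G : Type u} [Group G] [Fintype G] [IsSimpleGroup G] (hcard : Nat.card G = 6048)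
include hcard

theorem not_comm : ¬ IsMulCommutative G := not_isMulCommutative (by rw [hcard]; norm_num)

/-- Data at the prime seven. -/
theorem exists_seven : ∃ P : Subgroup G, Nat.card ↥P = 7 ∧
    Nat.card ↥(Subgroup.centralizer (P : Set G)) = 7 ∧
    Nat.card ↥(Subgroup.normalizer (P : Set G)) = 21 := by
  haveI := Fact.mk (by norm_num : Nat.Prime 7)
  obtain ⟨n, k, -, hn, hn1, hk, hk1, hnk, hP, hC, hN⟩ := exists_threePrime_data (not_comm hcard)
    Nat.prime_two Nat.prime_three (r := 7) (a := 5) (b := 3)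
    (by norm_num) (by norm_num) (by norm_num) (by rw [hcard]; norm_num)
  obtain rfl : k = 3 := by
    have hk6 : k ≤ 6 := Nat.le_of_dvd (by norm_num) hk
    norm_num at hnk hk
    interval_cases k <;> omega
  obtain ⟨P⟩ := (inferInstance : Nonempty (Sylow 7 G))
  exact ⟨P, hP P, hC P, by simpa using hN P⟩

/-- No subgroup has index seven. -/
theorem card_ne_864 (H : Subgroup G) : Nat.card H ≠ 864 := fun h => by
  have h7 : H.index = 7 := by
    have := H.index_mul_card
    rw [h, hcard] at this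
    omega
  have := two_mul_card_dvd_factorial (not_comm hcard) H fun e => by
    rw [e, Subgroup.index_top] at h7; omega
  rw [h7, hcard] at this
  norm_num [Nat.factorial] at this

section seven

variable (P : Subgroup G) (hP : Nat.card ↥P = 7)
  (hC : Nat.card ↥(Subgroup.centralizer (P : Set G)) = 7)
  (hN : Nat.card ↥(Subgroup.normalizer (P : Set G)) = 21)
include hP hC hN

theorem centralizer_eq_self {x : G} (hx : x ∈ P) (hx1 : x ≠ 1) {c : G} (hc : Commute c x) : c ∈ P := by
  haveI := Fact.mk (by norm_num : Nat.Prime 7)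
  have := isMulCommutative_subgroup P (by norm_num : Nat.Prime 7) hP
  have hPC : Subgroup.centralizer (P : Set G) = P :=
    (Subgroup.eq_of_le_of_card_ge (Subgroup.le_centralizer P) (by rw [hC, hP])).symm
  rw [← hPC]
  intro w hw
  obtain ⟨i, hi⟩ := Subgroup.mem_zpowers_iff.mp (mem_zpowers_of_prime_card hP
    (g := (⟨x, hx⟩ : ↥P)) (g' := ⟨w, hw⟩) fun h => hx1 (congrArg Subtype.val h))
  have hw' : w = x ^ i := by simpa using (congrArg Subtype.val hi).symm
  rw [hw']
  exact ((hc.zpow_right i).symm).eq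

theorem conj_notMem {g : G} (h : ¬ 7 ∣ orderOf g) (hg1 : g ≠ 1) (y : G) : y⁻¹ * g * y ∉ P := fun hy => by
  have h1 := Subgroup.orderOf_dvd_natCard P hy
  rw [hP, show y⁻¹ * g * y = (MulAut.conj y⁻¹) g by simp, (MulAut.conj y⁻¹).orderOf_eq] at h1
  rcases (Nat.dvd_prime (by norm_num)).1 h1 with h1 | h1
  · exact hg1 (orderOf_eq_one_iff.1 h1)
  · exact h (by rw [h1])

/-- The normalizer of `P` has no involution. -/
theorem sum_alpha_eq_zero (l : ↥P →* ℂˣ) (hl : l ≠ 1) {t : G} (ht : orderOf t = 2) :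
    ∑ h : G, alpha P l (t * (h * t * h⁻¹)) = 0 := by
  classical
  have hord : ∀ y : G, orderOf (y⁻¹ * t * y) = 2 := fun y => by
    rw [show y⁻¹ * t * y = (MulAut.conj y⁻¹) t by simp, (MulAut.conj y⁻¹).orderOf_eq, ht]
  have hnot : ∀ y : G, y⁻¹ * t * y ∉ Subgroup.normalizer (P : Set G) := fun y hy => by
    have := Subgroup.orderOf_dvd_natCard _ hy
    rw [hord, hN] at this
    omega
  simp only [alpha, CharInd.indFun_apply, ← Finset.mul_sum]
  rw [Finset.sum_comm, Finset.sum_eq_zero, mul_zero]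
  intro y _
  refine Eq.trans ?_ ((sum_ext_conj P (p := 7) (by norm_num) (by norm_num) hP hC l hl (hord y)).1 (hnot y))
  refine Fintype.sum_equiv (MulAut.conj y⁻¹).toEquiv _ _ fun h => ?_
  congr 1
  simp [mul_assoc]

/-- An element of order three and an involution whose class products meet `P`. -/
theorem exists_sum_alpha_eq (l : ↥P →* ℂˣ) {g : G} (hg : orderOf g = 3) (t : G) :
    ∃ z : ℂ, IsIntegral ℤ z ∧ ∑ h : G, alpha P l (g * (h * t * h⁻¹)) =
      ((Nat.card ↥(Subgroup.centralizer ({g} : Set G)) *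
        Nat.card ↥(Subgroup.centralizer ({t} : Set G)) : ℕ) : ℂ) * z := by
  classical
  let H := ↥(Subgroup.centralizer ({g} : Set G)) × ↥(Subgroup.centralizer ({t} : Set G))
  letI : MulAction H G :=
    { smul := fun c h => (c.1 : G) * h * (c.2 : G)⁻¹
      one_smul := fun h => by
        show ((1 : H).1 : G) * h * ((1 : H).2 : G)⁻¹ = h
        simp
      mul_smul := fun c c' h => by
        show ((c.1 * c'.1 : ↥(Subgroup.centralizer ({g} : Set G))) : G) * h *
            ((c.2 * c'.2 : ↥(Subgroup.centralizer ({t} : Set G))) : G)⁻¹ =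
          (c.1 : G) * ((c'.1 : G) * h * (c'.2 : G)⁻¹) * (c.2 : G)⁻¹
        simp [mul_assoc] }
  have hsmul : ∀ (c : H) (h : G), c • h = (c.1 : G) * h * (c.2 : G)⁻¹ := fun _ _ => rfl
  have hcl : Cfsg.IsClassFunction G (alpha P l) := CharInd.genChar_isClassFunction (genChar_alpha P l)
  obtain ⟨z, hz, hsum⟩ := sum_eq_card_mul (H := H) (fun h : G => alpha P l (g * (h * t * h⁻¹)))
    (fun c h => by
      have hc1 := Subgroup.mem_centralizer_singleton_iff.1 c.1.2
      have hc2 := Subgroup.mem_centralizer_singleton_iff.1 c.2.2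
      have e1 : (c.2 : G)⁻¹ * t * (c.2 : G) = t := by rw [mul_assoc, ← hc2]; group
      have e2 : (c.1 : G) * g * (c.1 : G)⁻¹ = g := by rw [hc1]; group
      have : g * ((c • h) * t * (c • h)⁻¹) = (c.1 : G) * (g * (h * t * h⁻¹)) * (c.1 : G)⁻¹ := by
        rw [hsmul]
        calc g * ((c.1 : G) * h * (c.2 : G)⁻¹ * t * ((c.1 : G) * h * (c.2 : G)⁻¹)⁻¹)
            = g * ((c.1 : G) * h * ((c.2 : G)⁻¹ * t * (c.2 : G)) * h⁻¹ * (c.1 : G)⁻¹) := by group
          _ = ((c.1 : G) * g * (c.1 : G)⁻¹) * ((c.1 : G) * h * t * h⁻¹ * (c.1 : G)⁻¹) := by rw [e1, e2]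
          _ = _ := by group
      show alpha P l (g * ((c • h) * t * (c • h)⁻¹)) = alpha P l (g * (h * t * h⁻¹))
      rw [this]
      exact hcl _ _)
    (fun c h hne hfix => by
      have hne' : alpha P l (g * (h * t * h⁻¹)) ≠ 0 := hne
      obtain ⟨y, hy⟩ : ∃ y : G, y⁻¹ * (g * (h * t * h⁻¹)) * y ∈ P := by
        by_contra hno
        push Not at hno
        exact hne' (alpha_eq_zero_of_conj_notMem P l hno)
      set z := g * (h * t * h⁻¹) with hzdef
      have hz1 : y⁻¹ * z * y ≠ 1 := fun e => by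
        have : z = 1 := by
          calc z = y * (y⁻¹ * z * y) * y⁻¹ := by group
            _ = 1 := by rw [e]; group
        exact hne' (by rw [this, alpha_one])
      set a := (c.1 : G) with ha
      rw [hsmul, ← ha] at hfix
      have hb : a = h * (c.2 : G) * h⁻¹ := by
        calc a = a * h * (c.2 : G)⁻¹ * ((c.2 : G) * h⁻¹) := by group
          _ = h * (c.2 : G) * h⁻¹ := by rw [hfix]; group
      have hag : Commute a g := Subgroup.mem_centralizer_singleton_iff.1 c.1.2
      have hat : Commute a (h * t * h⁻¹) := by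
        show a * (h * t * h⁻¹) = (h * t * h⁻¹) * a
        have hc2 : (c.2 : G) * t = t * (c.2 : G) := Subgroup.mem_centralizer_singleton_iff.1 c.2.2
        rw [hb]
        calc h * (c.2 : G) * h⁻¹ * (h * t * h⁻¹) = h * ((c.2 : G) * t) * h⁻¹ := by group
          _ = _ := by rw [hc2]; group
      have haz : Commute (y⁻¹ * a * y) (y⁻¹ * z * y) := by
        have h1 : a * z = z * a := (hag.mul_right hat).eq
        show y⁻¹ * a * y * (y⁻¹ * z * y) = y⁻¹ * z * y * (y⁻¹ * a * y)
        calc y⁻¹ * a * y * (y⁻¹ * z * y) = y⁻¹ * (a * z) * y := by group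
          _ = _ := by rw [h1]; group
      have haP := centralizer_eq_self hcard P hP hC hN hy hz1 haz
      have ha1 : a = 1 := by
        by_contra ha1
        have hne1 : y⁻¹ * a * y ≠ 1 := fun e => ha1 (by
          calc a = y * (y⁻¹ * a * y) * y⁻¹ := by group
            _ = 1 := by rw [e]; group)
        have hgP := centralizer_eq_self hcard P hP hC hN haP hne1 (c := y⁻¹ * g * y) (by
          show y⁻¹ * g * y * (y⁻¹ * a * y) = y⁻¹ * a * y * (y⁻¹ * g * y)
          calc y⁻¹ * g * y * (y⁻¹ * a * y) = y⁻¹ * (g * a) * y := by group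
            _ = _ := by rw [← hag.eq]; group)
        exact conj_notMem hcard P hP hC hN (g := g) (by rw [hg]; norm_num)
          (fun e => by rw [e, orderOf_one] at hg; omega) y hgP
      have hb1 : (c.2 : G) = 1 := by
        calc (c.2 : G) = h⁻¹ * a * h := by rw [hb]; group
          _ = 1 := by rw [ha1]; group
      exact Prod.ext (Subtype.ext ha1) (Subtype.ext hb1))
    (fun h => Char.isGeneralizedCharacter_isIntegral (genChar_alpha P l) _)
  exact ⟨z, hz, by rw [hsum, Nat.card_prod]⟩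

/-- A character with coefficient `-1` in `Ind (1 - l)` has it in every `Ind (1 - m)`. -/
theorem inner_eq_neg_one {χ : Cfsg.IrrCharacter G} {d : ℕ} (hd : (χ : G → ℂ) 1 = d) (hd6 : d = 6)
    {l : ↥P →* ℂˣ} (hl : l ≠ 1) (hχ : Cfsg.classInner (alpha P l) (χ : G → ℂ) = -1)
    {m : ↥P →* ℂˣ} (hm : m ≠ 1) : Cfsg.classInner (alpha P m) (χ : G → ℂ) = -1 := by
  classical
  have hN' : Nat.card ↥(Subgroup.normalizer (P : Set G)) = 7 * 3 := hN
  have h7 : Nat.Prime 7 := by norm_num
  haveI : Finite (↥P →* ℂˣ) := Char.monoidHom_complex_finite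
  letI : Fintype (↥P →* ℂˣ) := Fintype.ofFinite _
  haveI : Finite (Cfsg.IrrCharacter G) := CharInd.finite_irrCharacter
  letI : Fintype (Cfsg.IrrCharacter G) := Fintype.ofFinite _
  choose dg _ hdg using fun ψ : Cfsg.IrrCharacter G => Char.irr_one_pos ψ.2
  set f : (↥P →* ℂˣ) → ℂ := fun k => Cfsg.classInner (alpha P k) (χ : G → ℂ) with hf
  obtain ⟨r, hr1, hrinj, hrsum⟩ := exists_reps P h7 hP hC hN' (t := 2) (by norm_num) (by norm_num)
  have hrel : ∀ k k' : ↥P →* ℂˣ, Rel P k k' → f k = f k' := fun k k' h =>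
    alpha_inner_eq_of_rel P h (Char.irr_isClassFunction χ.2)
  have hcov : ∀ k : ↥P →* ℂˣ, k ≠ 1 → Rel P k (r 0) ∨ Rel P k (r 1) := by
    intro k hk
    by_contra hcon
    push Not at hcon
    have h := hrsum (fun x => if Rel P x k then 1 else 0)
      (if_neg fun h => hk (by
        obtain ⟨g, hg⟩ := (rel_equiv P).symm h
        rcases eq_or_ne k 1 with e | e
        · exact e
        · exfalso
          exact e (MonoidHom.ext fun x => by simpa using DFunLike.congr_fun hg x)))
      (fun x y hxy => by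
        simp only [show Rel P x k ↔ Rel P y k from
          ⟨fun h => (rel_equiv P).trans ((rel_equiv P).symm hxy) h, fun h => (rel_equiv P).trans hxy h⟩])
    rw [Fin.sum_univ_two, if_neg fun h => hcon.1 ((rel_equiv P).symm h),
      if_neg fun h => hcon.2 ((rel_equiv P).symm h), Finset.sum_boole] at h
    simp only [add_zero, mul_zero, Nat.cast_eq_zero, Finset.card_eq_zero] at h
    have : k ∈ Finset.univ.filter fun x => Rel P x k :=
      Finset.mem_filter.2 ⟨Finset.mem_univ _, (rel_equiv P).refl k⟩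
    rw [h] at this
    exact Finset.notMem_empty _ this
  have hint : ∀ i : Fin 2, ∃ z : ℤ, f (r i) = z ∧ -2 ≤ z ∧ z ≤ 2 := by
    intro i
    obtain ⟨a, ha, -, hnorm, -, -⟩ := exists_coeff P h7 hP hC hN' (hr1 i) dg hdg
    refine ⟨a χ, ha χ, ?_⟩
    have h1 : a χ * a χ ≤ ∑ ψ, a ψ * a ψ :=
      Finset.single_le_sum (f := fun ψ => a ψ * a ψ) (fun ψ _ => mul_self_nonneg _) (Finset.mem_univ χ)
    rw [hnorm] at h1
    norm_num at h1
    constructor <;> nlinarith
  obtain ⟨n, hn⟩ := sum_classInner_alpha P h7 hP hC hN' χ hd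
  have hsum : ∑ k, f k = 3 * (f (r 0) + f (r 1)) := by
    rw [hrsum f (by simp [f, alpha, dfun, CharInd.indFun_zero, Char.classInner_zero_left]) hrel,
      Fin.sum_univ_two]
    norm_num
  rw [show ∑ k : ↥P →* ℂˣ, Cfsg.classInner (alpha P k) (χ : G → ℂ) = ∑ k, f k from rfl, hsum, hd6] at hn
  obtain ⟨z₀, hz₀, h01, h02⟩ := hint 0
  obtain ⟨z₁, hz₁, h11, h12⟩ := hint 1
  rw [hz₀, hz₁] at hn
  have hn' : 3 * (z₀ + z₁) = 7 * (n : ℤ) - 6 := by exact_mod_cast hn
  have hl' : z₀ = -1 ∨ z₁ = -1 := by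
    rcases hcov l hl with h | h
    · left
      have := (hrel _ _ h).symm.trans hχ
      rw [hz₀] at this
      exact_mod_cast this
    · right
      have := (hrel _ _ h).symm.trans hχ
      rw [hz₁] at this
      exact_mod_cast this
  have hboth : z₀ = -1 ∧ z₁ = -1 := by omega
  rcases hcov m hm with h | h
  · exact (hrel _ _ h).trans (by rw [hz₀, hboth.1]; norm_num)
  · exact (hrel _ _ h).trans (by rw [hz₁, hboth.2]; norm_num)

end seven

omit hcard in
/-- A nonempty set of involution values is attached to every involution. -/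
theorem exists_values [Fintype (Cfsg.IrrCharacter G)] (hG : ¬ IsMulCommutative G)
    {dg : Cfsg.IrrCharacter G → ℕ} (hdg : ∀ χ : Cfsg.IrrCharacter G, (χ : G → ℂ) 1 = dg χ) {t : G}
    (ht : orderOf t = 2) :
    ∃ w : Cfsg.IrrCharacter G → ℤ, (∀ χ : Cfsg.IrrCharacter G, (χ : G → ℂ) t = w χ) ∧
      ∀ χ, 1 < dg χ → (4 : ℤ) ∣ (dg χ : ℤ) - w χ ∧ -(dg χ : ℤ) < w χ ∧ w χ < dg χ := by
  choose w hw _ using fun χ : Cfsg.IrrCharacter G =>
    exists_involution_value (Char.isCharacter_of_irr χ.2) (hdg χ) ht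
  refine ⟨w, hw, fun χ h => ?_⟩
  obtain ⟨v, hv, h1, h2, h3⟩ := involution_value hG χ.2 (hdg χ) h ht
  obtain rfl : w χ = v := by exact_mod_cast (hw χ).symm.trans hv
  exact ⟨h1, h2, h3⟩

section series

variable [Fintype (Cfsg.IrrCharacter G)] {P : Subgroup G} {hP : Nat.card ↥P = 7}
  {hC : Nat.card ↥(Subgroup.centralizer (P : Set G)) = 7}
  {hN : Nat.card ↥(Subgroup.normalizer (P : Set G)) = 21}
  {dg : Cfsg.IrrCharacter G → ℕ} (hdg : ∀ χ : Cfsg.IrrCharacter G, (χ : G → ℂ) 1 = dg χ)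
  {M : Fin 2 → Cfsg.IrrCharacter G} {i₀ : Fin 2} (hdM : ∀ i, dg (M i) = dg (M i₀))
  (hvan : ∀ g : G, (∀ y : G, y⁻¹ * g * y ∉ P) → ∀ i, (M i : G → ℂ) g = (M i₀ : G → ℂ) g)
  {l : ↥P →* ℂˣ} {a : Cfsg.IrrCharacter G → ℤ}
  (hexp : alpha P l = ∑ χ : Cfsg.IrrCharacter G, (a χ : ℂ) • (χ : G → ℂ)) (hl : l ≠ 1)

include hexp in
omit hcard in
theorem sum_alpha_expand (x y : G) : ∑ h : G, alpha P l (x * (h * y * h⁻¹)) =
    (Nat.card G : ℂ) * ∑ χ : Cfsg.IrrCharacter G,
      (a χ : ℂ) * ((χ : G → ℂ) x * (χ : G → ℂ) y / (χ : G → ℂ) 1) := by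
  simp only [hexp, Finset.sum_apply, Pi.smul_apply, smul_eq_mul]
  rw [Finset.sum_comm, Finset.mul_sum]
  refine Finset.sum_congr rfl fun χ _ => ?_
  rw [← Finset.mul_sum, BlocksChar.sum_conj_mul χ.2 x y]
  ring

include hP hC hN hexp hl in
/-- The two relations at an involution. -/
theorem involution_relations {t : G} (ht : orderOf t = 2) :
    ∑ χ : Cfsg.IrrCharacter G, (a χ : ℂ) * (χ : G → ℂ) t = 0 ∧
    ∑ χ : Cfsg.IrrCharacter G, (a χ : ℂ) * ((χ : G → ℂ) t * (χ : G → ℂ) t / (χ : G → ℂ) 1) = 0 := by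
  constructor
  · have h0 := congrFun hexp t
    rw [alpha_eq_zero_of_conj_notMem P l (conj_notMem hcard P hP hC hN (g := t) (by rw [ht]; norm_num)
        (fun e => by rw [e, orderOf_one] at ht; omega)), Finset.sum_apply] at h0
    simpa using h0.symm
  · have h := sum_alpha_eq_zero hcard P hP hC hN l hl ht
    rw [sum_alpha_expand hexp] at h
    exact (mul_eq_zero.1 h).resolve_left Char.card_ne_zero_complex

include hdg hdM hvan hexp hl hP hC hN in
/-- The degrees 18, 8, 27 do not occur. -/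
theorem false_of_eighteen {χa χb : Cfsg.IrrCharacter G} (hd : dg (M i₀) = 18) (hda : dg χa = 8)
    (hdb : dg χb = 27)
    (hF : ∀ F : Cfsg.IrrCharacter G → ℂ, (∀ i, F (M i) = F (M i₀)) →
      ∑ χ, (a χ : ℂ) * F χ = F (Char.trivialIrr G) + F (M i₀) + F χa - F χb) : False := by
  classical
  obtain ⟨t, ht, -⟩ := exists_involution_dvd_centralizer (G := G) (a := 5) (by norm_num)
    (by rw [hcard]; norm_num)
  obtain ⟨w, hw, hwb⟩ := exists_values (not_comm hcard) hdg ht
  have ht1 : t ≠ 1 := fun e => by rw [e, orderOf_one] at ht; omega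
  obtain ⟨h1, h2⟩ := involution_relations hcard (hP := hP) (hC := hC) (hN := hN) hexp hl ht
  have hv : ∀ i, (M i : G → ℂ) t = (M i₀ : G → ℂ) t :=
    hvan t (conj_notMem hcard P hP hC hN (by rw [ht]; norm_num) ht1)
  rw [hF _ hv] at h1
  rw [hF _ fun i => by rw [hv i, hdg, hdg, hdM i]] at h2
  simp only [hw, hdg, hd, hda, hdb] at h1 h2
  obtain ⟨hu, hu1, hu2⟩ := hwb (M i₀) (by rw [hd]; norm_num)
  obtain ⟨hv', hv1, hv2⟩ := hwb χa (by rw [hda]; norm_num)
  obtain ⟨hw', hw1, hw2⟩ := hwb χb (by rw [hdb]; norm_num)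
  rw [hd] at hu hu1 hu2; rw [hda] at hv' hv1 hv2; rw [hdb] at hw' hw1 hw2
  have hwT : (w (Char.trivialIrr G) : ℂ) = 1 := (hw _).symm
  have hdT : ((dg (Char.trivialIrr G) : ℕ) : ℂ) = 1 := (hdg _).symm
  rw [hwT] at h1 h2
  rw [hdT] at h2
  have e1 : w χb = 1 + w (M i₀) + w χa := by
    have h : ((w χb : ℤ) : ℂ) = ((1 + w (M i₀) + w χa : ℤ) : ℂ) := by
      push_cast at h1 ⊢; linear_combination -h1
    exact_mod_cast h
  have e2 : 216 + 12 * w (M i₀) ^ 2 + 27 * w χa ^ 2 - 8 * w χb ^ 2 = 0 := by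
    have h : ((216 + 12 * w (M i₀) ^ 2 + 27 * w χa ^ 2 - 8 * w χb ^ 2 : ℤ) : ℂ) = ((0 : ℤ) : ℂ) := by
      push_cast at h2 ⊢; linear_combination 216 * h2
    exact_mod_cast h
  obtain ⟨i, hi, hu'⟩ : ∃ i : ℕ, i < 9 ∧ w (M i₀) = 4 * (i : ℤ) - 14 :=
    ⟨((w (M i₀) + 14) / 4).toNat, by omega, by omega⟩
  have hmem : w χa ∈ [(-4 : ℤ), 0, 4] := by
    simp only [List.mem_cons, List.not_mem_nil, or_false]; omega
  have h := values_eighteen i hi (w χa) hmem
  rw [← hu', ← e1] at h
  rcases h with h | h | h | h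
  · exact h e2
  all_goals omega

include hdg hdM hvan hexp hl hP hC hN in
/-- The degrees 32, 6, 27. -/
theorem main_thirtyTwo {χ6 χ27 : Cfsg.IrrCharacter G} (h6 : dg χ6 = 6) (h27 : dg χ27 = 27)
    (h32 : dg (M i₀) = 32)
    (hF : ∀ F : Cfsg.IrrCharacter G → ℂ, (∀ i, F (M i) = F (M i₀)) →
      ∑ χ, (a χ : ℂ) * F χ = F (Char.trivialIrr G) + F (M i₀) - F χ6 - F χ27)
    (hFle : ∀ F : Cfsg.IrrCharacter G → ℝ, (∀ χ, 0 ≤ F χ) →
      F (Char.trivialIrr G) + ∑ i, F (M i) + (F χ6 + F χ27) ≤ ∑ χ, F χ)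
    (ha6 : a χ6 = -1) :
    ∃ χ : G → ℂ, Cfsg.IsIrrCharacter G χ ∧ χ 1 = 6 ∧ (∀ g, conj (χ g) = χ g) ∧
      (∀ (E : Subgroup G) (t : G), Nat.card E = 9 → orderOf t = 2 → ¬ ∀ e ∈ E, Commute t e) ∧
      (∀ g t : G, orderOf g = 3 → χ g = 0 → orderOf t = 2 → ¬ Commute t g) := by
  classical
  have hG := not_comm hcard
  have hvanish : ∀ x : G, 3 ∣ orderOf x → (χ27 : G → ℂ) x = 0 :=
    Char.irr_defect_zero_vanish' χ27.2 (p := 3) (n := 3) Nat.prime_three (by rw [hcard]; norm_num)
      (by rw [hdg, h27]) (by norm_num)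
  -- the values at involutions
  have hinv : ∀ t : G, orderOf t = 2 →
      (M i₀ : G → ℂ) t = 0 ∧ (χ6 : G → ℂ) t = -2 ∧ (χ27 : G → ℂ) t = 3 ∧
      ∀ i, (M i : G → ℂ) t = (M i₀ : G → ℂ) t := by
    intro t ht
    obtain ⟨w, hw, hwb⟩ := exists_values hG hdg ht
    have ht1 : t ≠ 1 := fun e => by rw [e, orderOf_one] at ht; omega
    obtain ⟨h1, h2⟩ := involution_relations hcard (hP := hP) (hC := hC) (hN := hN) hexp hl ht
    have hv : ∀ i, (M i : G → ℂ) t = (M i₀ : G → ℂ) t :=
      hvan t (conj_notMem hcard P hP hC hN (by rw [ht]; norm_num) ht1)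
    rw [hF _ hv] at h1
    rw [hF _ fun i => by rw [hv i, hdg, hdg, hdM i]] at h2
    simp only [hw, hdg, h6, h27, h32] at h1 h2
    obtain ⟨hu, hu1, hu2⟩ := hwb (M i₀) (by rw [h32]; norm_num)
    obtain ⟨hv', hv1, hv2⟩ := hwb χ6 (by rw [h6]; norm_num)
    obtain ⟨hw', hw1, hw2⟩ := hwb χ27 (by rw [h27]; norm_num)
    rw [h32] at hu hu1 hu2; rw [h6] at hv' hv1 hv2; rw [h27] at hw' hw1 hw2
    have hwT : (w (Char.trivialIrr G) : ℂ) = 1 := (hw _).symm
    have hdT : ((dg (Char.trivialIrr G) : ℕ) : ℂ) = 1 := (hdg _).symm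
    rw [hwT] at h1 h2
    rw [hdT] at h2
    have e1 : w χ27 = 1 + w (M i₀) - w χ6 := by
      have h : ((w χ27 : ℤ) : ℂ) = ((1 + w (M i₀) - w χ6 : ℤ) : ℂ) := by
        push_cast at h1 ⊢; linear_combination -h1
      exact_mod_cast h
    have e2 : 5184 + 162 * w (M i₀) ^ 2 - 864 * w χ6 ^ 2 - 192 * w χ27 ^ 2 = 0 := by
      have h : ((5184 + 162 * w (M i₀) ^ 2 - 864 * w χ6 ^ 2 - 192 * w χ27 ^ 2 : ℤ) : ℂ) =
          ((0 : ℤ) : ℂ) := by
        push_cast at h2 ⊢; linear_combination 5184 * h2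
      exact_mod_cast h
    obtain ⟨i, hi, hu'⟩ : ∃ i : ℕ, i < 15 ∧ w (M i₀) = 4 * (i : ℤ) - 28 :=
      ⟨((w (M i₀) + 28) / 4).toNat, by omega, by omega⟩
    have hmem : w χ6 ∈ [(-2 : ℤ), 2] := by
      simp only [List.mem_cons, List.not_mem_nil, or_false]; omega
    have h := values_thirtyTwo i hi (w χ6) hmem
    rw [← hu', ← e1] at h
    rcases h e2 hw1 hw2 hw' with ⟨a1, a2, a3⟩ | ⟨a1, a2, a3⟩
    · exact ⟨by rw [hw, a1]; norm_num, by rw [hw, a2]; norm_num, by rw [hw, a3]; norm_num, hv⟩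
    · exfalso
      have hsum := sum_sq_involution t w hw
      have hle := hFle (fun χ => (w χ : ℝ) ^ 2) fun χ => sq_nonneg _
      have hwM : ∀ i, w (M i) = w (M i₀) := fun i => by
        have h := hv i; rw [hw, hw] at h; exact_mod_cast h
      simp only [hwM, Fin.sum_univ_two, a1, a2, a3, hsum] at hle
      set C := Subgroup.centralizer ({t} : Set G) with hCdef
      have hge : 742 ≤ Nat.card ↥C := by
        have : ((742 : ℕ) : ℝ) ≤ (Nat.card ↥C : ℝ) := by
          have := sq_nonneg ((w (Char.trivialIrr G) : ℝ))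
          have hT : (w (Char.trivialIrr G) : ℝ) = 1 := by
            have h1' : w (Char.trivialIrr G) = 1 := by exact_mod_cast hwT
            rw [h1']; norm_num
          rw [hT] at hle
          norm_num at hle ⊢
          linarith
        exact_mod_cast this
      have hlt := centralizer_lt hG ht
      rw [hcard, ← hCdef] at hlt
      have hdvd : Nat.card ↥C ∣ 6048 := hcard ▸ Subgroup.card_subgroup_dvd_card C
      have h7' : ¬ 7 ∣ Nat.card ↥C := fun h7' => by
        haveI := Fact.mk (by norm_num : Nat.Prime 7)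
        obtain ⟨x, hx⟩ := exists_prime_orderOf_dvd_card' (G := ↥C) 7 h7'
        let Q : Sylow 7 G := Sylow.ofCard P (by
          rw [hP, hcard, show Nat.factorization 6048 7 = 1 by
            rw [show (6048 : ℕ) = 7 * 864 by norm_num, Nat.factorization_mul (by norm_num) (by norm_num)]
            simp [Nat.Prime.factorization_self (by norm_num : Nat.Prime 7),
              Nat.factorization_eq_zero_of_not_dvd (show ¬ 7 ∣ 864 by norm_num)]]
          norm_num)
        have hx' : orderOf (x : G) = 7 := by rw [Subgroup.orderOf_coe, hx]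
        have hpg : IsPGroup 7 (Subgroup.zpowers (x : G)) :=
          IsPGroup.of_card (n := 1) (by rw [Nat.card_zpowers, hx', pow_one])
        obtain ⟨R, hR⟩ := hpg.exists_le_sylow
        obtain ⟨y, hy⟩ := MulAction.exists_smul_eq G R Q
        have hxP : y * (x : G) * y⁻¹ ∈ P := by
          have h := Subgroup.smul_mem_pointwise_smul (x : G) (MulAut.conj y) _
            (hR (Subgroup.mem_zpowers _))
          rw [show MulAut.conj y • (R : Subgroup G) = ((y • R : Sylow 7 G) : Subgroup G) from rfl, hy] at h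
          simpa [MulAut.smul_def, Q] using h
        have hxt : Commute (x : G) t := Subgroup.mem_centralizer_singleton_iff.1 x.2
        refine conj_notMem hcard P hP hC hN (g := t) (by rw [ht]; norm_num) ht1 y⁻¹ ?_
        rw [inv_inv]
        refine centralizer_eq_self hcard P hP hC hN hxP (fun e => ?_) ?_
        · rw [conj_eq_one_iff] at e
          rw [e, orderOf_one] at hx'
          omega
        · show y * t * y⁻¹ * (y * x * y⁻¹) = y * x * y⁻¹ * (y * t * y⁻¹)
          calc y * t * y⁻¹ * (y * (x : G) * y⁻¹) = y * (t * x) * y⁻¹ := by group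
            _ = _ := by rw [← hxt.eq]; group
      have hset : ∀ m ∈ (Nat.divisors 6048), 742 ≤ m → m < 6048 → ¬ 7 ∣ m → m = 864 := by decide +kernel
      exact card_ne_864 hcard C (hset _ (Nat.mem_divisors.2 ⟨hdvd, by norm_num⟩) hge hlt h7')
  refine ⟨χ6, χ6.2, by rw [hdg, h6]; norm_num, ?_, ?_, ?_⟩
  · -- real values
    let χc : Cfsg.IrrCharacter G := ⟨_, Char.isIrrCharacter_conjFun χ6.2⟩
    have hcoef : ∀ χ : Cfsg.IrrCharacter G, Cfsg.classInner (alpha P l) (χ : G → ℂ) = a χ := fun χ => by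
      rw [hexp, CharInd.classInner_irrSum]
    have hl' : l⁻¹ ≠ 1 := fun e => hl (MonoidHom.ext fun x => by simpa using DFunLike.congr_fun e x)
    have hm := inner_eq_neg_one hcard P hP hC hN (χ := χ6) (hdg χ6) h6 hl (by rw [hcoef, ha6]; norm_num)
      hl'
    have hconj : (fun g => conj (alpha P l g)) = alpha P l⁻¹ := by
      rw [alpha, alpha, CharInd.indFun_conj]
      congr 1
      funext x
      simp only [dfun_apply, map_sub, map_one, MonoidHom.inv_apply, Units.val_inv_eq_inv_val]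
      congr 1
      refine (Complex.inv_eq_conj ?_).symm
      refine Complex.norm_eq_one_of_pow_eq_one ?_ (n := 7) (by norm_num)
      rw [← Units.val_pow_eq_pow_val, ← map_pow, ← hP, pow_card_eq_one', map_one, Units.val_one]
    have hac : a χc = -1 := by
      have h1 : Cfsg.classInner (alpha P l) (χc : G → ℂ) = -1 := by
        have h2 := congrArg conj hm
        rw [← hconj, map_neg, map_one] at h2
        refine Eq.trans ?_ h2
        simp only [Cfsg.classInner, map_mul, map_sum, map_inv₀, map_natCast, Complex.conj_conj, χc]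
      rw [hcoef] at h1
      exact_mod_cast h1
    have hdc : dg χc = 6 := by
      have h := hdg χc
      rw [show (χc : G → ℂ) 1 = conj ((χ6 : G → ℂ) 1) from rfl, hdg, h6, map_natCast] at h
      exact_mod_cast h.symm
    have heq : χc = χ6 := by
      by_contra hne
      have h := hF (fun χ => if χ = χc then 1 else 0) fun i => by
        rw [if_neg fun e => by have := congrArg dg e; rw [hdM, h32, hdc] at this; omega,
          if_neg fun e => by have := congrArg dg e; rw [h32, hdc] at this; omega]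
      have hT : Char.trivialIrr G ≠ χc := fun e => by
        have h1 := congrArg dg e
        have h2 : ((dg (Char.trivialIrr G) : ℕ) : ℂ) = ((1 : ℕ) : ℂ) := by rw [← hdg]; simp [Char.trivialIrr]
        rw [hdc] at h1
        have : dg (Char.trivialIrr G) = 1 := by exact_mod_cast h2
        omega
      simp only [mul_ite, mul_one, mul_zero, Finset.sum_ite_eq', Finset.mem_univ, if_true, if_neg hT,
        if_neg (show M i₀ ≠ χc from fun e => by have := congrArg dg e; rw [h32, hdc] at this; omega),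
        if_neg (Ne.symm hne),
        if_neg (show χ27 ≠ χc from fun e => by have := congrArg dg e; rw [h27, hdc] at this; omega),
        hac] at h
      norm_num at h
    exact fun g => congrFun (congrArg Subtype.val heq) g
  · -- no involution centralizes nine elements
    intro E t hE ht hcomm
    have hdisj : Disjoint E (Subgroup.zpowers t) := Subgroup.disjoint_of_coprime_natCard
      (by rw [hE, Nat.card_zpowers, ht]; norm_num)
    let φ : ↥E × ↥(Subgroup.zpowers t) →* G :=
      MonoidHom.noncommCoprod E.subtype (Subgroup.zpowers t).subtype (by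
        rintro ⟨e, he⟩ ⟨s, hs⟩
        obtain ⟨k, rfl⟩ := Subgroup.mem_zpowers_iff.1 hs
        exact (hcomm e he).symm.zpow_right k)
    obtain ⟨m, hm⟩ := Char.isCharacter_classInner_nat
      (Char.isCharacter_comp (Char.isCharacter_of_irr χ27.2) φ) (Char.trivialIrr _)
    rw [Cfsg.classInner] at hm
    have hval : ∀ e : ↥E, e ≠ 1 → ∀ s : ↥(Subgroup.zpowers t), (χ27 : G → ℂ) (φ (e, s)) = 0 := by
      intro e he s
      refine hvanish _ ?_
      have hφ : φ (e, s) = (e : G) * (s : G) := rfl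
      have hco : Commute (e : G) (s : G) := by
        obtain ⟨k, hk⟩ := Subgroup.mem_zpowers_iff.1 s.2
        rw [← hk]
        exact (hcomm e e.2).symm.zpow_right k
      have h1 : orderOf (e : G) ∣ 9 := hE ▸ Subgroup.orderOf_dvd_natCard E e.2
      have h2 : orderOf (s : G) ∣ 2 := by
        have := Subgroup.orderOf_dvd_natCard _ s.2
        rwa [Nat.card_zpowers, ht] at this
      have h3 : Nat.Coprime (orderOf (e : G)) (orderOf (s : G)) :=
        Nat.Coprime.coprime_dvd_left h1 (Nat.Coprime.coprime_dvd_right h2 (by norm_num))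
      rw [hφ, hco.orderOf_mul_eq_mul_orderOf_of_coprime h3]
      refine dvd_mul_of_dvd_left ?_ _
      have hne : orderOf (e : G) ≠ 1 := fun h => he (Subtype.ext (orderOf_eq_one_iff.1 h))
      obtain ⟨k, hk, hk'⟩ := (Nat.dvd_prime_pow Nat.prime_three).1 (show orderOf (e : G) ∣ 3 ^ 2 from h1)
      rw [hk']
      rcases k with _ | k
      · exact absurd (by simpa using hk') hne
      · exact dvd_pow_self 3 (Nat.succ_ne_zero k)
    obtain ⟨-, -, ht27, -⟩ := hinv t ht
    simp only [Char.trivialIrr, map_one, mul_one, Function.comp_apply, Fintype.sum_prod_type,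
      Nat.card_prod, hE, Nat.card_zpowers, ht] at hm
    rw [Fintype.sum_eq_single 1 (fun e he => Finset.sum_eq_zero fun s _ => hval e he s)] at hm
    have htm : t ∈ Subgroup.zpowers t := Subgroup.mem_zpowers t
    have huniv : (Finset.univ : Finset ↥(Subgroup.zpowers t)) = {1, ⟨t, htm⟩} := by
      symm
      refine Finset.eq_univ_of_card _ ?_
      rw [Finset.card_pair (fun e => by
        have := congrArg Subtype.val e
        simp at this
        rw [← this, orderOf_one] at ht
        omega), ← Nat.card_eq_fintype_card, Nat.card_zpowers, ht]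
    rw [huniv, Finset.sum_pair (fun e => by
        have := congrArg Subtype.val e
        simp at this
        rw [← this, orderOf_one] at ht
        omega)] at hm
    simp only [φ, MonoidHom.noncommCoprod_apply, Subgroup.coe_subtype, OneMemClass.coe_one, one_mul, hdg,
      h27, ht27] at hm
    norm_num at hm
    have h1 : (30 : ℂ) = ((18 * m : ℕ) : ℂ) := by push_cast; linear_combination 18 * hm
    have h2 : 30 = 18 * m := by exact_mod_cast h1
    omega
  · -- no involution centralizes a zero of the character of degree six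
    intro g t hg hg0 ht hcomm
    obtain ⟨u, hu, hu32⟩ := exists_involution_dvd_centralizer (G := G) (a := 5) (by norm_num)
      (by rw [hcard]; norm_num)
    obtain ⟨hu0, -, hu27, huM⟩ := hinv u hu
    have hg1 : g ≠ 1 := fun e => by rw [e, orderOf_one] at hg; omega
    obtain ⟨z, hz, hsum⟩ := exists_sum_alpha_eq hcard P hP hC hN l hg u
    rw [sum_alpha_expand hexp, hF _ fun i => by
      rw [huM i, hdg, hdg, hdM i, hvan g (conj_notMem hcard P hP hC hN (by rw [hg]; norm_num) hg1) i]] at hsum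
    simp only [hu0, hu27, hg0, hvanish g (by rw [hg]), mul_zero, zero_mul, zero_div, add_zero, sub_zero,
      show ∀ x, ((Char.trivialIrr G : Cfsg.IrrCharacter G) : G → ℂ) x = 1 from fun _ => rfl,
      one_mul, div_one, mul_one, hcard] at hsum
    set N := Nat.card ↥(Subgroup.centralizer ({g} : Set G)) *
      Nat.card ↥(Subgroup.centralizer ({u} : Set G)) with hNdef
    have hN0 : N ≠ 0 := Nat.mul_ne_zero Nat.card_pos.ne' Nat.card_pos.ne'
    have hdiv : N ∣ 6048 := Char.dvd_of_isIntegral_div hN0 (by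
      rw [hsum, mul_div_cancel_left₀ _ (Nat.cast_ne_zero.2 hN0)]; exact hz)
    have h2 : 2 ∣ Nat.card ↥(Subgroup.centralizer ({g} : Set G)) := by
      have := Subgroup.orderOf_dvd_natCard (Subgroup.centralizer ({g} : Set G))
        (x := t) (Subgroup.mem_centralizer_singleton_iff.2 hcomm.eq)
      rwa [ht] at this
    have : 64 ∣ 6048 := (Nat.mul_dvd_mul h2 hu32).trans hdiv
    norm_num at this

end series

/-- The characters of degrees 6 and 27 and their consequences. -/
theorem exists_chars (h9 : ∀ g : G, orderOf g ≠ 9) : ∃ χ : G → ℂ, Cfsg.IsIrrCharacter G χ ∧ χ 1 = 6 ∧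
    (∀ g, conj (χ g) = χ g) ∧
    (∀ (E : Subgroup G) (t : G), Nat.card E = 9 → orderOf t = 2 → ¬ ∀ e ∈ E, Commute t e) ∧
    (∀ g t : G, orderOf g = 3 → χ g = 0 → orderOf t = 2 → ¬ Commute t g) := by
  classical
  have hG := not_comm hcard
  obtain ⟨P, hP, hC, hN⟩ := exists_seven hcard
  have h7 : Nat.Prime 7 := by norm_num
  have hN' : Nat.card ↥(Subgroup.normalizer (P : Set G)) = 7 * 3 := hN
  haveI : Finite (Cfsg.IrrCharacter G) := CharInd.finite_irrCharacter
  letI : Fintype (Cfsg.IrrCharacter G) := Fintype.ofFinite _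
  choose dg hdg0 hdg hdgdvd using fun χ : Cfsg.IrrCharacter G => Char.irr_degree_dvd_card χ.2
  obtain ⟨l, ε, b, M, i₀, a, L, ⟨hl, hexp⟩, hε, hdM, hd, hL, hvan, hn, hF, hFle⟩ :=
    exists_char_data P h7 hP hC hN' hG (t := 2) (by norm_num) (by norm_num) le_rfl dg hdg
  set d := dg (M i₀) with hddef
  set c : ℤ := 2 * b + ε with hcdef
  norm_num at hn
  -- two further constituents
  have hLnn : 0 ≤ (L.map fun χ => a χ ^ 2).sum := List.sum_nonneg fun x hx => by
    obtain ⟨y, -, rfl⟩ := List.mem_map.mp hx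
    exact sq_nonneg _
  have hb1 : -1 ≤ b ∧ b ≤ 1 := by constructor <;> nlinarith [sq_nonneg (b + ε)]
  have hshape : c ∈ [(1 : ℤ), -1] ∧ ((d : ℤ) + 3 * c) % 7 = 0 ∧
      (L.map fun χ => a χ ^ 2).sum = 2 := by
    have h := hd.2
    simp only [List.mem_cons, List.not_mem_nil, or_false, hcdef]
    obtain ⟨h1, h2⟩ := hb1
    rcases hε with rfl | rfl <;> interval_cases b <;> norm_num at hn h ⊢ <;> omega
  obtain ⟨hc, hd3, hL2⟩ := hshape
  obtain ⟨χa, χb, hLab, ha, hb⟩ : ∃ χa χb, L = [χa, χb] ∧ (a χa = 1 ∨ a χa = -1) ∧ (a χb = 1 ∨ a χb = -1) := by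
    have hpos : ∀ χ ∈ L, 1 ≤ a χ ^ 2 := fun χ h => by
      have : 0 < a χ ^ 2 := sq_pos_iff.mpr (hL χ h).2.2
      omega
    rcases L with _ | ⟨χa, _ | ⟨χb, _ | ⟨χc, L⟩⟩⟩
    · simp at hL2
    · exfalso
      simp at hL2
      have h2 : a χa < 2 := by nlinarith
      have h3 : -2 < a χa := by nlinarith
      interval_cases (a χa) <;> norm_num at hL2
    · simp only [List.map_cons, List.map_nil, List.sum_cons, List.sum_nil, add_zero] at hL2
      have h1 := hpos χa (by simp)
      have h2 := hpos χb (by simp)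
      exact ⟨χa, χb, rfl, sq_eq_one_iff.mp (by omega), sq_eq_one_iff.mp (by omega)⟩
    · exfalso
      simp only [List.map_cons, List.sum_cons] at hL2
      have h1 := hpos χa (by simp)
      have h2 := hpos χb (by simp)
      have h3 := hpos χc (by simp)
      have h4 : 0 ≤ (L.map fun χ => a χ ^ 2).sum := List.sum_nonneg fun x hx => by
        obtain ⟨y, -, rfl⟩ := List.mem_map.mp hx
        exact sq_nonneg _
      omega
  subst hLab
  have hdgT : dg (Char.trivialIrr G) = 1 := by
    have h := (hdg (Char.trivialIrr G)).symm.trans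
      (show ((Char.trivialIrr G : Cfsg.IrrCharacter G) : G → ℂ) 1 = 1 from rfl)
    exact_mod_cast h
  have hF' : ∀ F : Cfsg.IrrCharacter G → ℂ, (∀ i, F (M i) = F (M i₀)) →
      ∑ χ, (a χ : ℂ) * F χ =
        F (Char.trivialIrr G) + (c : ℂ) * F (M i₀) + ((a χa : ℂ) * F χa + (a χb : ℂ) * F χb) := by
    intro F h
    rw [hF F h]
    simp [hcdef]
  -- the degree relation
  have hdeg : 1 + c * d + (a χa * dg χa + a χb * dg χb) = 0 := by
    have h := hF' (fun χ => ((dg χ : ℤ) : ℂ)) fun i => by rw [hdM i]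
    have h0 := congrFun hexp 1
    rw [alpha_one, Finset.sum_apply] at h0
    simp only [Pi.smul_apply, smul_eq_mul, hdg] at h0
    push_cast at h
    rw [← h0, hdgT] at h
    apply Int.cast_injective (α := ℂ)
    push_cast at h ⊢
    linear_combination -h
  have hsq : 1 + 2 * d ^ 2 + (dg χa ^ 2 + dg χb ^ 2) ≤ 6048 := by
    have h := hFle (fun χ => (dg χ : ℝ) ^ 2) fun χ => sq_nonneg _
    have htot : ∑ χ : Cfsg.IrrCharacter G, (dg χ : ℝ) ^ 2 = Nat.card G := by
      have h := Char.sum_irr_degree_sq (G := G)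
      simp only [hdg] at h
      exact_mod_cast h
    simp only [htot, hdM, hdgT, hcard, List.map_cons, List.map_nil, List.sum_cons, List.sum_nil,
      Fin.sum_univ_two, ← hddef] at h
    have h' : ((1 + 2 * d ^ 2 + (dg χa ^ 2 + dg χb ^ 2) : ℕ) : ℝ) ≤ ((6048 : ℕ) : ℝ) := by
      push_cast at h ⊢
      linarith
    exact_mod_cast h'
  have hmem : ∀ χ : Cfsg.IrrCharacter G, 1 < dg χ → dg χ ^ 2 ≤ 6048 → dg χ ∈ degs := fun χ h1 h2 =>
    mem_degs _ (by nlinarith) h1 (hcard ▸ hdgdvd χ)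
  have hsg : ∀ x : ℤ, x = 1 ∨ x = -1 → x ∈ [(1 : ℤ), -1] := fun x h => by simpa using h
  have hcases := degree_cases d (hmem _ hd.1 (by nlinarith)) c hc hd3 _
    (hmem χa (hL _ (by simp)).1 (by nlinarith)) _ (hsg _ ha) (Int.emod_eq_zero_of_dvd (hL _ (by simp)).2.1) _
    (hmem χb (hL _ (by simp)).1 (by nlinarith)) _ (hsg _ hb) (Int.emod_eq_zero_of_dvd (hL _ (by simp)).2.1)
    hdeg hsq
  -- a degree three character is impossible
  have hd' : d ≠ 3 := by
    intro hd3'
    haveI := Fact.mk Nat.prime_three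
    obtain ⟨R, hR⟩ := Sylow.exists_subgroup_card_pow_prime 3 (n := 2) (G := G) (by rw [hcard]; norm_num)
    obtain ⟨m, hm⟩ := Char.isCharacter_classInner_nat
      (Char.isCharacter_restrict (Char.isCharacter_of_irr (M i₀).2) R) (Char.trivialIrr ↥R)
    have hval : ∀ x : ↥R, (M i₀ : G → ℂ) x = if x = 1 then 3 else 0 := fun x => by
      by_cases hx : x = 1
      · rw [if_pos hx, hx, OneMemClass.coe_one, hdg, ← hddef, hd3']; norm_num
      rw [if_neg hx]
      refine degree_three_value hG (M i₀).2 (by rw [hdg, ← hddef, hd3']; norm_num) ?_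
      have h1 : orderOf x ∣ 3 ^ 2 := hR ▸ orderOf_dvd_natCard x
      obtain ⟨k, hk, hk'⟩ := (Nat.dvd_prime_pow Nat.prime_three).1 h1
      rw [Subgroup.orderOf_coe]
      interval_cases k
      · exact absurd (orderOf_eq_one_iff.1 (by simpa using hk')) hx
      · simpa using hk'
      · exact absurd (by simpa [Subgroup.orderOf_coe] using hk') (h9 x)
    rw [Cfsg.classInner] at hm
    simp only [hval, Char.trivialIrr, map_one, mul_one, Finset.sum_ite_eq', Finset.mem_univ, if_true,
      hR] at hm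
    norm_num at hm
    have h1 : (3 : ℂ) = ((9 * m : ℕ) : ℂ) := by push_cast; linear_combination 9 * hm
    have h2 : 3 = 9 * m := by exact_mod_cast h1
    omega
  obtain ⟨χ6, χ27, hd6, hd27, hd32, hFn⟩ :
      ∃ χ6 χ27, dg χ6 = 6 ∧ dg χ27 = 27 ∧ d = 32 ∧
        (∀ F : Cfsg.IrrCharacter G → ℂ, (∀ i, F (M i) = F (M i₀)) →
          ∑ χ, (a χ : ℂ) * F χ = F (Char.trivialIrr G) + F (M i₀) - F χ6 - F χ27) ∧
        (∀ F : Cfsg.IrrCharacter G → ℝ, (∀ χ, 0 ≤ F χ) →
          F (Char.trivialIrr G) + ∑ i, F (M i) + (F χ6 + F χ27) ≤ ∑ χ, F χ) ∧ a χ6 = -1 := by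
    simp only [List.mem_cons, List.not_mem_nil, or_false, Prod.mk.injEq] at hcases
    rcases hcases with h | h | h | h | h | h <;> obtain ⟨h1, h2, h3, h4, h5, h6⟩ := h
    · exact absurd h1 hd'
    · exact absurd h1 hd'
    · refine ⟨χa, χb, h3, h5, h1, fun F hh => ?_, fun F hh => ?_, h4⟩
      · rw [hF' F hh, h2, h4, h6]; push_cast; ring
      · have := hFle F hh; simpa using this
    · refine ⟨χb, χa, h5, h3, h1, fun F hh => ?_, fun F hh => ?_, h6⟩
      · rw [hF' F hh, h2, h4, h6]; push_cast; ring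
      · have := hFle F hh
        simp only [List.map_cons, List.map_nil, List.sum_cons, List.sum_nil, add_zero] at this
        linarith
    · exact (false_of_eighteen hcard (hP := hP) (hC := hC) (hN := hN) (χb := χb) (χa := χa) hdg hdM hvan hexp hl h1 h3 h5
        (fun F hh => by rw [hF' F hh, h2, h4, h6]; push_cast; ring)).elim
    · exact (false_of_eighteen hcard (hP := hP) (hC := hC) (hN := hN) (χb := χa) (χa := χb) hdg hdM hvan hexp hl h1 h5 h3
        (fun F hh => by rw [hF' F hh, h2, h4, h6]; push_cast; ring)).elim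
  obtain ⟨hF6, hFle6, ha6⟩ := hFn
  exact main_thirtyTwo hcard (hP := hP) (hC := hC) (hN := hN) hdg hdM hvan hexp hl hd6 hd27 hd32 hF6 hFle6 ha6

end Cfsg.Agent.G2Two
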