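import Cfsg.Agent.G2Two.Frame

/-!
# The simple group of order 6048 without elements of order 9 is unique
-/

set_option autoImplicit false
set_option linter.style.haveILetI false
set_option linter.unusedSectionVars false

noncomputable section

namespace Cfsg.Agent.G2Two

universe u v

/-- The table facts used below. -/
structure TableOk (K : KTab) (z : ℕ) : Prop where
  act_lt : ∀ x < 8, ∀ p < 27, K.act x p < 27
  kmul_lt : ∀ x < 8, ∀ y < 8, K.kmul x y < 8
  act_zero : ∀ x < 8, K.act x 0 = 0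
  rep_spec : ∀ n < 3, K.rep n < 27 ∧ K.orb (K.rep n) = n ∧ ∀ x < 8, K.orb (K.act x (K.rep n)) = n
  orb_spec : ∀ p < 28, K.orb p = 3 ∧ (p = 0 ∨ p = 9 ∨ p = 18 ∨ p = 27) ∨
    p < 27 ∧ K.orb p < 3 ∧ K.idx p < 8 ∧ K.act (K.idx p) (K.rep (K.orb p)) = p ∧ p ≠ 0 ∧ p ≠ 9 ∧ p ≠ 18
  z_lt : z < 8
  z_ne : z ≠ 0
  z_sq : K.kmul z z = 0
  z_unique : ∀ x < 8, K.kmul x x = 0 → x = 0 ∨ x = z
  z_fix : ∀ p < 27, K.act z p = p → p = 0 ∨ p = 9 ∨ p = 18
  z_fix_nine : K.act z 9 = 9

theorem tabZ_ok : TableOk tabZ 4 := by constructor <;> decide +kernel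

theorem tabQ_ok : TableOk tabQ 2 := by constructor <;> decide +kernel

theorem mulN_zero : ∀ x < 27, mulN x 0 = x ∧ mulN (invN x) x = 0 := by decide +kernel

theorem get5_succ (T i : ℕ) : get5 T (i + 1) = get5 (T / 32) i := by
  show (T >>> (5 * (i + 1))) &&& 31 = (T / 32) >>> (5 * i) &&& 31
  congr 1
  rw [Nat.mul_succ, add_comm, Nat.shiftRight_add]
  simp [Nat.shiftRight_eq_div_pow]

theorem get5_zero (T : ℕ) : get5 T 0 = T % 32 := by
  show (T >>> (5 * 0)) &&& 31 = _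
  rw [Nat.mul_zero, Nat.shiftRight_zero]
  exact Nat.and_two_pow_sub_one_eq_mod T 5

theorem get5_pack (s : ℕ → ℕ) (l : List ℕ) (hs : ∀ i ∈ l, s i < 32) (i : ℕ) (hi : i < l.length) :
    get5 (l.foldr (fun i acc => s i + 32 * acc) 0) i = s l[i] := by
  induction l generalizing i with
  | nil => simp at hi
  | cons a l ih =>
    have ha := hs a List.mem_cons_self
    rw [List.foldr_cons]
    rcases i with _ | i
    · rw [get5_zero]; simp only [List.getElem_cons_zero]; omega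
    · rw [get5_succ, show (s a + 32 * l.foldr (fun i acc => s i + 32 * acc) 0) / 32 =
        l.foldr (fun i acc => s i + 32 * acc) 0 by omega]
      exact ih (fun j hj => hs j (List.mem_cons_of_mem _ hj)) i (by simpa using hi)

theorem pack_congr {s s' : ℕ → ℕ} (h : ∀ i < 28, s i = s' i) : pack s = pack s' := by
  have : ∀ l : List ℕ, (∀ i ∈ l, i < 28) →
      l.foldr (fun i acc => s i + 32 * acc) 0 = l.foldr (fun i acc => s' i + 32 * acc) 0 := by
    intro l
    induction l with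
    | nil => intro; rfl
    | cons a l ih =>
      intro hl
      rw [List.foldr_cons, List.foldr_cons, ih fun i hi => hl i (List.mem_cons_of_mem _ hi),
        h a (hl a List.mem_cons_self)]
  exact this _ fun i hi => List.mem_range.1 hi

theorem trv_lt {v p : ℕ} (hv : v < 27) (hp : p < 28) : trv v p < 28 := by
  unfold trv
  by_cases h : p = 27
  · subst h; exact (by norm_num : (27 : ℕ) < 28)
  · have hb : Nat.beq p 27 = false := by
      cases hc : Nat.beq p 27
      · rfl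
      · exact absurd (Nat.eq_of_beq_eq_true hc) h
    rw [hb]
    exact (mulN_lt hv (by omega)).trans (by norm_num)

theorem trv_of_lt {v p : ℕ} (hp : p < 27) : trv v p = mulN v p := by
  unfold trv
  cases h : Nat.beq p 27
  · rfl
  · exact absurd (Nat.eq_of_beq_eq_true h) (by omega)

theorem trv_last (v : ℕ) : trv v 27 = 27 := rfl

namespace Frame

variable {G : Type u} [Group G] {K : KTab} (F : Frame G K)

theorem φ_inj {p q : ℕ} (hp : p < 27) (hq : q < 27) (h : F.φ p = F.φ q) : p = q :=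
  F.unique p hp q hq (by rw [h, inv_mul_cancel]; exact one_mem _)

/-- The points. -/
def pt (p : ℕ) : G ⧸ F.N := if p = 27 then ((1 : G) : G ⧸ F.N) else ((F.φ p * F.t : G) : G ⧸ F.N)

theorem pt_last : F.pt 27 = ((1 : G) : G ⧸ F.N) := if_pos rfl

theorem pt_lt {p : ℕ} (hp : p < 27) : F.pt p = ((F.φ p * F.t : G) : G ⧸ F.N) := if_neg (by omega)

theorem t_inv : F.t⁻¹ = F.t := inv_eq_of_mul_eq_one_right F.t_sq

theorem pt_inj {p q : ℕ} (hp : p < 28) (hq : q < 28) (h : F.pt p = F.pt q) : p = q := by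
  have key : ∀ r < 27, F.pt r ≠ F.pt 27 := fun r hr e => by
    rw [F.pt_last, F.pt_lt hr] at e
    have e' := QuotientGroup.eq.1 e.symm
    rw [inv_one, one_mul, Subgroup.mul_mem_cancel_left _ (F.φ_mem r hr)] at e'
    exact F.t_notMem e'
  rcases eq_or_ne p 27 with rfl | hp'
  · by_contra hne
    exact key q (by omega) h.symm
  rcases eq_or_ne q 27 with rfl | hq'
  · exact absurd h (key p (by omega))
  rw [F.pt_lt (by omega), F.pt_lt (by omega), QuotientGroup.eq] at h
  exact F.unique p (by omega) q (by omega) h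

theorem pt_surj (x : G ⧸ F.N) : ∃ p < 28, F.pt p = x := by
  obtain ⟨g, rfl⟩ := QuotientGroup.mk_surjective x
  by_cases hg : g ∈ F.N
  · refine ⟨27, by norm_num, ?_⟩
    rw [F.pt_last, QuotientGroup.eq, inv_one, one_mul]
    exact hg
  · obtain ⟨p, hp, h⟩ := F.points g hg
    exact ⟨p, by omega, by rw [F.pt_lt hp, QuotientGroup.eq]; exact h⟩

/-- The action of the involution on the points. -/
def σ (p : ℕ) : ℕ := (F.pt_surj (F.t • F.pt p)).choose

theorem σ_lt (p : ℕ) : F.σ p < 28 := (F.pt_surj (F.t • F.pt p)).choose_spec.1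

theorem pt_σ (p : ℕ) : F.pt (F.σ p) = F.t • F.pt p := (F.pt_surj (F.t • F.pt p)).choose_spec.2

theorem σ_eq {p q : ℕ} (hq : q < 28) (h : F.t • F.pt p = F.pt q) : F.σ p = q :=
  F.pt_inj (F.σ_lt p) hq (by rw [pt_σ, h])

theorem σσ {p : ℕ} (hp : p < 28) : F.σ (F.σ p) = p :=
  F.σ_eq hp (by rw [pt_σ, ← mul_smul, F.t_sq, one_smul])

theorem σ_zero : F.σ 0 = 27 := F.σ_eq (by norm_num) (by
  rw [F.pt_last, F.pt_lt (by norm_num), F.φ_zero, one_mul, MulAction.Quotient.smul_mk, smul_eq_mul, F.t_sq])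

theorem σ_last : F.σ 27 = 0 := by
  have h := F.σσ (p := 0) (by norm_num)
  rwa [F.σ_zero] at h

theorem σ_inj {p q : ℕ} (hp : p < 28) (hq : q < 28) (h : F.σ p = F.σ q) : p = q := by
  rw [← F.σσ hp, h, F.σσ hq]

theorem σ_lt' {p : ℕ} (hp : p < 28) (hp0 : p ≠ 0) : F.σ p < 27 := by
  have := F.σ_lt p
  by_contra hcon
  exact hp0 (F.σ_inj hp (by norm_num) (by rw [F.σ_zero]; omega))

theorem φ_smul {v p : ℕ} (hv : v < 27) (hp : p < 28) : F.φ v • F.pt p = F.pt (trv v p) := by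
  rcases eq_or_ne p 27 with rfl | hp'
  · rw [trv_last, F.pt_last, MulAction.Quotient.smul_mk, smul_eq_mul, mul_one, QuotientGroup.eq, mul_one]
    exact inv_mem (F.φ_mem v hv)
  · rw [trv_of_lt (by omega), F.pt_lt (by omega), F.pt_lt (mulN_lt hv (by omega)),
      MulAction.Quotient.smul_mk, smul_eq_mul, F.φ_mul v hv p (by omega), mul_assoc]

theorem κ_smul (hK : ∀ x < 8, ∀ p < 27, K.act x p < 27) {x p : ℕ} (hx : x < 8) (hp : p < 28) :
    F.κ x • F.pt p = F.pt (if p = 27 then 27 else K.act x p) := by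
  rcases eq_or_ne p 27 with rfl | hp'
  · rw [if_pos rfl, F.pt_last, MulAction.Quotient.smul_mk, smul_eq_mul, mul_one, QuotientGroup.eq, mul_one]
    exact inv_mem (F.κ_mem x hx)
  · obtain ⟨y, hy, e⟩ := F.t_norm x hx
    rw [if_neg hp', F.pt_lt (by omega), F.pt_lt (hK x hx p (by omega)), MulAction.Quotient.smul_mk,
      smul_eq_mul, ← F.act x hx p (by omega), eq_comm, QuotientGroup.eq,
      show (F.κ x * F.φ p * (F.κ x)⁻¹ * F.t)⁻¹ * (F.κ x * (F.φ p * F.t)) = F.t⁻¹ * F.κ x * F.t by group,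
      F.t_inv, e]
    exact F.κ_mem y hy

/-- The automorphism induced by the involution. -/
def τ (x : ℕ) : ℕ := if hx : x < 8 then (F.t_norm x hx).choose else 0

theorem τ_lt {x : ℕ} (hx : x < 8) : F.τ x < 8 := by
  rw [τ, dif_pos hx]; exact (F.t_norm x hx).choose_spec.1

theorem τ_spec {x : ℕ} (hx : x < 8) : F.t * F.κ x * F.t = F.κ (F.τ x) := by
  rw [τ, dif_pos hx]; exact (F.t_norm x hx).choose_spec.2

theorem τ_zero : F.τ 0 = 0 := F.κ_inj _ (F.τ_lt (by norm_num)) 0 (by norm_num) (by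
  rw [← F.τ_spec (by norm_num), F.κ_zero, mul_one, F.t_sq])

theorem ττ {x : ℕ} (hx : x < 8) : F.τ (F.τ x) = x := F.κ_inj _ (F.τ_lt (F.τ_lt hx)) x hx (by
  rw [← F.τ_spec (F.τ_lt hx), ← F.τ_spec hx,
    show F.t * (F.t * F.κ x * F.t) * F.t = F.t * F.t * F.κ x * (F.t * F.t) by group, F.t_sq, one_mul, mul_one])

variable {z : ℕ} (ok : TableOk K z)
include ok

theorem τ_mul {x y : ℕ} (hx : x < 8) (hy : y < 8) : F.τ (K.kmul x y) = K.kmul (F.τ x) (F.τ y) := by
  refine F.κ_inj _ (F.τ_lt (ok.kmul_lt x hx y hy)) _ (ok.kmul_lt _ (F.τ_lt hx) _ (F.τ_lt hy)) ?_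
  rw [F.κ_mul _ (F.τ_lt hx) _ (F.τ_lt hy), ← F.τ_spec (ok.kmul_lt x hx y hy), ← F.τ_spec hx, ← F.τ_spec hy,
    F.κ_mul x hx y hy,
    show F.t * F.κ x * F.t * (F.t * F.κ y * F.t) = F.t * F.κ x * (F.t * F.t) * F.κ y * F.t by group,
    F.t_sq, mul_one]
  group

theorem τ_kpow {x : ℕ} (hx : x < 8) : ∀ n, K.kpow x n < 8 ∧ F.τ (K.kpow x n) = K.kpow (F.τ x) n
  | 0 => ⟨by norm_num [KTab.kpow], by rw [KTab.kpow, KTab.kpow]; exact F.τ_zero⟩
  | n + 1 => by
    obtain ⟨h1, h2⟩ := τ_kpow hx n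
    exact ⟨ok.kmul_lt _ h1 x hx, by rw [KTab.kpow, KTab.kpow, τ_mul F ok h1 hx, h2]⟩

theorem τ_z : F.τ z = z := by
  have h := τ_mul F ok ok.z_lt ok.z_lt
  rw [ok.z_sq, τ_zero] at h
  rcases ok.z_unique _ (F.τ_lt ok.z_lt) h.symm with e | e
  · exfalso
    refine ok.z_ne ?_
    rw [← F.ττ ok.z_lt, e, τ_zero]
  · exact e

theorem valid_of_eq {t : ℕ} (ht : ∀ x < 8, get5 t x = F.τ x) : K.valid t = true := by
  simp only [KTab.valid, List.all_eq_true, List.mem_range, Bool.and_eq_true, beq_iff_eq]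
  exact fun x hx => ⟨by rw [ht x hx, ht _ (F.τ_lt hx), F.ττ hx], fun y hy => by
    rw [ht x hx, ht y hy, ht _ (ok.kmul_lt x hx y hy), τ_mul F ok hx hy]⟩

theorem σ_act {x p : ℕ} (hx : x < 8) (hp : p < 27) (hp0 : p ≠ 0) :
    F.σ (K.act x p) = K.act (F.τ x) (F.σ p) := by
  have hq := F.σ_lt' (by omega) hp0
  refine F.σ_eq ((ok.act_lt _ (F.τ_lt hx) _ hq).trans (by norm_num)) ?_
  have h1 := F.κ_smul ok.act_lt hx (p := p) (by omega)
  rw [if_neg (by omega)] at h1
  have h2 := F.κ_smul ok.act_lt (F.τ_lt hx) (p := F.σ p) (by omega)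
  rw [if_neg (by omega), F.pt_σ] at h2
  rw [← h1, ← h2, ← F.τ_spec hx, ← mul_smul, ← mul_smul]
  congr 1
  rw [mul_assoc, F.t_sq, mul_one]

theorem σ_nine : (F.σ 9 = 9 ∨ F.σ 9 = 18) ∧ F.σ 18 = 27 - F.σ 9 := by
  have h := σ_act F ok ok.z_lt (p := 9) (by norm_num) (by norm_num)
  rw [ok.z_fix_nine, τ_z F ok] at h
  have h9 := F.σ_lt' (p := 9) (by norm_num) (by norm_num)
  have hne : F.σ 9 ≠ 0 := fun e => by
    have := F.σσ (p := 9) (by norm_num)
    rw [e, σ_zero] at this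
    norm_num at this
  have h9' : F.σ 9 = 9 ∨ F.σ 9 = 18 := (ok.z_fix _ h9 h.symm).resolve_left hne
  refine ⟨h9', ?_⟩
  rcases h9' with e | e
  · rw [e]
    have hz : K.act z 18 = 18 := by
      by_contra hc
      have hlt := ok.act_lt z ok.z_lt 18 (by norm_num)
      have hn := F.act z ok.z_lt 9 (by norm_num)
      rw [ok.z_fix_nine] at hn
      have h18 := F.act z ok.z_lt 18 (by norm_num)
      rw [show (18 : ℕ) = mulN 9 9 by decide +kernel, F.φ_mul 9 (by norm_num) 9 (by norm_num)] at h18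
      refine hc (F.φ_inj hlt (by norm_num) ?_)
      rw [show (18 : ℕ) = mulN 9 9 by decide +kernel, ← h18, F.φ_mul 9 (by norm_num) 9 (by norm_num)]
      conv_rhs => rw [← hn]
      group
    have h' := σ_act F ok ok.z_lt (p := 18) (by norm_num) (by norm_num)
    rw [hz, τ_z F ok] at h'
    rcases ok.z_fix _ (F.σ_lt' (p := 18) (by norm_num) (by norm_num)) h'.symm with e' | e' | e'
    · have := F.σσ (p := 18) (by norm_num)
      rw [e', σ_zero] at this
      norm_num at this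
    · exact absurd (F.σ_inj (by norm_num) (by norm_num) (e.trans e'.symm)) (by norm_num)
    · rw [e']
  · have := F.σσ (p := 9) (by norm_num)
    rw [e] at this ⊢
    rw [this]

theorem sig_eq {t T n p : ℕ} (ht : ∀ x < 8, get5 t x = F.τ x)
    (hT : ∀ r ≤ n, r < 3 → get5 T r = F.σ (K.rep r)) (hp : p < 28) (hn : K.orb p = 3 ∨ K.orb p ≤ n) :
    sig K T t (F.σ 9) p = F.σ p := by
  rcases ok.orb_spec p hp with ⟨-, rfl | rfl | rfl | rfl⟩ | ⟨hp', ho, hi, he, h0, h9, h18⟩
  · exact F.σ_zero.symm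
  · rfl
  · show Nat.sub 27 (F.σ 9) = _
    rw [(σ_nine F ok).2]; rfl
  · exact F.σ_last.symm
  · have hb : ∀ m, p ≠ m → Nat.beq p m = false := fun m hm => by
      cases h : Nat.beq p m
      · rfl
      · exact absurd (Nat.eq_of_beq_eq_true h) hm
    simp only [sig, hb 0 h0, hb 27 (by omega), hb 9 h9, hb 18 h18, cond_false]
    rw [ht _ hi, hT _ (by omega) ho]
    have hr := ok.rep_spec _ ho
    have hr0 : K.rep (K.orb p) ≠ 0 := fun e => h0 (by rw [← he, e, ok.act_zero _ hi])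
    conv_rhs => rw [← he, σ_act F ok hi hr.1 hr0]

theorem σ_rep {n : ℕ} (hn : n < 3) : K.orb (F.σ (K.rep n)) ≠ 3 ∧ F.σ (K.rep n) < 27 := by
  obtain ⟨h1, h2, -⟩ := ok.rep_spec n hn
  have hne : K.rep n ≠ 0 ∧ K.rep n ≠ 9 ∧ K.rep n ≠ 18 := by
    rcases ok.orb_spec (K.rep n) (by omega) with ⟨h, -⟩ | ⟨-, -, -, -, h⟩
    · omega
    · exact h
  refine ⟨fun e => ?_, F.σ_lt' (by omega) hne.1⟩
  rcases ok.orb_spec _ (F.σ_lt (K.rep n)) with ⟨-, h⟩ | ⟨-, h, -⟩
  swap; · omega
  have hs := F.σσ (p := K.rep n) (by omega)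
  obtain ⟨h9, h18⟩ := σ_nine F ok
  rcases h with h | h | h | h <;> rw [h] at hs
  · rw [σ_zero] at hs; omega
  · omega
  · omega
  · rw [σ_last] at hs; omega

/-- The element of the point stabiliser attached to `u`. -/
theorem σ_stab {u : ℕ} (hu : u < 27) (hu0 : u ≠ 0) :
    ∃ x < 8, ∀ p < 27, stab F.σ u p = mulN (stab F.σ u 0) (K.act x p) := by
  have hv : F.σ u < 27 := F.σ_lt' (by omega) hu0
  have hv' := invN_lt hv
  set g := F.t * F.φ (invN (F.σ u)) * F.t * F.φ u * F.t with hg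
  have hgp : ∀ p < 28, g • F.pt p = F.pt (stab F.σ u p) := by
    intro p hp
    have h1 := trv_lt hu (F.σ_lt p)
    rw [hg]
    simp only [mul_smul]
    rw [← F.pt_σ p, F.φ_smul hu (F.σ_lt p), ← F.pt_σ, F.φ_smul hv' (F.σ_lt _), ← F.pt_σ]
    rfl
  have hgN : g ∈ F.N := by
    have h := hgp 27 (by norm_num)
    rw [stab, F.σ_last, trv_of_lt (v := u) (p := 0) (by norm_num), (mulN_zero u hu).1,
      trv_of_lt (p := F.σ u) hv, (mulN_zero _ hv).2,
      F.σ_zero, F.pt_last, MulAction.Quotient.smul_mk, smul_eq_mul, mul_one] at h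
    have h' := QuotientGroup.eq.1 h.symm
    rwa [inv_one, one_mul] at h'
  obtain ⟨a, ha, x, hx, e⟩ := F.cover g hgN
  have key : ∀ p < 27, stab F.σ u p = mulN a (K.act x p) := by
    intro p hp
    have hlt := mulN_lt ha (ok.act_lt x hx p hp)
    refine F.pt_inj (F.σ_lt _) (hlt.trans (by norm_num)) ?_
    rw [← hgp p (by omega), e, mul_smul, F.κ_smul ok.act_lt hx (by omega), if_neg (by omega),
      F.φ_smul ha ((ok.act_lt x hx p hp).trans (by norm_num)), trv_of_lt (ok.act_lt x hx p hp)]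
  refine ⟨x, hx, fun p hp => ?_⟩
  rw [key 0 (by norm_num), ok.act_zero x hx, (mulN_zero a ha).1]
  exact key p hp

theorem search_good {good : ℕ → Bool} {t : ℕ} (ht : ∀ x < 8, get5 t x = F.τ x)
    (h : searchAt K good t (F.σ 9) = true) : good (pack F.σ) = true := by
  set q₀ := F.σ (K.rep 0) with hq₀
  set q₁ := F.σ (K.rep 1) with hq₁
  set q₂ := F.σ (K.rep 2) with hq₂
  obtain ⟨o₀, l₀⟩ := σ_rep F ok (n := 0) (by norm_num)
  obtain ⟨o₁, l₁⟩ := σ_rep F ok (n := 1) (by norm_num)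
  obtain ⟨o₂, l₂⟩ := σ_rep F ok (n := 2) (by norm_num)
  have hT₀ : ∀ r ≤ 0, r < 3 → get5 q₀ r = F.σ (K.rep r) := fun r hr _ => by
    obtain rfl : r = 0 := by omega
    rw [get5_zero]; omega
  have hT₁ : ∀ r ≤ 1, r < 3 → get5 (q₀ + 32 * q₁) r = F.σ (K.rep r) := fun r hr _ => by
    obtain rfl | rfl : r = 0 ∨ r = 1 := by omega
    · rw [get5_zero]; omega
    · rw [get5_succ, get5_zero]; omega
  have hT₂ : ∀ r ≤ 2, r < 3 → get5 (q₀ + 32 * q₁ + 1024 * q₂) r = F.σ (K.rep r) := fun r hr _ => by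
    obtain rfl | rfl | rfl : r = 0 ∨ r = 1 ∨ r = 2 := by omega
    · rw [get5_zero]; omega
    · rw [get5_succ, get5_zero]; omega
    · rw [get5_succ, get5_succ, get5_zero]; omega
  have hpre : ∀ T n, n < 3 → (∀ r ≤ n, r < 3 → get5 T r = F.σ (K.rep r)) →
      pre K T t (F.σ 9) n = true := by
    intro T n hn hT
    simp only [pre, List.all_eq_true, List.mem_range, Bool.or_eq_true]
    intro x hx
    obtain ⟨hr, -, hr'⟩ := ok.rep_spec n hn
    have hp := ok.act_lt x hx _ hr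
    rw [sig_eq F ok ht hT (by omega) (Or.inr (hr' x hx).le)]
    by_cases h3 : K.orb (F.σ (K.act x (K.rep n))) = 3
    · exact Or.inl (Or.inl (by rw [h3]; rfl))
    by_cases hlt : n < K.orb (F.σ (K.act x (K.rep n)))
    · exact Or.inl (Or.inr (Nat.ble_eq_true_of_le hlt))
    · refine Or.inr ?_
      rw [sig_eq F ok ht hT (F.σ_lt _) (Or.inr (by omega)), F.σσ (by omega)]
      exact Nat.beq_refl _
  have hcl : ∀ T n, (∀ r ≤ n, r < 3 → get5 T r = F.σ (K.rep r)) → cl K T t (F.σ 9) n = true := by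
    intro T n hT
    obtain ⟨x, hx, hxp⟩ := σ_stab F ok (u := 9) (by norm_num) (by norm_num)
    have hb := (σ_nine F ok).1
    have hv : invN (F.σ 9) < 27 := invN_lt (by omega)
    have hkn : ∀ q < 28, (!(known K n q)) = false → sig K T t (F.σ 9) q = F.σ q := by
      intro q hq hk
      simp only [Bool.not_eq_false', known, Bool.or_eq_true] at hk
      exact sig_eq F ok ht hT hq (hk.imp Nat.eq_of_beq_eq_true Nat.le_of_ble_eq_true)
    have e : stab (sig K T t (F.σ 9)) 9 0 = stab F.σ 9 0 := by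
      have hs9 : sig K T t (F.σ 9) 9 = F.σ 9 := rfl
      have hs0 : sig K T t (F.σ 9) 0 = F.σ 0 := F.σ_zero.symm
      have hs27 : sig K T t (F.σ 9) 27 = F.σ 27 := F.σ_last.symm
      rw [stab, stab, hs9, hs0, F.σ_zero, trv_last, hs27, F.σ_last, trv_of_lt (by norm_num),
        (mulN_zero _ hv).1]
      refine sig_eq F ok ht hT (by omega) (Or.inl ?_)
      rcases hb with e | e <;> rw [e]
      · have h18 : invN 9 = 18 := by decide +kernel
        rw [h18]
        exact ((ok.orb_spec 18 (by norm_num)).resolve_right fun h => h.2.2.2.2.2.2 rfl).1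
      · have h9 : invN 18 = 9 := by decide +kernel
        rw [h9]
        exact ((ok.orb_spec 9 (by norm_num)).resolve_right fun h => h.2.2.2.2.2.1 rfl).1
    simp only [cl, List.any_eq_true, List.all_eq_true, List.mem_range]
    refine ⟨x, hx, fun p hp => ?_⟩
    cases h₁ : (!(known K n p))
    swap; · rfl
    rw [Bool.false_or, hkn p (by omega) h₁]
    cases h₂ : (!(known K n (trv 9 (F.σ p))))
    swap; · rfl
    rw [Bool.false_or, hkn _ (trv_lt (by norm_num) (F.σ_lt p)) h₂]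
    cases h₃ : (!(known K n (trv (invN (F.σ 9)) (F.σ (trv 9 (F.σ p))))))
    swap; · rfl
    rw [Bool.false_or, hkn _ (trv_lt hv (F.σ_lt _)) h₃, e]
    rw [show F.σ (trv (invN (F.σ 9)) (F.σ (trv 9 (F.σ p)))) = stab F.σ 9 p from rfl, hxp p hp]
    exact Nat.beq_refl _
  have hfull : ∀ p < 28, sig K (q₀ + 32 * q₁ + 1024 * q₂) t (F.σ 9) p = F.σ p := fun p hp =>
    sig_eq F ok ht hT₂ hp (by rcases ok.orb_spec p hp with h | h <;> omega)
  have hclosed : closed K (sig K (q₀ + 32 * q₁ + 1024 * q₂) t (F.σ 9)) = true := by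
    simp only [closed, List.any_eq_true, List.all_eq_true, List.mem_range]
    intro u hu
    obtain ⟨x, hx, hxp⟩ := σ_stab F ok (u := u + 1) (by omega) (by omega)
    have e : ∀ p < 28, stab (sig K (q₀ + 32 * q₁ + 1024 * q₂) t (F.σ 9)) (u + 1) p = stab F.σ (u + 1) p := by
      intro p hp
      rw [stab, stab, hfull p hp, hfull (u + 1) (by omega), hfull _ (trv_lt (by omega) (F.σ_lt p)),
        hfull _ (trv_lt (invN_lt (F.σ_lt' (by omega) (by omega))) (F.σ_lt _))]
    refine ⟨x, hx, fun p hp => ?_⟩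
    rw [e p (by omega), e 0 (by norm_num), hxp p hp]
    exact Nat.beq_refl _
  simp only [searchAt, List.all_eq_true, List.mem_range] at h
  have hb3 : ∀ q, K.orb q ≠ 3 → Nat.beq (K.orb q) 3 = false := fun q hq => by
    cases h : Nat.beq (K.orb q) 3
    · rfl
    · exact absurd (Nat.eq_of_beq_eq_true h) hq
  have h₀ := h q₀ l₀
  rw [hb3 q₀ o₀, hpre _ 0 (by norm_num) hT₀, hcl _ 0 hT₀] at h₀
  simp only [Bool.and_self, Bool.not_true, Bool.false_or, List.all_eq_true, List.mem_range] at h₀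
  have h₁ := h₀ q₁ l₁
  rw [hb3 q₁ o₁, hpre _ 1 (by norm_num) hT₁, hcl _ 1 hT₁] at h₁
  simp only [Bool.and_self, Bool.not_true, Bool.false_or, List.all_eq_true, List.mem_range] at h₁
  have h₂ := h₁ q₂ l₂
  rw [hb3 q₂ o₂, hpre _ 2 (by norm_num) hT₂, hclosed] at h₂
  simp only [Bool.not_true, Bool.false_or] at h₂
  rwa [pack_congr hfull] at h₂

end Frame

theorem not_frame_tabQ {G : Type u} [Group G] (F : Frame G tabQ) : False := by
  have hdec : ∀ x < 8, x = tabQ.kmul (tabQ.kpow 1 (x % 4)) (if x < 4 then 0 else 4) := by decide +kernel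
  have hget : ∀ g < 8, ∀ h < 8, ∀ x < 8, get5 (tabQ.tauT false g h) x = tabQ.tau false g h x := by
    decide +kernel
  have ht : ∀ x < 8, get5 (tabQ.tauT false (F.τ 1) (F.τ 4)) x = F.τ x := by
    intro x hx
    obtain ⟨h1, h2⟩ := Frame.τ_kpow F tabQ_ok (x := 1) (by norm_num) (x % 4)
    rw [hget _ (F.τ_lt (by norm_num)) _ (F.τ_lt (by norm_num)) x hx]
    conv_rhs => rw [hdec x hx, Frame.τ_mul F tabQ_ok h1 (by split_ifs <;> norm_num), h2]
    simp only [KTab.tau, Bool.false_eq_true, if_false]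
    split_ifs <;> simp [Frame.τ_zero]
  have h := Frame.search_good F tabQ_ok ht (searchQ _
    (tausQ_spec _ (F.τ_lt (by norm_num)) _ (F.τ_lt (by norm_num)) (Frame.valid_of_eq F tabQ_ok ht))
    (F.σ 9) (by simpa using (Frame.σ_nine F tabQ_ok).1))
  exact Bool.false_ne_true h

theorem exists_frame_sol {G : Type u} [Group G] (F : Frame G tabZ) :
    ∃ F' : Frame G tabZ, ∀ p < 28, F'.σ p = get5 sol₁ p := by
  have hdec : ∀ x < 8, x = tabZ.kpow 1 x := by decide +kernel
  have hget : ∀ g < 8, ∀ x < 8, get5 (tabZ.tauT true g 0) x = tabZ.tau true g 0 x := by decide +kernel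
  have ht : ∀ x < 8, get5 (tabZ.tauT true (F.τ 1) 0) x = F.τ x := by
    intro x hx
    rw [hget _ (F.τ_lt (by norm_num)) x hx]
    conv_rhs => rw [hdec x hx, (Frame.τ_kpow F tabZ_ok (x := 1) (by norm_num) x).2]
    simp [KTab.tau]
  have h := Frame.search_good F tabZ_ok ht (searchZ _
    (tausZ_spec _ (F.τ_lt (by norm_num)) (Frame.valid_of_eq F tabZ_ok ht))
    (F.σ 9) (by simpa using (Frame.σ_nine F tabZ_ok).1))
  have hdecode : ∀ p < 28, get5 (pack F.σ) p = F.σ p := fun p hp => by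
    rw [pack, get5_pack F.σ _ (fun i _ => (F.σ_lt i).trans (by norm_num)) p (by simpa using hp),
      List.getElem_range]
  simp only [Bool.or_eq_true, beq_iff_eq] at h
  rcases h with h | h
  · exact ⟨F, fun p hp => by rw [← hdecode p hp, h]⟩
  have h4 : (4 : ℕ) < 8 := by norm_num
  have hz : F.t * F.κ 4 = F.κ 4 * F.t := by
    have e := F.τ_spec h4
    rw [Frame.τ_z F tabZ_ok] at e
    calc F.t * F.κ 4 = F.t * F.κ 4 * (F.t * F.t) := by rw [F.t_sq, mul_one]
      _ = _ := by rw [← mul_assoc, e]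
  have hz2 : F.κ 4 * F.κ 4 = 1 := by
    rw [← F.κ_mul 4 h4 4 h4, tabZ_ok.z_sq, F.κ_zero]
  have hzN : F.κ 4 ∈ F.N := F.κ_mem 4 h4
  let F' : Frame G tabZ := { F with
    t := F.t * F.κ 4
    t_sq := by rw [mul_assoc, ← mul_assoc (F.κ 4), ← hz, mul_assoc, hz2, mul_one, F.t_sq]
    t_notMem := fun e => F.t_notMem ((Subgroup.mul_mem_cancel_right _ hzN).1 e)
    t_norm := fun x hx => by
      have h1 := tabZ_ok.kmul_lt 4 h4 x hx
      have h2 := tabZ_ok.kmul_lt _ h1 4 h4
      refine ⟨F.τ (tabZ.kmul (tabZ.kmul 4 x) 4), F.τ_lt h2, ?_⟩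
      rw [← F.τ_spec h2, F.κ_mul _ h1 4 h4, F.κ_mul 4 h4 x hx]
      conv_lhs => arg 2; rw [hz]
      simp only [mul_assoc]
    points := fun g hg => by
      obtain ⟨p, hp, e⟩ := F.points g hg
      refine ⟨p, hp, ?_⟩
      rw [← mul_assoc, mul_inv_rev, mul_assoc]
      exact mul_mem (inv_mem hzN) e
    unique := fun p hp q hq e => F.unique p hp q hq (by
      rw [← mul_assoc (F.φ p), mul_inv_rev, ← mul_assoc (F.φ q), mul_assoc, ← mul_assoc _ (F.φ q * F.t),
        Subgroup.mul_mem_cancel_left _ (inv_mem hzN), Subgroup.mul_mem_cancel_right _ hzN] at e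
      exact e) }
  have hpt : ∀ p, F'.pt p = F.pt p := by
    intro p
    by_cases hp : p = 27
    · subst hp; rfl
    · show (if p = 27 then ((1 : G) : G ⧸ F.N) else ((F.φ p * (F.t * F.κ 4) : G) : G ⧸ F.N)) = _
      rw [Frame.pt, if_neg hp, if_neg hp, ← mul_assoc, QuotientGroup.eq, mul_inv_rev,
        inv_mul_cancel_right]
      exact inv_mem hzN
  have hsol : ∀ p < 28, get5 sol₂ (if p = 27 then 27 else tabZ.act 4 p) = get5 sol₁ p := by decide +kernel
  refine ⟨F', fun p hp => ?_⟩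
  have hlt : (if p = 27 then 27 else tabZ.act 4 p) < 28 := by
    split_ifs with h'
    · norm_num
    · exact (tabZ_ok.act_lt 4 h4 p (by omega)).trans (by norm_num)
  rw [← hsol p hp, ← h, hdecode _ hlt]
  refine F'.σ_eq (F.σ_lt _) ?_
  rw [hpt p, hpt]
  show (F.t * F.κ 4) • F.pt p = _
  rw [mul_smul, F.κ_smul tabZ_ok.act_lt h4 hp, Frame.pt_σ]

theorem exists_perm {A : Type u} [Group A] [IsSimpleGroup A] (F : Frame A tabZ) :
    ∃ f : A →* Equiv.Perm (Fin 28), Function.Injective f ∧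
      f.range = Subgroup.closure {f (F.φ 1), f (F.κ 1), f F.t} ∧
      (∀ p : Fin 28, (f (F.φ 1) p : ℕ) = trv 1 p) ∧
      (∀ p : Fin 28, (f (F.κ 1) p : ℕ) = if (p : ℕ) = 27 then 27 else tabZ.act 1 p) ∧
      (∀ p : Fin 28, (f F.t p : ℕ) = F.σ p) := by
  classical
  let e : Fin 28 ≃ A ⧸ F.N := Equiv.ofBijective (fun p => F.pt p)
    ⟨fun p q h => Fin.ext (F.pt_inj p.2 q.2 h), fun x => by
      obtain ⟨p, hp, h⟩ := F.pt_surj x; exact ⟨⟨p, hp⟩, h⟩⟩
  let f : A →* Equiv.Perm (Fin 28) := (e.symm.permCongrHom.toMonoidHom).comp (MulAction.toPermHom A (A ⧸ F.N))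
  have hf : ∀ (g : A) (p : Fin 28) (q : ℕ), q < 28 → g • F.pt p = F.pt q → (f g p : ℕ) = q := by
    intro g p q hq h
    have : f g p = e.symm (g • e p) := rfl
    rw [this, show g • e p = e ⟨q, hq⟩ from h, Equiv.symm_apply_apply]
  have ht : ∀ p : Fin 28, (f F.t p : ℕ) = F.σ p := fun p => hf _ p _ (F.σ_lt p) (F.pt_σ p).symm
  refine ⟨f, ?_, ?_, fun p => hf _ p _ (trv_lt (by norm_num) p.2) (F.φ_smul (by norm_num) p.2),
    fun p => hf _ p _ ?_ (F.κ_smul tabZ_ok.act_lt (by norm_num) p.2), ht⟩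
  · rcases IsSimpleGroup.eq_bot_or_eq_top_of_normal f.ker (MonoidHom.normal_ker f) with h | h
    · exact (MonoidHom.ker_eq_bot_iff f).1 h
    · exfalso
      have h1 : f F.t = 1 := MonoidHom.mem_ker.1 (h.symm ▸ Subgroup.mem_top F.t)
      have h2 := ht ⟨27, by norm_num⟩
      rw [h1, Equiv.Perm.one_apply, F.σ_last] at h2
      norm_num at h2
  · have htop : Subgroup.closure ({F.φ 1, F.κ 1, F.t} : Set A) = ⊤ := by
      set H := Subgroup.closure ({F.φ 1, F.κ 1, F.t} : Set A)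
      have hφ1 : F.φ 1 ∈ H := Subgroup.subset_closure (by simp)
      have hκ1 : F.κ 1 ∈ H := Subgroup.subset_closure (by simp)
      have htH : F.t ∈ H := Subgroup.subset_closure (by simp)
      have hmul : ∀ x < 27, ∀ y < 27, F.φ x ∈ H → F.φ y ∈ H → F.φ (mulN x y) ∈ H :=
        fun x hx y hy h1 h2 => by rw [F.φ_mul x hx y hy]; exact mul_mem h1 h2
      have hinv : ∀ x < 27, F.φ x ∈ H → F.φ (invN x) ∈ H := fun x hx h => hmul x hx x hx h h
      have hφ3 : F.φ 3 ∈ H := by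
        have e := F.act 1 (by norm_num) 1 (by norm_num)
        rw [show tabZ.act 1 1 = 3 by decide +kernel] at e
        rw [← e]
        exact mul_mem (mul_mem hκ1 hφ1) (inv_mem hκ1)
      have hφ9 : F.φ 9 ∈ H := by
        rw [show (9 : ℕ) = commN 1 3 by decide +kernel]
        exact hmul _ (mulN_lt (mulN_lt (by norm_num) (by norm_num)) (invN_lt (by norm_num))) _
          (invN_lt (by norm_num)) (hmul _ (mulN_lt (by norm_num) (by norm_num)) _ (invN_lt (by norm_num))
            (hmul _ (by norm_num) _ (by norm_num) hφ1 hφ3) (hinv 1 (by norm_num) hφ1))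
          (hinv 3 (by norm_num) hφ3)
      have hpow : ∀ x < 27, F.φ x ∈ H → ∀ n, F.φ (powN x n) ∈ H := by
        intro x hx h n
        induction n with
        | zero => rw [powN, F.φ_zero]; exact one_mem _
        | succ n ih => exact hmul _ (powN_lt hx n) x hx ih h
      have hdec : ∀ p < 27, p = mulN (mulN (powN 1 (p % 3)) (powN 3 (p / 3 % 3))) (powN 9 (p / 9)) := by
        decide +kernel
      have hφ : ∀ p < 27, F.φ p ∈ H := fun p hp => by
        rw [hdec p hp]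
        exact hmul _ (mulN_lt (powN_lt (by norm_num) _) (powN_lt (by norm_num) _)) _ (powN_lt (by norm_num) _)
          (hmul _ (powN_lt (by norm_num) _) _ (powN_lt (by norm_num) _) (hpow 1 (by norm_num) hφ1 _)
            (hpow 3 (by norm_num) hφ3 _)) (hpow 9 (by norm_num) hφ9 _)
      have hκ : ∀ x, x < 8 → F.κ x ∈ H := by
        intro x
        induction x with
        | zero => intro _; rw [F.κ_zero]; exact one_mem _
        | succ x ih =>
          intro hx
          have e := F.κ_mul x (by omega) 1 (by norm_num)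
          rw [tabZ_kmul x (by omega) 1 (by norm_num), Nat.mod_eq_of_lt hx] at e
          rw [e]
          exact mul_mem (ih (by omega)) hκ1
      have hN : ∀ g ∈ F.N, g ∈ H := fun g hg => by
        obtain ⟨p, hp, x, hx, rfl⟩ := F.cover g hg
        exact mul_mem (hφ p hp) (hκ x hx)
      refine (Subgroup.eq_top_iff' H).2 fun g => ?_
      by_cases hg : g ∈ F.N
      · exact hN g hg
      · obtain ⟨p, hp, h⟩ := F.points g hg
        have h' := mul_mem (mul_mem (hφ p hp) htH) (hN _ h)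
        rwa [mul_inv_cancel_left] at h'
    rw [MonoidHom.range_eq_map, ← htop, MonoidHom.map_closure]
    simp [Set.image_insert_eq, Set.image_singleton]
  · split_ifs with h
    · norm_num
    · exact (tabZ_ok.act_lt 1 (by norm_num) p (by omega)).trans (by norm_num)

theorem nonempty_mulEquiv {G : Type u} {H : Type v} [Group G] [Group H] [IsSimpleGroup G] [IsSimpleGroup H]
    (F : Frame G tabZ) (F' : Frame H tabZ) (hF : ∀ p < 28, F.σ p = get5 sol₁ p)
    (hF' : ∀ p < 28, F'.σ p = get5 sol₁ p) : Nonempty (G ≃* H) := by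
  classical
  obtain ⟨f, hf, hr, ha, hk, ht⟩ := exists_perm F
  obtain ⟨f', hf', hr', ha', hk', ht'⟩ := exists_perm F'
  have hrr : f.range = f'.range := by
    rw [hr, hr', show f (F.φ 1) = f' (F'.φ 1) from Equiv.ext fun p => Fin.ext ((ha p).trans (ha' p).symm),
      show f (F.κ 1) = f' (F'.κ 1) from Equiv.ext fun p => Fin.ext ((hk p).trans (hk' p).symm),
      show f F.t = f' F'.t from Equiv.ext fun p => Fin.ext (by rw [ht p, ht' p, hF p p.2, hF' p p.2])]
  exact ⟨(MonoidHom.ofInjective hf).trans ((MulEquiv.subgroupCongr hrr).trans (MonoidHom.ofInjective hf').symm)⟩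

/-- A simple group of order 6048 without elements of order 9 has coordinates. -/
theorem exists_frame_of_hyp {G : Type u} [Group G] [Fintype G] [IsSimpleGroup G] (hG : Hyp G) :
    ∃ F : Frame G tabZ, ∀ p < 28, F.σ p = get5 sol₁ p := by
  rcases exists_frame hG with ⟨⟨F⟩⟩ | ⟨⟨F⟩⟩
  · exact exists_frame_sol F
  · exact (not_frame_tabQ F).elim

theorem nonempty_mulEquiv_of_hyp {G : Type u} {H : Type v} [Group G] [Group H] [Finite G] [Finite H]
    [IsSimpleGroup G] [IsSimpleGroup H] (hG : Hyp G) (hH : Hyp H) : Nonempty (G ≃* H) := by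
  letI := Fintype.ofFinite G
  letI := Fintype.ofFinite H
  obtain ⟨F, hF⟩ := exists_frame_of_hyp hG
  obtain ⟨F', hF'⟩ := exists_frame_of_hyp hH
  exact nonempty_mulEquiv F F' hF hF'

end Cfsg.Agent.G2Two
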